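import Mathlib
import Cfsg.Agent.Lib.Helper94.OPStmt

/-!
# S5989 / NEGSQNON5 (helper92, third seat): permutation-sign route

`d` odd, `q ≡ 5 (mod 8)`: no element of `Omega^+_(2d)(q)` has `x * x = -1`.

Route (no spinor norm): the isometry group acts on `X = {v | Q v = 1}`, of cardinality
`(q ^ d - 1) * q ^ (d - 1) ≡ 4 (mod 8)`.  The sign of this action is a homomorphism to `ℤˣ`, so it
is trivial on the commutator subgroup `Omega`.  An isometry with `x * x = -1` acts on `X` with all
cycles of length `4` (no fixed points of `x ^ 2 = -1`), hence with sign `(-1) ^ (|X| / 4) = -1`.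
-/

set_option autoImplicit false

universe u

open scoped Matrix

namespace Cfsg.Agent.Lib.Helper92.OPNEGSQNON5

open Cfsg.Agent.Lib.Helper94.OPStmt

/-! ## sign of a permutation with all cycles of length four -/

theorem sign_eq_neg_one {α : Type*} [Fintype α] [DecidableEq α] (σ : Equiv.Perm α)
    (h4 : σ ^ 4 = 1) (h2 : ∀ a, σ (σ a) ≠ a) (hcard : Fintype.card α % 8 = 4) :
    Equiv.Perm.sign σ = -1 := by
  have hall : ∀ n ∈ σ.cycleType, n = 4 := by
    intro n hn
    have h1 : n ∣ 4 := (Equiv.Perm.dvd_of_mem_cycleType hn).trans (orderOf_dvd_of_pow_eq_one h4)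
    have h2' : 2 ≤ n := Equiv.Perm.two_le_of_mem_cycleType hn
    have hle : n ≤ 4 := Nat.le_of_dvd (by norm_num) h1
    interval_cases n
    · exfalso
      rw [Equiv.Perm.cycleType_def, Multiset.mem_map] at hn
      obtain ⟨c, hc, hc2⟩ := hn
      rw [Finset.mem_val, Equiv.Perm.mem_cycleFactorsFinset_iff] at hc
      obtain ⟨hcyc, hca⟩ := hc
      have hord : orderOf c = 2 := by rw [hcyc.orderOf]; exact hc2
      obtain ⟨a, ha, -⟩ := hcyc
      have ha1 : a ∈ c.support := Equiv.Perm.mem_support.mpr ha
      have hcc : c (c a) = a := by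
        have h := pow_orderOf_eq_one c
        rw [hord] at h
        have h' := congrArg (fun f : Equiv.Perm α => f a) h
        simpa [pow_two] using h'
      have ha' : c a ∈ c.support := Equiv.Perm.apply_mem_support.mpr ha1
      apply h2 a
      rw [← hca a ha1, ← hca (c a) ha', hcc]
    · exfalso; revert h1; norm_num
    · rfl
  have hsupp : σ.support = Finset.univ := by
    ext a
    simp only [Equiv.Perm.mem_support, Finset.mem_univ, iff_true]
    intro ha
    exact h2 a (by rw [ha, ha])
  have hsum : σ.cycleType.sum = Fintype.card α := by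
    rw [Equiv.Perm.sum_cycleType, hsupp, Finset.card_univ]
  have hrep : σ.cycleType = Multiset.replicate (Multiset.card σ.cycleType) 4 :=
    Multiset.eq_replicate_card.mpr hall
  have hsum' : Multiset.card σ.cycleType * 4 = Fintype.card α := by
    rw [← hsum]
    conv_rhs => rw [hrep]
    simp
  rw [Equiv.Perm.sign_of_cycleType]
  have hodd : Odd (σ.cycleType.sum + Multiset.card σ.cycleType) := by
    rw [hsum, Nat.odd_iff]
    omega
  exact hodd.neg_one_pow

/-! ## the invariant set and the action -/

/-- the vectors of norm `1` -/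
abbrev X (d : ℕ) (F : Type u) [Field F] : Type u :=
  {v : P d → F // Cfsg.quadFormPlus d F v = 1}

theorem iso_apply {F : Type u} [Field F] {d : ℕ} {g : Matrix.GeneralLinearGroup (P d) F}
    (hg : g ∈ Cfsg.isometryGroup F (Cfsg.quadFormPlus d F)) (v : P d → F) :
    Cfsg.quadFormPlus d F ((g : Matrix (P d) (P d) F) *ᵥ v) = Cfsg.quadFormPlus d F v :=
  hg v v

/-- the action of an isometry on the vectors of norm `1` -/
def act {F : Type u} [Field F] {d : ℕ} (g : Cfsg.isometryGroup F (Cfsg.quadFormPlus d F)) :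
    Equiv.Perm (X d F) where
  toFun v := ⟨(g.1 : Matrix (P d) (P d) F) *ᵥ v.1, by rw [iso_apply g.2]; exact v.2⟩
  invFun v := ⟨((g⁻¹).1 : Matrix (P d) (P d) F) *ᵥ v.1, by rw [iso_apply (g⁻¹).2]; exact v.2⟩
  left_inv v := by
    apply Subtype.ext
    show ((g⁻¹).1 : Matrix (P d) (P d) F) *ᵥ ((g.1 : Matrix (P d) (P d) F) *ᵥ v.1) = v.1
    rw [Matrix.mulVec_mulVec, ← Units.val_mul, ← Subgroup.coe_mul, inv_mul_cancel]
    simp
  right_inv v := by
    apply Subtype.ext
    show (g.1 : Matrix (P d) (P d) F) *ᵥ (((g⁻¹).1 : Matrix (P d) (P d) F) *ᵥ v.1) = v.1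
    rw [Matrix.mulVec_mulVec, ← Units.val_mul, ← Subgroup.coe_mul, mul_inv_cancel]
    simp

theorem act_apply {F : Type u} [Field F] {d : ℕ}
    (g : Cfsg.isometryGroup F (Cfsg.quadFormPlus d F)) (v : X d F) :
    ((act g v : X d F) : P d → F) = (g.1 : Matrix (P d) (P d) F) *ᵥ v.1 := rfl

/-- the action as a homomorphism -/
def actHom {F : Type u} [Field F] {d : ℕ} :
    Cfsg.isometryGroup F (Cfsg.quadFormPlus d F) →* Equiv.Perm (X d F) where
  toFun := act
  map_one' := by
    ext v
    rw [act_apply]
    simp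
  map_mul' g h := by
    ext v
    rw [Equiv.Perm.mul_apply, act_apply, act_apply, act_apply, Matrix.mulVec_mulVec,
      Subgroup.coe_mul, Units.val_mul]

/-! ## counting -/

theorem card_fiber {F : Type u} [Field F] [Fintype F] {d : ℕ} (x : Fin d → F) (hx : x ≠ 0) :
    Nat.card {y : Fin d → F // x ⬝ᵥ y = 1} = Fintype.card F ^ (d - 1) := by
  classical
  let φ : (Fin d → F) →ₗ[F] F :=
    { toFun := fun y => x ⬝ᵥ y
      map_add' := fun y z => dotProduct_add x y z
      map_smul' := fun c y => by simp [dotProduct_smul] }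
  obtain ⟨j, hj⟩ : ∃ j, x j ≠ 0 := by
    by_contra hcon
    push_neg at hcon
    exact hx (funext hcon)
  set y₀ : Fin d → F := Pi.single j (x j)⁻¹ with hy₀
  have hφy₀ : φ y₀ = 1 := by
    show x ⬝ᵥ y₀ = 1
    rw [hy₀, dotProduct_single, mul_inv_cancel₀ hj]
  have hsurj : LinearMap.range φ = ⊤ := by
    rw [LinearMap.range_eq_top]
    intro c
    exact ⟨c • y₀, by rw [map_smul, hφy₀, smul_eq_mul, mul_one]⟩
  have hrk := LinearMap.finrank_range_add_finrank_ker φ
  rw [hsurj, finrank_top, Module.finrank_self, Module.finrank_fin_fun] at hrk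
  have hker : Module.finrank F ↥(LinearMap.ker φ) = d - 1 := by omega
  have e : {y : Fin d → F // x ⬝ᵥ y = 1} ≃ ↥(LinearMap.ker φ) :=
    { toFun := fun y => ⟨y.1 - y₀, by
        rw [LinearMap.mem_ker, map_sub, hφy₀]
        show x ⬝ᵥ y.1 - 1 = 0
        rw [y.2, sub_self]⟩
      invFun := fun z => ⟨z.1 + y₀, by
        have hz : φ z.1 = 0 := z.2
        have : φ (z.1 + y₀) = 1 := by rw [map_add, hz, hφy₀, zero_add]
        exact this⟩
      left_inv := fun y => by apply Subtype.ext; simp
      right_inv := fun z => by apply Subtype.ext; simp }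
  rw [Nat.card_congr e, Nat.card_eq_fintype_card, Module.card_eq_pow_finrank (K := F), hker]

theorem card_X {F : Type u} [Field F] [Fintype F] (d : ℕ) :
    Nat.card (X d F) = (Fintype.card F ^ d - 1) * Fintype.card F ^ (d - 1) := by
  classical
  let e : X d F ≃ Σ x : {x : Fin d → F // x ≠ 0}, {y : Fin d → F // x.1 ⬝ᵥ y = 1} :=
    { toFun := fun v => ⟨⟨fun i => v.1 (Sum.inl i), by
          intro h0
          have hv := v.2
          unfold Cfsg.quadFormPlus at hv
          have : (∑ i : Fin d, v.1 (Sum.inl i) * v.1 (Sum.inr i)) = 0 := by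
            apply Finset.sum_eq_zero
            intro i _
            have := congrFun h0 i
            simp only [Pi.zero_apply] at this
            rw [this, zero_mul]
          rw [this] at hv
          exact zero_ne_one hv⟩, ⟨fun i => v.1 (Sum.inr i), v.2⟩⟩
      invFun := fun s => ⟨Sum.elim s.1.1 s.2.1, s.2.2⟩
      left_inv := fun v => by
        apply Subtype.ext
        funext i
        cases i <;> rfl
      right_inv := fun s => by
        obtain ⟨⟨x, hx⟩, ⟨y, hy⟩⟩ := s
        rfl }
  rw [Nat.card_congr e, Nat.card_sigma]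
  have h1 : ∀ x : {x : Fin d → F // x ≠ 0},
      Nat.card {y : Fin d → F // x.1 ⬝ᵥ y = 1} = Fintype.card F ^ (d - 1) :=
    fun x => card_fiber x.1 x.2
  simp only [h1]
  rw [Finset.sum_const, Finset.card_univ, smul_eq_mul]
  congr 1
  rw [Fintype.card_subtype_compl, Fintype.card_subtype_eq, Fintype.card_fun, Fintype.card_fin]

theorem card_X_mod {F : Type u} [Field F] [Fintype F] (d : ℕ) (hq : Fintype.card F % 8 = 5)
    (hd : Odd d) : Nat.card (X d F) % 8 = 4 := by
  rw [card_X]
  obtain ⟨k, rfl⟩ := hd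
  have h1 : Fintype.card F ^ (2 * k) % 8 = 1 := by
    rw [pow_mul, Nat.pow_mod, Nat.pow_mod (Fintype.card F) 2 8, hq]
    norm_num
  have h2 : Fintype.card F ^ (2 * k + 1) % 8 = 5 := by
    rw [pow_succ, Nat.mul_mod, h1, hq]
  have h3 : (Fintype.card F ^ (2 * k + 1) - 1) % 8 = 4 := by omega
  rw [Nat.add_sub_cancel, Nat.mul_mod, h3, h1]

/-! ## the piece -/

/-- NEGSQNON5: `d` odd, `q ≡ 5 (mod 8)`: no element of `Omega^+` has `x * x = -1`. -/
theorem main : NegSqNon5.{u} := by
  intro F _ _ hq d _ hd x hx hxx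
  classical
  -- `2 ≠ 0`
  have h2F : (2 : F) ≠ 0 := by
    apply Ring.two_ne_zero
    intro hch
    have := FiniteField.even_card_iff_char_two.mp hch
    omega
  obtain ⟨y, hy, hyx⟩ := Subgroup.mem_map.mp hx
  haveI : Fintype (X d F) := Fintype.ofFinite _
  -- the sign is trivial on the commutator subgroup
  have hs1 : Equiv.Perm.sign (actHom y) = 1 := by
    have h := Abelianization.commutator_subset_ker (Equiv.Perm.sign.comp (actHom (F := F) (d := d)))
      hy
    exact h
  -- but the sign is `-1`
  have hyx' : ((y.1 : Matrix.GeneralLinearGroup (P d) F) : Matrix (P d) (P d) F) =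
      (x : Matrix (P d) (P d) F) := by rw [← hyx]; rfl
  have hsq : ∀ v : X d F, ((actHom y (actHom y v) : X d F) : P d → F) = -v.1 := by
    intro v
    show ((act y (act y v) : X d F) : P d → F) = -v.1
    rw [act_apply, act_apply, Matrix.mulVec_mulVec, hyx', hxx, Matrix.neg_mulVec, Matrix.one_mulVec]
  have hne : ∀ v : X d F, actHom y (actHom y v) ≠ v := by
    intro v hv
    have h1 := hsq v
    rw [hv] at h1
    have h0 : v.1 = 0 := by
      funext i
      have := congrFun h1 i
      simp only [Pi.neg_apply] at this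
      have h2 : (2 : F) * v.1 i = 0 := by linear_combination this
      rcases mul_eq_zero.mp h2 with h | h
      · exact absurd h h2F
      · exact h
    have hv1 := v.2
    rw [h0] at hv1
    unfold Cfsg.quadFormPlus at hv1
    simp at hv1
  have h4 : (actHom y) ^ 4 = 1 := by
    ext v
    have e1 : ((actHom y) ^ 4) v = actHom y (actHom y (actHom y (actHom y v))) := by
      simp [pow_succ]
    rw [e1, hsq, hsq]
    simp
  have hcard : Fintype.card (X d F) % 8 = 4 := by
    rw [← Nat.card_eq_fintype_card]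
    exact card_X_mod d hq hd
  have hs2 := sign_eq_neg_one (actHom y) h4 hne hcard
  rw [hs1] at hs2
  exact absurd hs2 (by decide)

end Cfsg.Agent.Lib.Helper92.OPNEGSQNON5
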