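import Mathlib

/-!
# S0679 blueprint (helper92): insoluble transitive permutation groups of degree 11

`G ≤ Sym(α)`, `|α| = 11`, transitive, not solvable, not containing `Alt(α)`.
Then `G` is sharply 4-transitive (of order 7920) or `G ≅ PSL(2, 11)`.

Exact statements of the pieces, each a `def X : Prop`, universe polymorphic in `u`.
A piece is proved as `theorem main : (hypothesis pieces →) X.{u}` in a file of its own.

Plan.  `Q` a subgroup of order 11 of `G`, `|N_G(Q)| = 11 d`, `d ∣ 10` [CARDNORM].
* `G ≤ Alt(α)`: `d ≠ 1` [NORMONE], `d` is odd [ODDNORM], so `d = 5`, `G` is simple (S1013),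
  2-transitive (S0675), without `p`-cycles for `p = 2, 3, 5, 7` (Jordan, S0713), and
  `|G| = 660, 7920, 95040` [ORD].  Order 95040 is impossible [NORM5], [CENT5], [ODD5];
  order 660 gives `PSL(2, 11)` (S0498); order 7920 gives a sharply 4-transitive group
  [SHARP], [FIN4].
* `G ≰ Alt(α)`: `G₀ = G ∩ Alt(α)` is as in the first case [EVENSUB], `|G| = 1320` is impossible
  [NO1320], and so is `|G| = 15840` [ODDINV], [NOSIX].
-/

set_option autoImplicit false

namespace Cfsg.Agent.Lib.Helper92.D11Stmt

open Equiv

universe u

/-- [CARDNORM] the normalizer of a subgroup of order 11 has order `11 d`, `d ∣ 10`. -/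
def CardNorm : Prop :=
  ∀ (α : Type u) [Fintype α] [DecidableEq α], Fintype.card α = 11 →
    ∀ (G : Subgroup (Perm α)) (Q : Subgroup G), Nat.card Q = 11 →
      ∃ d, d ∣ 10 ∧ Nat.card (Subgroup.normalizer (Q : Set G)) = 11 * d

/-- [NORMONE] in a transitive non-solvable group of degree 11, a subgroup of order 11 is not
self-normalizing (Burnside's transfer theorem). -/
def NormOne : Prop :=
  ∀ (α : Type u) [Fintype α] [DecidableEq α], Fintype.card α = 11 →
    ∀ (G : Subgroup (Perm α)), MulAction.IsPretransitive G α → ¬ Group.IsSolvable G →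
      ∀ Q : Subgroup G, Nat.card Q = 11 → Nat.card (Subgroup.normalizer (Q : Set G)) ≠ 11

/-- [ODDNORM] if the normalizer of a subgroup of order 11 has even order, then `G` contains an
odd permutation (an involution of the normalizer fixes exactly one point). -/
def OddNorm : Prop :=
  ∀ (α : Type u) [Fintype α] [DecidableEq α], Fintype.card α = 11 →
    ∀ (G : Subgroup (Perm α)) (Q : Subgroup G), Nat.card Q = 11 →
      Even (Nat.card (Subgroup.normalizer (Q : Set G))) →
      ∃ t ∈ G, Perm.sign t = -1

/-- [ORD] the possible orders of a 2-transitive group of even permutations of degree 11 without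
5-cycles and 7-cycles, in which the normalizer of a subgroup of order 11 has order 55. -/
def Ord : Prop :=
  ∀ (α : Type u) [Fintype α] [DecidableEq α], Fintype.card α = 11 →
    ∀ (G : Subgroup (Perm α)), MulAction.IsMultiplyPretransitive G α 2 →
      (∀ g ∈ G, Perm.sign g = 1) →
      (∀ g ∈ G, g.IsCycle → g.support.card ≠ 5 ∧ g.support.card ≠ 7) →
      ∀ Q : Subgroup G, Nat.card Q = 11 → Nat.card (Subgroup.normalizer (Q : Set G)) = 55 →
      Nat.card G = 660 ∨ Nat.card G = 7920 ∨ Nat.card G = 95040

/-- [NORM5] the normalizer of the subgroup generated by an element of order 5 which is not a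
5-cycle (so of cycle type `5, 5`) has order dividing 200. -/
def Norm5 : Prop :=
  ∀ (α : Type u) [Fintype α] [DecidableEq α], Fintype.card α = 11 →
    ∀ (G : Subgroup (Perm α)) (z : G), orderOf z = 5 → ¬ (z : Perm α).IsCycle →
      Nat.card (Subgroup.normalizer ((Subgroup.zpowers z : Subgroup G) : Set G)) ∣ 200

/-- [CENT5] (pure group theory) in a group of order 95040, if the normalizer of a subgroup
`⟨z⟩` of order 5 has order dividing 200, then some involution centralizes `z`. -/
def Cent5 : Prop :=
  ∀ (G : Type u) [Group G] [Finite G], Nat.card G = 95040 → ∀ z : G, orderOf z = 5 →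
    Nat.card (Subgroup.normalizer ((Subgroup.zpowers z : Subgroup G) : Set G)) ∣ 200 →
    ∃ t : G, orderOf t = 2 ∧ t * z = z * t

/-- [ODD5] an involution commuting with an element of cycle type `5, 5` on 11 points is odd. -/
def Odd5 : Prop :=
  ∀ (α : Type u) [Fintype α] [DecidableEq α], Fintype.card α = 11 →
    ∀ t z : Perm α, orderOf t = 2 → orderOf z = 5 → ¬ z.IsCycle → t * z = z * t →
      Perm.sign t = -1

/-- [SHARP] in a transitive simple group of order 7920 and degree 11, a non-trivial element
fixes at most three points. -/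
def Sharp : Prop :=
  ∀ (α : Type u) [Fintype α] [DecidableEq α], Fintype.card α = 11 →
    ∀ (G : Subgroup (Perm α)), MulAction.IsPretransitive G α → IsSimpleGroup G →
      Nat.card G = 7920 → ∀ g ∈ G, g ≠ 1 → 8 ≤ g.support.card

/-- [FIN4] a group of order 7920 and degree 11 whose non-trivial elements fix at most three
points is sharply 4-transitive. -/
def Fin4 : Prop :=
  ∀ (α : Type u) [Fintype α] [DecidableEq α], Fintype.card α = 11 →
    ∀ (G : Subgroup (Perm α)), Nat.card G = 7920 →
      (∀ g ∈ G, g ≠ 1 → 8 ≤ g.support.card) →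
      MulAction.IsMultiplyPretransitive G α 4 ∧ ∀ x : Fin 4 ↪ α, MulAction.stabilizer G x = ⊥

/-- [EVENSUB] the subgroup of even permutations of a transitive non-solvable group of degree
11 containing odd permutations is transitive, non-solvable, of index 2. -/
def EvenSub : Prop :=
  ∀ (α : Type u) [Fintype α] [DecidableEq α], Fintype.card α = 11 →
    ∀ (G : Subgroup (Perm α)), MulAction.IsPretransitive G α → ¬ Group.IsSolvable G →
      ¬ G ≤ alternatingGroup α →
      MulAction.IsPretransitive (G ⊓ alternatingGroup α : Subgroup (Perm α)) α ∧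
      ¬ Group.IsSolvable (G ⊓ alternatingGroup α : Subgroup (Perm α)) ∧
      Nat.card G = 2 * Nat.card (G ⊓ alternatingGroup α : Subgroup (Perm α))

/-- [NO1320] there is no transitive non-solvable group of degree 11 and order 1320. -/
def No1320 : Prop :=
  ∀ (α : Type u) [Fintype α] [DecidableEq α], Fintype.card α = 11 →
    ∀ (G : Subgroup (Perm α)), MulAction.IsPretransitive G α → ¬ Group.IsSolvable G →
      Nat.card G ≠ 1320

/-- [ODDINV] a group of order 15840 and degree 11 whose non-trivial even elements fix at most
three points contains an involution moving exactly 2 or exactly 6 points. -/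
def OddInv : Prop :=
  ∀ (α : Type u) [Fintype α] [DecidableEq α], Fintype.card α = 11 →
    ∀ (G : Subgroup (Perm α)), Nat.card G = 15840 →
      (∀ g ∈ G, Perm.sign g = 1 → g ≠ 1 → 8 ≤ g.support.card) →
      ∃ s ∈ G, s * s = 1 ∧ (s.support.card = 2 ∨ s.support.card = 6)

/-- [NOSIX] if the even elements of `G` act 4-transitively and the non-trivial ones fix at most
three points, then no involution of `G` moves exactly 6 points. -/
def NoSix : Prop :=
  ∀ (α : Type u) [Fintype α] [DecidableEq α], Fintype.card α = 11 →
    ∀ (G : Subgroup (Perm α)),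
      (∀ g ∈ G, Perm.sign g = 1 → g ≠ 1 → 8 ≤ g.support.card) →
      (∀ p p' : Fin 4 → α, Function.Injective p → Function.Injective p' →
        ∃ g ∈ G, Perm.sign g = 1 ∧ ∀ i, g (p i) = p' i) →
      ∀ s ∈ G, s * s = 1 → s.support.card ≠ 6

end Cfsg.Agent.Lib.Helper92.D11Stmt
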