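import Mathlib
import Cfsg.Prelude.Def_Sporadic_a
import Cfsg.Prelude.Def_SporadicCombinatorics
import Cfsg.Agent.Lib.Helper92.Counts

/-!
Counting minimal vectors of the rank-24 lattice by their inner product with a fixed vector of
sum of squares 48.
-/

set_option autoImplicit false

namespace Cfsg.Agent.Lib.Helper92.Counts48

open Cfsg Cfsg.Agent.Lib.Helper92.LeechCore
open Cfsg.Agent.Lib.Helper92.Co0Orbit Cfsg.Agent.Lib.Helper92.Orbit48
open Cfsg.Agent.Lib.Helper92.Census Cfsg.Agent.Lib.Helper92.CensusSpec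
open Cfsg.Agent.Lib.Helper92.ActQ Cfsg.Agent.Lib.Helper92.Frames Cfsg.Agent.Lib.Helper92.Pairs
open Cfsg.Agent.Lib.Helper92.Counts
open Cfsg.Agent.Lib.Helper7.GolayBase

/-- The automorphism group is transitive on the vectors of sum of squares 48. -/
theorem trans48 (v w : ↥leechLattice) (hv : sqNorm (v : GolayPt → ℤ) = 48)
    (hw : sqNorm (w : GolayPt → ℤ) = 48) : ∃ g : ↥Co0, g • v = w := by
  obtain ⟨f, hf, hx, hy, e⟩ := (all48 v.2 hv).trans (all48 w.2 hw).symm
  exact ⟨⟨f, hf⟩, e⟩

/-- The standard vector `(5, 1^23)` with the `5` at the point `0`: the sum of `V0` and `W8`. -/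
noncomputable def U48 : ↥leechLattice := V0 + W8

theorem U48_norm : sqNorm ((U48 : ↥leechLattice) : GolayPt → ℤ) = 48 := by
  unfold U48
  rw [AddSubgroup.coe_add, Cfsg.Agent.Lib.Helper92.LeechCore.sqNorm_add, V0_norm, dot_V0]
  have h1 : ((W8 : ↥leechLattice) : GolayPt → ℤ) none = -3 := by decide
  have h2 : ((W8 : ↥leechLattice) : GolayPt → ℤ) (pt 0) = 1 := by decide
  have h3 : sqNorm ((W8 : ↥leechLattice) : GolayPt → ℤ) = 32 :=
    Cfsg.Agent.Lib.Helper92.MinVec.sqNorm_w3 none
  rw [h1, h2, h3]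
  norm_num

/-- The count of minimal vectors with a given inner product with a vector of sum of squares 48
does not depend on that vector. -/
theorem count48_eq (u : GolayPt → ℤ) (hu : u ∈ leechLattice) (hn : sqNorm u = 48) (d : ℤ) :
    {w : GolayPt → ℤ | w ∈ leechLattice ∧ sqNorm w = 32 ∧ dotInt u w = d}.ncard
      = {w : GolayPt → ℤ | w ∈ leechLattice ∧ sqNorm w = 32 ∧
          dotInt ((U48 : ↥leechLattice) : GolayPt → ℤ) w = d}.ncard := by
  obtain ⟨g, hg⟩ := trans48 ⟨u, hu⟩ U48 hn U48_norm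
  rw [← ncard_subtype (fun w => sqNorm w = 32 ∧ dotInt u w = d),
    ← ncard_subtype (fun w => sqNorm w = 32 ∧ dotInt ((U48 : ↥leechLattice) : GolayPt → ℤ) w = d)]
  apply ncard_transport g
  intro w
  rw [sqNorm_smul, ← hg, dot_smul]

/-- The standard vector of sum of squares 48 as a list of pairs. -/
def PNU48 : List (ℕ × ℕ) :=
  [(1005, 995), (1001, 999), (1001, 999), (1001, 999), (1001, 999), (1001, 999),
   (1001, 999), (1001, 999), (1001, 999), (1001, 999), (1001, 999), (1001, 999),
   (1001, 999), (1001, 999), (1001, 999), (1001, 999), (1001, 999), (1001, 999),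
   (1001, 999), (1001, 999), (1001, 999), (1001, 999), (1001, 999), (1001, 999)]

theorem repU48 : RepPN 1000 PNU48 ((U48 : ↥leechLattice) : GolayPt → ℤ) := by
  unfold RepPN
  decide +kernel

theorem cU48_24 : censusN PNU48 8024 16024 28024 = 552 := by decide +kernel

theorem cU48_m16 : censusN PNU48 7984 15984 27984 = 11178 := by decide +kernel

theorem count48_24 (u : GolayPt → ℤ) (hu : u ∈ leechLattice) (hn : sqNorm u = 48) :
    {w : GolayPt → ℤ | w ∈ leechLattice ∧ sqNorm w = 32 ∧ dotInt u w = 24}.ncard = 552 := by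
  rw [count48_eq u hu hn, census_spec 1000 PNU48 rfl _ repU48 24 8024 16024 28024
    (by norm_num) (by norm_num) (by norm_num)]
  exact cU48_24

theorem count48_m16 (u : GolayPt → ℤ) (hu : u ∈ leechLattice) (hn : sqNorm u = 48) :
    {w : GolayPt → ℤ | w ∈ leechLattice ∧ sqNorm w = 32 ∧ dotInt u w = -16}.ncard = 11178 := by
  rw [count48_eq u hu hn, census_spec 1000 PNU48 rfl _ repU48 (-16) 7984 15984 27984
    (by norm_num) (by norm_num) (by norm_num)]
  exact cU48_m16

/-- For `u` of sum of squares 48 and minimal `v`: `u - v` is minimal iff the inner product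
is 24. -/
theorem sub_min_iff (u v : GolayPt → ℤ) (hu : sqNorm u = 48) (hv : sqNorm v = 32) :
    sqNorm (u - v) = 32 ↔ dotInt u v = 24 := by
  rw [Cfsg.Agent.Lib.Helper92.LeechCore.sqNorm_sub, hu, hv]
  constructor <;> intro h <;> linarith

end Cfsg.Agent.Lib.Helper92.Counts48
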