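import Mathlib
import Cfsg.Agent.Lib.Helper92.D11Stmt
import Cfsg.Agent.S1013
import Cfsg.Agent.S0675
import Cfsg.Agent.S0713
import Cfsg.Agent.S0498

/-!
# S0679: assembly of the pieces (helper92)
-/

set_option autoImplicit false
set_option linter.style.haveILetI false

namespace Cfsg.Agent.Lib.Helper92.D11Asm

open Equiv MulAction Cfsg.Agent.Lib.Helper92.D11Stmt

universe u

section
variable {α : Type u} [Fintype α] [DecidableEq α]

theorem card_dvd (hα : Fintype.card α = 11) (G : Subgroup (Perm α)) :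
    Nat.card G ∣ 39916800 := by
  have h := Subgroup.card_subgroup_dvd_card G
  rw [Nat.card_eq_fintype_card (α := Perm α), Fintype.card_perm, hα] at h
  exact h

omit [DecidableEq α] in
theorem eleven_dvd (hα : Fintype.card α = 11) (G : Subgroup (Perm α)) [IsPretransitive G α] :
    11 ∣ Nat.card G := by
  obtain ⟨a⟩ : Nonempty α := Fintype.card_pos_iff.mp (by omega)
  have h := index_stabilizer_of_transitive (G := G) (x := a)
  rw [Nat.card_eq_fintype_card, hα] at h
  rw [← h]
  exact Subgroup.index_dvd_card _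

omit [Fintype α] [DecidableEq α] in
theorem fact11 {n : ℕ} (h11 : 11 ∣ n) (h : n ∣ 39916800) : n.factorization 11 = 1 := by
  have hn : n ≠ 0 := by rintro rfl; simp at h
  have hp : Nat.Prime 11 := by norm_num
  have h1 : 1 ≤ n.factorization 11 := by
    rw [← hp.pow_dvd_iff_le_factorization hn]; simpa using h11
  have h2 : ¬ 2 ≤ n.factorization 11 := by
    rw [← hp.pow_dvd_iff_le_factorization hn]
    intro h121
    have : 11 ^ 2 ∣ 39916800 := h121.trans h
    norm_num at this
  omega

omit [DecidableEq α] in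
theorem dvd_of_two (hα : Fintype.card α = 11) (G : Subgroup (Perm α))
    (h2 : IsMultiplyPretransitive G α 2) : 110 ∣ Nat.card G := by
  have hemb : Nat.card (Fin 2 ↪ α) = 110 := by
    rw [Nat.card_eq_fintype_card, Fintype.card_embedding_eq, hα, Fintype.card_fin]; rfl
  obtain ⟨x⟩ : Nonempty (Fin 2 ↪ α) := (Nat.card_pos_iff.mp (by omega)).1
  have h := @index_stabilizer_of_transitive G (Fin 2 ↪ α) _ _ x h2
  rw [hemb] at h
  rw [← h]; exact Subgroup.index_dvd_card _

omit [DecidableEq α] in
theorem prim (hα : Fintype.card α = 11) (G : Subgroup (Perm α)) [IsPretransitive G α] :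
    IsPreprimitive G α :=
  IsPreprimitive.of_prime_card (by rw [Nat.card_eq_fintype_card, hα]; norm_num)

/-- Jordan: no cycles of length 2, 5, 7. -/
theorem no_cycle (hα : Fintype.card α = 11) (G : Subgroup (Perm α)) [IsPretransitive G α]
    (hA : ¬ alternatingGroup α ≤ G) {g : Perm α} (hg : g ∈ G) (hc : g.IsCycle) :
    g.support.card ≠ 2 ∧ g.support.card ≠ 5 ∧ g.support.card ≠ 7 := by
  have hprim := prim hα G
  refine ⟨fun h => hA ?_, fun h => hA ?_, fun h => hA ?_⟩
  · exact S0713.result G hprim (p := 2) (by norm_num) (by omega) (by omega) hc h hg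
  · exact S0713.result G hprim (p := 5) (by norm_num) (by omega) (by omega) hc h hg
  · exact S0713.result G hprim (p := 7) (by norm_num) (by omega) (by omega) hc h hg

/-- The case of a group of even permutations. -/
theorem even_case (hCN : CardNorm.{u}) (hN1 : NormOne.{u}) (hON : OddNorm.{u}) (hOrd : Ord.{u})
    (hN5 : Norm5.{u}) (hC5 : Cent5.{u}) (hO5 : Odd5.{u})
    (hα : Fintype.card α = 11) (G : Subgroup (Perm α)) [IsPretransitive G α]
    (hG : ¬ Group.IsSolvable G) (hA : ¬ alternatingGroup α ≤ G) (hev : G ≤ alternatingGroup α) :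
    IsSimpleGroup G ∧ (Nat.card G = 660 ∨ Nat.card G = 7920) := by
  have hp11 : Fact (Nat.Prime 11) := ⟨by norm_num⟩
  have hdvd := card_dvd hα G
  have h11 := eleven_dvd hα G
  have hfac := fact11 h11 hdvd
  obtain ⟨Q, hQ⟩ := Sylow.exists_subgroup_card_pow_prime 11 (n := 1) (G := G) (by simpa using h11)
  rw [pow_one] at hQ
  let P : Sylow 11 G := Sylow.ofCard Q (by rw [hQ, hfac, pow_one])
  have hPQ : (P : Subgroup G) = Q := rfl
  have h2 : IsMultiplyPretransitive G α 2 := by
    rcases S0675.result (by rw [hα]; norm_num) G with h | h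
    · exact absurd h hG
    · exact h
  have h110 : 110 ∣ Nat.card G := dvd_of_two hα G h2
  obtain ⟨d, hd10, hNd⟩ := hCN α hα G Q hQ
  have hsign : ∀ g ∈ G, Perm.sign g = 1 := fun g hg => Perm.mem_alternatingGroup.mp (hev hg)
  have hodd : ¬ Even d := by
    intro he
    obtain ⟨t, ht, hts⟩ := hON α hα G Q hQ (by rw [hNd]; exact he.mul_left 11)
    rw [hsign t ht] at hts
    exact absurd hts (by decide)
  have hd1 : d ≠ 1 := by
    rintro rfl
    exact hN1 α hα G inferInstance hG Q hQ (by rw [hNd])
  have hd5 : d = 5 := by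
    have hle := Nat.le_of_dvd (by norm_num) hd10
    interval_cases d
    · simp at hd10
    · exact absurd rfl hd1
    · exact absurd (by decide) hodd
    · norm_num at hd10
    · exact absurd (by decide) hodd
    · rfl
    · exact absurd (by decide) hodd
    · norm_num at hd10
    · exact absurd (by decide) hodd
    · norm_num at hd10
    · exact absurd (by decide) hodd
  subst hd5
  have hN : Nat.card (Subgroup.normalizer (Q : Set G)) = 55 := by rw [hNd]
  have hidx : Nat.card (Sylow 11 G) = (Subgroup.normalizer (Q : Set G)).index :=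
    P.card_eq_index_normalizer
  have hNcard := Subgroup.card_mul_index (Subgroup.normalizer (Q : Set G))
  rw [← hidx, hN] at hNcard
  have hn : 1 < Nat.card (Sylow 11 G) := by
    by_contra hle
    have hpos : 0 < Nat.card (Sylow 11 G) := Nat.card_pos
    have h1 : Nat.card (Sylow 11 G) = 1 := by omega
    rw [h1] at hNcard
    omega
  have ht : ((P : Subgroup G).subgroupOf
      (Subgroup.normalizer ((P : Subgroup G) : Set G))).index.Prime := by
    have h4 := Subgroup.card_mul_index (Q.subgroupOf (Subgroup.normalizer (Q : Set G)))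
    rw [Nat.card_congr (Subgroup.subgroupOfEquivOfLe Subgroup.le_normalizer).toEquiv, hQ, hN]
      at h4
    have h5 : (Q.subgroupOf (Subgroup.normalizer (Q : Set G))).index = 5 := by omega
    rw [hPQ, h5]; norm_num
  have hsimple : IsSimpleGroup G := S1013.result (p := 11) hα G P hn ht
  refine ⟨hsimple, ?_⟩
  rcases hOrd α hα G h2 hsign
    (fun g hg hc => ⟨(no_cycle hα G hA hg hc).2.1, (no_cycle hα G hA hg hc).2.2⟩) Q hQ hN
    with h | h | h
  · exact Or.inl h
  · exact Or.inr h
  · exfalso
    have hp5 : Fact (Nat.Prime 5) := ⟨by norm_num⟩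
    obtain ⟨z, hz⟩ := exists_prime_orderOf_dvd_card' (G := G) 5 (by rw [h]; norm_num)
    have hzc : ¬ (z : Perm α).IsCycle := by
      intro hc
      have h5 : (z : Perm α).support.card = 5 := by
        rw [← hc.orderOf, Subgroup.orderOf_coe, hz]
      exact (no_cycle hα G hA z.2 hc).2.1 h5
    have h200 := hN5 α hα G z hz hzc
    obtain ⟨t, ht2, htz⟩ := hC5 G h z hz h200
    have hodd5 := hO5 α hα (t : Perm α) (z : Perm α) (by rw [Subgroup.orderOf_coe, ht2])
      (by rw [Subgroup.orderOf_coe, hz]) hzc (congrArg Subtype.val htz)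
    rw [hsign _ t.2] at hodd5
    exact absurd hodd5 (by decide)

/-- S0679 from the pieces. -/
theorem final (hCN : CardNorm.{u}) (hN1 : NormOne.{u}) (hON : OddNorm.{u}) (hOrd : Ord.{u})
    (hN5 : Norm5.{u}) (hC5 : Cent5.{u}) (hO5 : Odd5.{u}) (hSharp : Sharp.{u}) (hFin4 : Fin4.{u})
    (hES : EvenSub.{u}) (h1320 : No1320.{u}) (hOI : OddInv.{u}) (hNS : NoSix.{u})
    (hα : Fintype.card α = 11) (G : Subgroup (Perm α)) [IsPretransitive G α]
    (hG : ¬ Group.IsSolvable G) (hA : ¬ alternatingGroup α ≤ G) :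
    (IsMultiplyPretransitive G α 4 ∧ ∀ x : Fin 4 ↪ α, stabilizer G x = ⊥) ∨
      Nonempty (G ≃* Matrix.ProjectiveSpecialLinearGroup (Fin 2) (ZMod 11)) := by
  have hp11 : Fact (Nat.Prime 11) := ⟨by norm_num⟩
  by_cases hev : G ≤ alternatingGroup α
  · obtain ⟨hs, h | h⟩ := even_case hCN hN1 hON hOrd hN5 hC5 hO5 hα G hG hA hev
    · right
      exact S0498.result (G := G) 11 (Or.inl rfl) (by rw [h]; norm_num) (F := ZMod 11) (ZMod.card 11)
    · left
      have hsh := hSharp α hα G inferInstance hs h
      exact hFin4 α hα G h hsh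
  · exfalso
    obtain ⟨ht0, hns0, hc0⟩ := hES α hα G inferInstance hG hev
    have hA0 : ¬ alternatingGroup α ≤ G ⊓ alternatingGroup α := fun h => hA (h.trans inf_le_left)
    obtain ⟨hs0, h | h⟩ := even_case hCN hN1 hON hOrd hN5 hC5 hO5 hα
      (G ⊓ alternatingGroup α) hns0 hA0 inf_le_right
    · exact h1320 α hα G inferInstance hG (by rw [hc0, h])
    · have hcard : Nat.card G = 15840 := by rw [hc0, h]
      have hsh0 := hSharp α hα (G ⊓ alternatingGroup α) ht0 hs0 h
      have hsharp : ∀ g ∈ G, Perm.sign g = 1 → g ≠ 1 → 8 ≤ g.support.card :=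
        fun g hg hsg hg1 => hsh0 g ⟨hg, Perm.mem_alternatingGroup.mpr hsg⟩ hg1
      obtain ⟨h4t, -⟩ := hFin4 α hα (G ⊓ alternatingGroup α) h hsh0
      have h4 : ∀ p p' : Fin 4 → α, Function.Injective p → Function.Injective p' →
          ∃ g ∈ G, Perm.sign g = 1 ∧ ∀ i, g (p i) = p' i := by
        intro p p' hp hp'
        obtain ⟨g, hg⟩ := h4t.exists_smul_eq (⟨p, hp⟩ : Fin 4 ↪ α) ⟨p', hp'⟩
        refine ⟨g.1, g.2.1, Perm.mem_alternatingGroup.mp g.2.2, fun i => ?_⟩
        exact congrArg (fun f : Fin 4 ↪ α => f i) hg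
      obtain ⟨s, hsG, hss, h2 | h6⟩ := hOI α hα G hcard hsharp
      · have hswap := Perm.card_support_eq_two.mp h2
        have htop := Equiv.Perm.subgroup_eq_top_of_isPreprimitive_of_isSwap_mem (prim hα G) s
          hswap hsG
        exact hA (by rw [htop]; exact le_top)
      · exact hNS α hα G hsharp h4 s hsG hss h6

end

end Cfsg.Agent.Lib.Helper92.D11Asm
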