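import Mathlib

/-!
# S2490 blueprint: a group of order 7920 with disconnected prime graph is simple

Exact statements of the pieces (each `def X : Prop`), universe polymorphic in `u`.
-/

namespace Cfsg.Agent.Lib.Helper92.PGStmt

universe u

/-- The edges of the prime graph that a non-simple group of order 7920 always has. -/
def Edges (G : Type u) [Group G] : Prop :=
  (∃ g : G, orderOf g = 22) ∧ (∃ g : G, orderOf g = 33) ∧
    ((∃ g : G, orderOf g = 55) ∨ (∃ g : G, orderOf g = 15))

/-- LEMF: an element `y` of prime order `s` normalizing a subgroup `N` of order prime to `s`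
whose Sylow `r`-subgroups have order `r ^ k` not congruent to `1` mod `s`
centralizes an element of order `r`: there is an element of order `r * s`. -/
def LemF : Prop :=
  ∀ (G : Type u) [Group G] [Finite G] (N : Subgroup G) (y : G) (s r k m : ℕ),
    s.Prime → r.Prime → orderOf y = s → y ∈ Subgroup.normalizer (N : Set G) →
    ¬ s ∣ Nat.card N → Nat.card N = r ^ k * m → ¬ r ∣ m → ¬ (r ^ k ≡ 1 [MOD s]) →
    ∃ g : G, orderOf g = r * s

/-- F11: in a group of order 7920 every prime dividing the order of a normal subgroup of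
order prime to 11 is joined to 11. -/
def F11 : Prop :=
  ∀ (G : Type u) [Group G] [Finite G], Nat.card G = 7920 →
    ∀ (N : Subgroup G), N.Normal → ¬ 11 ∣ Nat.card N → ∀ r : ℕ, r.Prime → r ∣ Nat.card N →
      ∃ g : G, orderOf g = r * 11

/-- FRAT: Frattini argument in divisibility form. -/
def Frat : Prop :=
  ∀ (G : Type u) [Group G] [Finite G] (K : Subgroup G), K.Normal →
    ∀ (p : ℕ) [Fact p.Prime] (P : Sylow p G), ¬ p ∣ K.index →
      K.index ∣ Nat.card (Subgroup.normalizer ((P : Subgroup G) : Set G))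

/-- CENT: N/C for a Sylow subgroup of prime order, and elements of order `p * r`. -/
def Cent : Prop :=
  ∀ (G : Type u) [Group G] [Finite G] (p : ℕ) [Fact p.Prime] (P : Sylow p G),
    Nat.card (P : Subgroup G) = p →
    (Nat.card (Subgroup.normalizer ((P : Subgroup G) : Set G)) ∣
        (p - 1) * Nat.card (Subgroup.centralizer ((P : Subgroup G) : Set G))) ∧
    (∀ r : ℕ, r.Prime → r ≠ p →
        r ∣ Nat.card (Subgroup.centralizer ((P : Subgroup G) : Set G)) →
        ∃ g : G, orderOf g = p * r)

/-- PCLOS: a subgroup `M` of a normal subgroup `K`, normalized by `K`, of order divisible by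
`p` (where `p ^ 2` does not divide `|G|`) contains a normal subgroup of `G` of order divisible
by `p` (the normal closure of an element of order `p`). -/
def PClos : Prop :=
  ∀ (G : Type u) [Group G] [Finite G] (p : ℕ), p.Prime → ¬ p ^ 2 ∣ Nat.card G →
    ∀ (K M : Subgroup G), K.Normal → M ≤ K → (∀ k ∈ K, ∀ m ∈ M, k * m * k⁻¹ ∈ M) →
      p ∣ Nat.card M → ∃ L : Subgroup G, L.Normal ∧ L ≤ M ∧ p ∣ Nat.card L

/-- PPRIME: a subgroup `M` of a normal subgroup `K`, normalized by `K`, of order prime to `p`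
lies in a normal subgroup of `G` of order prime to `p` (inside `K`). -/
def PPrime : Prop :=
  ∀ (G : Type u) [Group G] [Finite G] (p : ℕ), p.Prime →
    ∀ (K M : Subgroup G), K.Normal → M ≤ K → (∀ k ∈ K, ∀ m ∈ M, k * m * k⁻¹ ∈ M) →
      ¬ p ∣ Nat.card M → ∃ L : Subgroup G, L.Normal ∧ M ≤ L ∧ L ≤ K ∧ ¬ p ∣ Nat.card L

/-- STRUCT: the chief factor carrying the prime `p` (lattice form of simplicity of `K/H`). -/
def Struct : Prop :=
  ∀ (G : Type u) [Group G] [Finite G] (p : ℕ), p.Prime → p ∣ Nat.card G →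
    ¬ p ^ 2 ∣ Nat.card G →
    ∃ H K : Subgroup G, H.Normal ∧ K.Normal ∧ H ≤ K ∧ ¬ p ∣ Nat.card H ∧ p ∣ Nat.card K ∧
      ∀ M : Subgroup G, H ≤ M → M ≤ K → (∀ k ∈ K, ∀ m ∈ M, k * m * k⁻¹ ∈ M) →
        M = H ∨ M = K

/-- QUOT: lattice form of simplicity gives a simple quotient group. -/
def Quot : Prop :=
  ∀ (G : Type u) [Group G] [Finite G] (H K : Subgroup G) [H.Normal], H ≤ K → H ≠ K →
    (∀ M : Subgroup G, H ≤ M → M ≤ K → (∀ k ∈ K, ∀ m ∈ M, k * m * k⁻¹ ∈ M) →
        M = H ∨ M = K) →
    IsSimpleGroup (K ⧸ H.subgroupOf K) ∧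
      Nat.card (K ⧸ H.subgroupOf K) * Nat.card H = Nat.card K

/-- No simple group of order 1980 (helper11, in progress; used as a hypothesis). -/
def No1980 : Prop :=
  ∀ (X : Type u) [Group X] [Finite X] [IsSimpleGroup X], Nat.card X ≠ 1980

/-- ORD: a simple group whose order divides 7920 and is divisible by 11 has order
11, 660 or 7920. -/
def Ord : Prop :=
  ∀ (X : Type u) [Group X] [Finite X] [IsSimpleGroup X], Nat.card X ∣ 7920 →
    11 ∣ Nat.card X → Nat.card X = 11 ∨ Nat.card X = 660 ∨ Nat.card X = 7920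

/-- CASEA: the chief factor carrying 11 has order 11. -/
def CaseA : Prop :=
  ∀ (G : Type u) [Group G] [Finite G], Nat.card G = 7920 →
    ∀ (H K : Subgroup G), H.Normal → K.Normal → H ≤ K → Nat.card K = 11 * Nat.card H →
      Edges G

/-- CASE660: the chief factor carrying 11 has order 660. -/
def Case660 : Prop :=
  ∀ (G : Type u) [Group G] [Finite G], Nat.card G = 7920 →
    ∀ (H K : Subgroup G), H.Normal → K.Normal → H ≤ K → Nat.card K = 660 * Nat.card H →
      Edges G

end Cfsg.Agent.Lib.Helper92.PGStmt
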