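import Mathlib
import Cfsg.Agent.Lib.Helper11.SieveCheck
import Cfsg.Agent.Lib.Helper92.PGStmt

/-!
# S4274 blueprint: a group of order 175560 is simple or has a normal Sylow 19-subgroup

Exact statements of the pieces (each `def X : Prop`), universe polymorphic in `u`.
-/

namespace Cfsg.Agent.Lib.Helper92.J1Stmt

open Cfsg.Agent.Lib.Helper11.SieveCheck

universe u

/-- The pairs `(d, c)` = (number of Sylow `p`-subgroups, order of the centralizer of a Sylow
`p`-subgroup) that survive the tests of helper11's sieve, for a Sylow subgroup of prime order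
`p` in a non-abelian simple group of order `n`. -/
def survivors (n p : ℕ) : List (ℕ × ℕ) :=
  (cands p (n / p)).flatMap (fun d =>
    if factOK n d then
      ((List.range (Nat.gcd (p - 1) (n / (d * p)) + 1)).filter (fun r =>
        decide (2 ≤ r) && Nat.gcd (p - 1) (n / (d * p)) % r == 0 && !(rFail n p false d r))).map
        (fun r => (d, n / (d * r)))
    else [])

/-- SURV: the actual Sylow data are among the survivors. -/
def Surv : Prop :=
  ∀ (G : Type u) [Group G] [Finite G] [IsSimpleGroup G], ¬ IsMulCommutative G →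
    ∀ (p : ℕ) [Fact p.Prime] (P : Sylow p G), Nat.card (P : Subgroup G) = p →
      (Nat.card (Sylow p G), Nat.card (Subgroup.centralizer ((P : Subgroup G) : Set G))) ∈
        survivors (Nat.card G) p

/-- CROSS: if `q` divides `|C(P)|` then `p` divides `|C(Q)|` (Sylow subgroups of prime order). -/
def Cross : Prop :=
  ∀ (G : Type u) [Group G] [Finite G] (p q : ℕ) [Fact p.Prime] [Fact q.Prime]
    (P : Sylow p G) (Q : Sylow q G),
    Nat.card (P : Subgroup G) = p → Nat.card (Q : Subgroup G) = q → p ≠ q →
    q ∣ Nat.card (Subgroup.centralizer ((P : Subgroup G) : Set G)) →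
    p ∣ Nat.card (Subgroup.centralizer ((Q : Subgroup G) : Set G))

/-- COUNT: an element `w` of order `m` prime to `p` centralizing a Sylow `p`-subgroup of order
`p` gives at least `n_p (p - 1) φ(m)` elements of order `p m`. -/
def Count : Prop :=
  ∀ (G : Type u) [Group G] [Finite G] (p : ℕ) [Fact p.Prime] (P : Sylow p G),
    Nat.card (P : Subgroup G) = p →
    ∀ w : G, w ∈ Subgroup.centralizer ((P : Subgroup G) : Set G) → (orderOf w).Coprime p →
      Nat.card (Sylow p G) * (p - 1) * Nat.totient (orderOf w) ≤
        Nat.card {g : G // orderOf g = p * orderOf w}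

/-- INV8A: Sylow 2-subgroups of order 8 with an element of order 4: one class of involutions. -/
def Inv8A : Prop :=
  ∀ (G : Type u) [Group G] [Finite G] [IsSimpleGroup G], ¬ IsMulCommutative G →
    ∀ (S : Sylow 2 G), Nat.card (S : Subgroup G) = 8 →
    ∀ x : G, x ∈ (S : Subgroup G) → orderOf x = 4 →
    ∀ s t : G, orderOf s = 2 → orderOf t = 2 → IsConj s t

/-- INV8B: elementary abelian Sylow 2-subgroups of order 8: one class of involutions. -/
def Inv8B : Prop :=
  ∀ (G : Type u) [Group G] [Finite G] [IsSimpleGroup G], ¬ IsMulCommutative G →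
    ∀ (S : Sylow 2 G), Nat.card (S : Subgroup G) = 8 →
    (∀ x : G, x ∈ (S : Subgroup G) → x * x = 1) →
    ∀ s t : G, orderOf s = 2 → orderOf t = 2 → IsConj s t

/-- INV8: a non-abelian simple group with Sylow 2-subgroups of order 8 has one class of
involutions. -/
def Inv8 : Prop :=
  ∀ (G : Type u) [Group G] [Finite G] [IsSimpleGroup G], ¬ IsMulCommutative G →
    ∀ (S : Sylow 2 G), Nat.card (S : Subgroup G) = 8 →
    ∀ s t : G, orderOf s = 2 → orderOf t = 2 → IsConj s t

/-- C165: a subgroup of order 165 contains an element of order 33. -/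
def C165 : Prop :=
  ∀ (G : Type u) [Group G] [Finite G] (C : Subgroup G), Nat.card C = 165 →
    ∃ w : G, w ∈ C ∧ orderOf w = 33

/-- No simple group of order `n`. -/
def No (n : ℕ) : Prop :=
  ∀ (X : Type u) [Group X] [Finite X] [IsSimpleGroup X], Nat.card X ≠ n

/-- ORD19: a simple group whose order divides 175560 and is divisible by 19 has order 19 or
175560. -/
def Ord19 : Prop :=
  ∀ (X : Type u) [Group X] [Finite X] [IsSimpleGroup X], Nat.card X ∣ 175560 →
    19 ∣ Nat.card X → Nat.card X = 19 ∨ Nat.card X = 175560

/-- CENTR19: an element of order 19 normalizing a subgroup of order dividing 9240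
centralizes it. -/
def Centr19 : Prop :=
  ∀ (G : Type u) [Group G] [Finite G] (H : Subgroup G) (y : G), orderOf y = 19 →
    y ∈ Subgroup.normalizer (H : Set G) → Nat.card H ∣ 9240 →
    ∀ h ∈ H, y * h = h * y

/-- FIN19: the chief factor carrying 19 has order 19: the Sylow 19-subgroups are normal. -/
def Fin19 : Prop :=
  ∀ (G : Type u) [Group G] [Finite G], Nat.card G = 175560 →
    ∀ (H K : Subgroup G), H.Normal → K.Normal → H ≤ K → Nat.card K = 19 * Nat.card H →
      ∀ P : Sylow 19 G, (P : Subgroup G).Normal

end Cfsg.Agent.Lib.Helper92.J1Stmt
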