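import Mathlib
import Cfsg.Agent.Lib.Helper27.JzStmt

/-!
# S5403 / SC

When `5` divides the order of the centraliser of `z`, a normal subgroup containing `z` and
another non-trivial element of `Q` contains `Q` (count the fixed points of an element of order
five on `Q` and on `N ⊓ Q`).
-/

set_option autoImplicit false

namespace Cfsg.Agent.Lib.Helper92.JzSC

open Cfsg Cfsg.Agent.Lib.Helper27.JzStmt

/-- fixed point count modulo five for conjugation by an element with `c ^ 5 = 1` on a subgroup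
it normalises -/
theorem card_modEq_fixed {S : Type} [Group S] [Finite S] (c : S) (hc5 : c ^ 5 = 1)
    (R : Subgroup S) (hR : ∀ r ∈ R, c * r * c⁻¹ ∈ R) :
    Nat.card ↥R ≡ Nat.card ↥(R ⊓ Subgroup.centralizer ({c} : Set S)) [MOD 5] := by
  classical
  haveI : Fintype ↥R := Fintype.ofFinite _
  haveI : Fact (Nat.Prime 5) := ⟨by norm_num⟩
  let f : Function.End ↥R := fun r => ⟨c * r * c⁻¹, hR r r.2⟩
  have hmul : ∀ (k : ℕ) (r : ↥R), (((f ^ k) r : ↥R) : S) = c ^ k * (r : S) * (c ^ k)⁻¹ := by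
    intro k
    induction k with
    | zero =>
      intro r
      rw [pow_zero, pow_zero]
      show (r : S) = _
      simp
    | succ k ih =>
      intro r
      rw [pow_succ']
      show c * (((f ^ k) r : ↥R) : S) * c⁻¹ = _
      rw [ih, pow_succ']
      group
  have hf5 : f ^ 5 ^ 1 = 1 := by
    rw [pow_one]
    funext r
    apply Subtype.ext
    rw [hmul, hc5]
    show (1 : S) * (r : S) * (1 : S)⁻¹ = (r : S)
    simp
  have h := Equiv.Perm.card_fixedPoints_modEq (p := 5) (n := 1) hf5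
  rw [← Nat.card_eq_fintype_card, ← Nat.card_eq_fintype_card] at h
  let e : ↥(Function.fixedPoints f) ≃ ↥(R ⊓ Subgroup.centralizer ({c} : Set S)) :=
    { toFun := fun r => ⟨(r.1 : S), r.1.2, by
        show (r.1 : S) ∈ Subgroup.centralizer ({c} : Set S)
        rw [Subgroup.mem_centralizer_iff]
        intro y hy
        rw [Set.mem_singleton_iff.mp hy]
        have h1 : f r.1 = r.1 := r.2
        have h2 : c * (r.1 : S) * c⁻¹ = (r.1 : S) := congrArg Subtype.val h1
        calc c * (r.1 : S) = c * (r.1 : S) * c⁻¹ * c := by group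
          _ = (r.1 : S) * c := by rw [h2]⟩
      invFun := fun x => ⟨⟨(x : S), x.2.1⟩, by
        show f ⟨(x : S), x.2.1⟩ = ⟨(x : S), x.2.1⟩
        apply Subtype.ext
        show c * (x : S) * c⁻¹ = (x : S)
        have h1 := (Subgroup.mem_centralizer_iff.mp x.2.2) c rfl
        rw [h1]
        group⟩
      left_inv := fun r => rfl
      right_inv := fun x => rfl }
  rw [Nat.card_congr e] at h
  exact h

theorem two_elts {S : Type} [Group S] (H : Subgroup S) (hH : Nat.card ↥H = 2) (z : S)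
    (hz : z ∈ H) (hz1 : z ≠ 1) : ∀ y ∈ H, y = 1 ∨ y = z := by
  intro y hy
  by_cases hy1 : y = 1
  · exact Or.inl hy1
  · right
    obtain ⟨w, hw, huniq⟩ := (Nat.card_eq_two_iff' (1 : ↥H)).mp hH
    have h1 : (⟨y, hy⟩ : ↥H) = w := huniq _ (fun h => hy1 (congrArg Subtype.val h))
    have h2 : (⟨z, hz⟩ : ↥H) = w := huniq _ (fun h => hz1 (congrArg Subtype.val h))
    exact congrArg Subtype.val (h1.trans h2.symm)

theorem pow_cases {k : ℕ} (hk : k ≤ 5) (h : 2 ^ 5 ≡ 2 ^ k [MOD 5]) : k = 1 ∨ k = 5 := by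
  interval_cases k
  all_goals first | exact Or.inl rfl | exact Or.inr rfl | exact absurd h (by decide)

theorem main : Cfsg.Agent.Lib.Helper27.JzStmt.SC := by
  intro S _ _ z Q hF h5 N hN hzN ⟨x, hxN, hxQ, hx1, hxz⟩
  classical
  haveI : Fact (Nat.Prime 5) := ⟨by norm_num⟩
  obtain ⟨c', hc'⟩ := exists_prime_orderOf_dvd_card' 5 h5
  have hc5 : (c' : S) ^ 5 = 1 := by
    have h1 : c' ^ 5 = 1 := by rw [← hc', pow_orderOf_eq_one]
    have h2 := congrArg Subtype.val h1
    simpa using h2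
  have hc1 : (c' : S) ≠ 1 := by
    intro h
    have h1 : c' = 1 := Subtype.ext h
    rw [h1, orderOf_one] at hc'
    norm_num at hc'
  have hcz : (c' : S) * z = z * (c' : S) :=
    ((Subgroup.mem_centralizer_iff.mp c'.2) z rfl).symm
  generalize (c' : S) = c at hc5 hc1 hcz
  have hQc : ∀ q ∈ Q, c * q * c⁻¹ ∈ Q := fun q hq => hF.Q_norm c hcz q hq
  have hzc : z ∈ Subgroup.centralizer ({c} : Set S) := by
    rw [Subgroup.mem_centralizer_iff]
    intro y hy
    rw [Set.mem_singleton_iff.mp hy]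
    exact hcz
  -- the fixed points on `Q`
  have h1 := card_modEq_fixed c hc5 Q hQc
  rw [hF.card_Q] at h1
  have hdvd : Nat.card ↥(Q ⊓ Subgroup.centralizer ({c} : Set S)) ∣ 2 ^ 5 := by
    rw [← hF.card_Q]
    exact Subgroup.card_dvd_of_le inf_le_left
  obtain ⟨k, hk, hkc⟩ := (Nat.dvd_prime_pow Nat.prime_two).mp hdvd
  rw [hkc] at h1
  have hk1 : k = 1 := by
    rcases pow_cases hk h1 with h | h
    · exact h
    · exfalso
      have hle : Q ⊓ Subgroup.centralizer ({c} : Set S) = Q := by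
        apply Subgroup.eq_of_le_of_card_ge inf_le_left
        rw [hkc, h, hF.card_Q]
      have hcQ : c ∈ Q := by
        apply hF.self_c c hcz
        intro q hq
        have hq' : q ∈ Q ⊓ Subgroup.centralizer ({c} : Set S) := by
          rw [hle]
          exact hq
        exact (Subgroup.mem_centralizer_iff.mp hq'.2 c rfl)
      have h32 : c ^ 32 = 1 := by
        have h2 : (⟨c, hcQ⟩ : ↥Q) ^ Nat.card ↥Q = 1 := pow_card_eq_one'
        have h3 := congrArg Subtype.val h2
        rw [hF.card_Q] at h3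
        simpa using h3
      have hc2 : c ^ 2 = 1 := by
        have h4 : c ^ 32 = (c ^ 5) ^ 6 * c ^ 2 := by rw [← pow_mul, ← pow_add]
        rw [h4, hc5, one_pow, one_mul] at h32
        exact h32
      have h5' : c ^ 5 = (c ^ 2) ^ 2 * c := by rw [← pow_mul, ← pow_succ]
      rw [h5', hc2, one_pow, one_mul] at hc5
      exact hc1 hc5
  have hH2 : Nat.card ↥(Q ⊓ Subgroup.centralizer ({c} : Set S)) = 2 := by
    rw [hkc, hk1, pow_one]
  -- the fixed points on `N ⊓ Q`
  have hRc : ∀ r ∈ N ⊓ Q, c * r * c⁻¹ ∈ N ⊓ Q :=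
    fun r hr => ⟨hN.conj_mem r hr.1 c, hQc r hr.2⟩
  have h2 := card_modEq_fixed c hc5 (N ⊓ Q) hRc
  have h3 : Nat.card ↥((N ⊓ Q) ⊓ Subgroup.centralizer ({c} : Set S)) = 2 := by
    apply le_antisymm
    · rw [← hH2]
      exact Subgroup.card_le_of_le (inf_le_inf_right _ inf_le_right)
    · have hne : (N ⊓ Q) ⊓ Subgroup.centralizer ({c} : Set S) ≠ ⊥ := by
        intro h
        have hzmem : z ∈ (N ⊓ Q) ⊓ Subgroup.centralizer ({c} : Set S) :=
          ⟨⟨hzN, hF.z_mem⟩, hzc⟩
        rw [h] at hzmem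
        exact hF.z_ne (Subgroup.mem_bot.mp hzmem)
      exact (Subgroup.one_lt_card_iff_ne_bot _).mpr hne
  rw [h3] at h2
  have hdvd2 : Nat.card ↥(N ⊓ Q) ∣ 2 ^ 5 := by
    rw [← hF.card_Q]
    exact Subgroup.card_dvd_of_le inf_le_right
  obtain ⟨m, hm, hmc⟩ := (Nat.dvd_prime_pow Nat.prime_two).mp hdvd2
  rw [hmc] at h2
  have hm15 : m = 1 ∨ m = 5 := by
    apply pow_cases hm
    have h6 : (2 : ℕ) ^ 5 ≡ 2 [MOD 5] := by decide
    exact h6.trans h2.symm
  rcases hm15 with h | h
  · exfalso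
    rw [h, pow_one] at hmc
    rcases two_elts (N ⊓ Q) hmc z ⟨hzN, hF.z_mem⟩ hF.z_ne x ⟨hxN, hxQ⟩ with h7 | h7
    · exact hx1 h7
    · exact hxz h7
  · have hRQ : N ⊓ Q = Q := by
      apply Subgroup.eq_of_le_of_card_ge inf_le_right
      rw [hmc, h, hF.card_Q]
    rw [← hRQ]
    exact inf_le_left

end Cfsg.Agent.Lib.Helper92.JzSC
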