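import Mathlib
import Cfsg.Agent.Lib.Helper27.JzStmt

/-!
# S5403 / SD

A normal subgroup containing `Q` is the whole group (Frattini argument on a Sylow 2-subgroup
of the normal subgroup, whose centre is `{1, z}`).
-/

set_option autoImplicit false

namespace Cfsg.Agent.Lib.Helper92.JzSD

open Cfsg Cfsg.Agent.Lib.Helper27.JzStmt

theorem main (hSL : Cfsg.Agent.Lib.Helper27.JzStmt.SL) : Cfsg.Agent.Lib.Helper27.JzStmt.SD := by
  intro S _ _ z Q hF hL ⟨g, hgQ, hgz⟩ N hN hQN
  haveI : N.Normal := hN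
  haveI : Fact (Nat.Prime 2) := ⟨Nat.prime_two⟩
  have hcz : ∀ c : S, c ∈ Subgroup.centralizer ({z} : Set S) ↔ c * z = z * c := by
    intro c
    rw [Subgroup.mem_centralizer_iff]
    constructor
    · intro h
      exact (h z rfl).symm
    · intro h y hy
      rw [Set.mem_singleton_iff.mp hy]
      exact h.symm
  have hQ2 : IsPGroup 2 ↥Q := IsPGroup.of_card hF.card_Q
  have hQN2 : IsPGroup 2 ↥(Q.subgroupOf N) :=
    hQ2.of_equiv (Subgroup.subgroupOfEquivOfLe hQN).symm
  obtain ⟨P, hP⟩ := hQN2.exists_le_sylow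
  have hfr := Sylow.normalizer_sup_eq_top P
  set P' : Subgroup S := (P : Subgroup ↥N).map N.subtype with hP'def
  have hQP' : Q ≤ P' := by
    intro q hq
    exact ⟨⟨q, hQN hq⟩, hP (by rw [Subgroup.mem_subgroupOf]; exact hq), rfl⟩
  have hzP' : z ∈ P' := hQP' hF.z_mem
  have hcen : ∀ x ∈ P', (∀ y ∈ P', x * y = y * x) → x = 1 ∨ x = z := by
    intro x hx hxy
    have hxQ : x ∈ Q := hF.self_c x (hxy z hzP') (fun q hq => hxy q (hQP' hq))
    exact hF.cen_Q x hxQ (fun q hq => hxy q (hQP' hq))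
  have hP'2 : IsPGroup 2 ↥P' :=
    P.isPGroup'.of_equiv ((P : Subgroup ↥N).equivMapOfInjective N.subtype N.subtype_injective)
  haveI : Nontrivial ↥P' :=
    ⟨⟨⟨z, hzP'⟩, 1, fun h => hF.z_ne (congrArg Subtype.val h)⟩⟩
  haveI : Nontrivial ↥(Subgroup.center ↥P') := hP'2.center_nontrivial
  obtain ⟨x, hx1⟩ := exists_ne (1 : ↥(Subgroup.center ↥P'))
  have hxcen : ∀ y ∈ P', ((x : ↥P') : S) * y = y * ((x : ↥P') : S) := by
    intro y hy
    have h1 := Subgroup.mem_center_iff.mp x.2 ⟨y, hy⟩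
    exact (congrArg Subtype.val h1).symm
  have hxz : ((x : ↥P') : S) = z := by
    rcases hcen _ (x : ↥P').2 hxcen with h | h
    · exfalso
      apply hx1
      apply Subtype.ext
      apply Subtype.ext
      exact h
    · exact h
  have hzcen : ∀ y ∈ P', z * y = y * z := by
    intro y hy
    rw [← hxz]
    exact hxcen y hy
  have hnorm : ∀ c ∈ Subgroup.normalizer (P' : Set S), c * z = z * c := by
    intro c hc
    have hmem := Subgroup.mem_normalizer_iff.mp hc
    have h1 : c * z * c⁻¹ ∈ P' := (hmem z).mp hzP'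
    have h2 : ∀ y ∈ P', c * z * c⁻¹ * y = y * (c * z * c⁻¹) := by
      intro y hy
      have hy' : c⁻¹ * y * c ∈ P' := by
        apply (hmem (c⁻¹ * y * c)).mpr
        have h3 : c * (c⁻¹ * y * c) * c⁻¹ = y := by group
        rw [h3]
        exact hy
      have h4 := hzcen _ hy'
      calc c * z * c⁻¹ * y = c * (z * (c⁻¹ * y * c)) * c⁻¹ := by group
        _ = c * ((c⁻¹ * y * c) * z) * c⁻¹ := by rw [h4]
        _ = y * (c * z * c⁻¹) := by group
    rcases hcen _ h1 h2 with h | h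
    · exfalso
      apply hF.z_ne
      have h5 : z = c⁻¹ * (c * z * c⁻¹) * c := by group
      rw [h5, h]
      group
    · have h6 : c * z = c * z * c⁻¹ * c := by group
      rw [h6, h]
  have hQC : Q ≤ Subgroup.centralizer ({z} : Set S) := by
    intro q hq
    exact (hcz q).mpr (hF.Q_comm q hq)
  have hLcases := hL (N ⊓ Subgroup.centralizer ({z} : Set S)) (le_inf hQN hQC) inf_le_right
    (by
      intro c hc m hm
      refine ⟨hN.conj_mem m hm.1 c, ?_⟩
      have hc' := (hcz c).mpr hc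
      exact Subgroup.mul_mem _ (Subgroup.mul_mem _ hc' hm.2) (Subgroup.inv_mem _ hc'))
  have hdecomp : ∀ s : S, ∃ c ∈ Subgroup.normalizer (P' : Set S), ∃ n ∈ N, c * n = s := by
    intro s
    have hs : s ∈ Subgroup.normalizer (P' : Set S) ⊔ N := by
      rw [hfr]
      exact Subgroup.mem_top s
    exact Subgroup.mem_sup_of_normal_right.mp hs
  rcases hLcases with hLQ | hLC
  · exfalso
    have hNC : ∀ x ∈ N, x * z = z * x → x ∈ Q := by
      intro x hx hxz'
      rw [← hLQ]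
      exact ⟨hx, (hcz x).mpr hxz'⟩
    obtain ⟨c, hc, n, hn, hcn⟩ := hdecomp g
    have hcz' := hnorm c hc
    have hn' : c * n * c⁻¹ ∈ N := hN.conj_mem n hn c
    have h1 : c⁻¹ * z * c = z := by
      rw [mul_assoc, ← hcz', ← mul_assoc, inv_mul_cancel, one_mul]
    have h2 : (c * n * c⁻¹) * z * (c * n * c⁻¹)⁻¹ = g * z * g⁻¹ := by
      rw [← hcn]
      calc (c * n * c⁻¹) * z * (c * n * c⁻¹)⁻¹ = c * n * (c⁻¹ * z * c) * n⁻¹ * c⁻¹ := by group
        _ = c * n * z * n⁻¹ * c⁻¹ := by rw [h1]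
        _ = (c * n) * z * (c * n)⁻¹ := by group
    have h3 := hSL S z Q hF N hQN hNC (c * n * c⁻¹) hn' (by rw [h2]; exact hgQ)
    rw [h2] at h3
    exact hgz h3
  · rw [eq_top_iff]
    intro s _
    obtain ⟨c, hc, n, hn, rfl⟩ := hdecomp s
    have hcC : c ∈ N ⊓ Subgroup.centralizer ({z} : Set S) := by
      rw [hLC]
      exact (hcz c).mpr (hnorm c hc)
    exact N.mul_mem hcC.1 hn

end Cfsg.Agent.Lib.Helper92.JzSD
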