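import Mathlib
import Cfsg.Agent.Lib.Lead.FrameBound
import Cfsg.Agent.Lib.Lead.CountCore

/-!
Characterisation of the Leech lattice, part 1: from the numbers of short vectors of an even
rank-24 lattice without roots to a frame of 24 pairwise orthogonal vectors of norm 8 that are
congruent modulo 2, and the coordinates with respect to that frame.
-/

set_option autoImplicit false

namespace Cfsg.Agent.Lib.Helper92.LeechChar1

open Matrix

/-- The bilinear form of a matrix. -/
def bil (B : Matrix (Fin 24) (Fin 24) ℤ) (x y : Fin 24 → ℤ) : ℤ := x ⬝ᵥ (B *ᵥ y)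

variable (B : Matrix (Fin 24) (Fin 24) ℤ)

theorem bil_add_left (x y z : Fin 24 → ℤ) : bil B (x + y) z = bil B x z + bil B y z := by
  unfold bil; rw [add_dotProduct]

theorem bil_add_right (x y z : Fin 24 → ℤ) : bil B x (y + z) = bil B x y + bil B x z := by
  unfold bil; rw [mulVec_add, dotProduct_add]

theorem bil_smul_left (k : ℤ) (x y : Fin 24 → ℤ) : bil B (k • x) y = k * bil B x y := by
  unfold bil; rw [smul_dotProduct, smul_eq_mul]

theorem bil_smul_right (k : ℤ) (x y : Fin 24 → ℤ) : bil B x (k • y) = k * bil B x y := by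
  unfold bil; rw [mulVec_smul, dotProduct_smul, smul_eq_mul]

theorem bil_neg_left (x y : Fin 24 → ℤ) : bil B (-x) y = -bil B x y := by
  unfold bil; rw [neg_dotProduct]

theorem bil_neg_right (x y : Fin 24 → ℤ) : bil B x (-y) = -bil B x y := by
  unfold bil; rw [mulVec_neg, dotProduct_neg]

theorem bil_sub_left (x y z : Fin 24 → ℤ) : bil B (x - y) z = bil B x z - bil B y z := by
  rw [sub_eq_add_neg, bil_add_left, bil_neg_left, sub_eq_add_neg]

theorem bil_sub_right (x y z : Fin 24 → ℤ) : bil B x (y - z) = bil B x y - bil B x z := by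
  rw [sub_eq_add_neg, bil_add_right, bil_neg_right, sub_eq_add_neg]

theorem bil_zero_left (y : Fin 24 → ℤ) : bil B 0 y = 0 := by
  unfold bil; rw [zero_dotProduct]

theorem bil_zero_right (x : Fin 24 → ℤ) : bil B x 0 = 0 := by
  unfold bil; rw [mulVec_zero, dotProduct_zero]

theorem bil_sum_left {ι : Type*} (s : Finset ι) (u : ι → Fin 24 → ℤ) (y : Fin 24 → ℤ) :
    bil B (∑ i ∈ s, u i) y = ∑ i ∈ s, bil B (u i) y := by
  unfold bil; rw [sum_dotProduct]

theorem bil_comm (hsymm : B.IsSymm) (x y : Fin 24 → ℤ) : bil B x y = bil B y x := by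
  unfold bil
  rw [dotProduct_mulVec, ← mulVec_transpose, hsymm.eq, dotProduct_comm]

/-- Reduction modulo 2. -/
def red (x : Fin 24 → ℤ) : Fin 24 → ZMod 2 := fun i => (x i : ZMod 2)

theorem red_eq_iff (x y : Fin 24 → ℤ) : red x = red y ↔ ∃ u : Fin 24 → ℤ, x - y = (2 : ℤ) • u := by
  constructor
  · intro h
    refine ⟨fun i => (x i - y i) / 2, ?_⟩
    funext i
    have h1 : ((y i : ℤ) : ZMod 2) = ((x i : ℤ) : ZMod 2) := (congrFun h i).symm
    rw [ZMod.intCast_eq_intCast_iff_dvd_sub] at h1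
    simp only [Pi.sub_apply, Pi.smul_apply, smul_eq_mul]
    have h2 : (2 : ℤ) ∣ x i - y i := by exact_mod_cast h1
    omega
  · rintro ⟨u, hu⟩
    funext i
    have h1 := congrFun hu i
    simp only [Pi.sub_apply, Pi.smul_apply, smul_eq_mul] at h1
    show ((x i : ℤ) : ZMod 2) = ((y i : ℤ) : ZMod 2)
    symm
    rw [ZMod.intCast_eq_intCast_iff_dvd_sub]
    exact ⟨u i, by rw [h1]; norm_num⟩

theorem red_neg (x : Fin 24 → ℤ) : red (-x) = red x := by
  rw [red_eq_iff]
  exact ⟨-x, by funext i; simp only [Pi.sub_apply, Pi.neg_apply, Pi.smul_apply, smul_eq_mul]; ring⟩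

theorem neg_ne_self {x : Fin 24 → ℤ} (hx : x ≠ 0) : -x ≠ x := by
  intro h
  apply hx
  funext i
  have := congrFun h i
  simp only [Pi.neg_apply] at this
  simp only [Pi.zero_apply]
  omega

section
variable {B}

theorem four_le (hpos : ∀ x : Fin 24 → ℤ, x ≠ 0 → 0 < bil B x x)
    (heven : ∀ x : Fin 24 → ℤ, (2 : ℤ) ∣ bil B x x) (h2 : ∀ x : Fin 24 → ℤ, bil B x x ≠ 2)
    {u : Fin 24 → ℤ} (hu : u ≠ 0) : 4 ≤ bil B u u := by
  have h1 := hpos u hu
  have h3 := heven u
  have h4 := h2 u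
  omega

theorem norm_add (hsymm : B.IsSymm) (x y : Fin 24 → ℤ) :
    bil B (x + y) (x + y) = bil B x x + bil B y y + 2 * bil B x y := by
  rw [bil_add_left, bil_add_right, bil_add_right, bil_comm B hsymm y x]; ring

theorem norm_sub (hsymm : B.IsSymm) (x y : Fin 24 → ℤ) :
    bil B (x - y) (x - y) = bil B x x + bil B y y - 2 * bil B x y := by
  rw [bil_sub_left, bil_sub_right, bil_sub_right, bil_comm B hsymm y x]; ring

theorem short (hsymm : B.IsSymm) (hpos : ∀ x : Fin 24 → ℤ, x ≠ 0 → 0 < bil B x x)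
    (heven : ∀ x : Fin 24 → ℤ, (2 : ℤ) ∣ bil B x x) (h2 : ∀ x : Fin 24 → ℤ, bil B x x ≠ 2)
    {x y : Fin 24 → ℤ} (hx : bil B x x ≤ 8) (hy : bil B y y ≤ 8)
    (hxy : red x = red y) :
    y = x ∨ y = -x ∨ (bil B x x = 8 ∧ bil B y y = 8 ∧ bil B x y = 0) := by
  obtain ⟨u, hu⟩ := (red_eq_iff x y).mp hxy
  have hu' : x + y = (2 : ℤ) • (u + y) := by
    have : x = (2 : ℤ) • u + y := by rw [← hu]; abel
    rw [this, smul_add]; funext i; simp only [Pi.add_apply, Pi.smul_apply, smul_eq_mul]; ring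
  by_cases h0 : u = 0
  · left
    rw [h0, smul_zero, sub_eq_zero] at hu
    exact hu.symm
  by_cases h0' : u + y = 0
  · right; left
    rw [h0', smul_zero] at hu'
    exact eq_neg_of_add_eq_zero_right hu'
  right; right
  have n1 := norm_sub hsymm x y
  have n2 := norm_add hsymm x y
  rw [hu, bil_smul_left, bil_smul_right] at n1
  rw [hu', bil_smul_left, bil_smul_right] at n2
  have f1 := four_le hpos heven h2 h0
  have f2 := four_le hpos heven h2 h0'
  refine ⟨by omega, by omega, by omega⟩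

open Cfsg.Agent.Lib.Lead.FrameBound Cfsg.Agent.Lib.Lead.CountCore

theorem half (hpos : ∀ x : Fin 24 → ℤ, x ≠ 0 → 0 < bil B x x)
    (F : Finset (Fin 24 → ℤ)) (hF : ∀ y ∈ F, y ≠ 0)
    (horth : ∀ y ∈ F, ∀ y' ∈ F, y' = y ∨ y' = -y ∨ bil B y y' = 0) :
    F.card ≤ 48 ∧ (F.card = 48 → ∃ T : Finset (Fin 24 → ℤ), T ⊆ F ∧ T.card = 24 ∧
      ∀ y ∈ T, ∀ y' ∈ T, y ≠ y' → bil B y y' = 0) := by
  classical
  have hcard := Finset.card_filter_add_card_filter_not (s := F)
    (fun y : Fin 24 → ℤ => toLex (-y) < toLex y)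
  have h1 : ∀ y ∈ F.filter (fun y : Fin 24 → ℤ => toLex (-y) < toLex y),
      ∀ y' ∈ F.filter (fun y : Fin 24 → ℤ => toLex (-y) < toLex y), y ≠ y' → bil B y y' = 0 := by
    intro y hy y' hy' hne
    rw [Finset.mem_filter] at hy hy'
    rcases horth y hy.1 y' hy'.1 with h | h | h
    · exact absurd h.symm hne
    · exfalso
      have h3 := hy'.2
      rw [h, neg_neg] at h3
      exact lt_asymm h3 hy.2
    · exact h
  have h2 : ∀ y ∈ F.filter (fun y : Fin 24 → ℤ => ¬ toLex (-y) < toLex y),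
      ∀ y' ∈ F.filter (fun y : Fin 24 → ℤ => ¬ toLex (-y) < toLex y), y ≠ y' → bil B y y' = 0 := by
    intro y hy y' hy' hne
    rw [Finset.mem_filter] at hy hy'
    rcases horth y hy.1 y' hy'.1 with h | h | h
    · exact absurd h.symm hne
    · exfalso
      have h3 := hy'.2
      rw [h, neg_neg] at h3
      have h4 := hy.2
      have h5 : toLex y = toLex (-y) := le_antisymm (not_lt.mp h4) (not_lt.mp h3)
      exact neg_ne_self (hF y hy.1) (toLex.injective h5).symm
    · exact h
  have c1 := frame_card_le B hpos _ (fun y hy => hF y (Finset.mem_filter.mp hy).1) h1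
  have c2 := frame_card_le B hpos _ (fun y hy => hF y (Finset.mem_filter.mp hy).1) h2
  rw [Fintype.card_fin] at c1 c2
  refine ⟨by omega, fun h48 => ⟨_, Finset.filter_subset _ _, by omega, h1⟩⟩

theorem exists_frame (hsymm : B.IsSymm) (hpos : ∀ x : Fin 24 → ℤ, x ≠ 0 → 0 < bil B x x)
    (heven : ∀ x : Fin 24 → ℤ, (2 : ℤ) ∣ bil B x x) (h2 : ∀ x : Fin 24 → ℤ, bil B x x ≠ 2)
    (h4 : {x : Fin 24 → ℤ | bil B x x = 4}.ncard = 196560)
    (h6 : {x : Fin 24 → ℤ | bil B x x = 6}.ncard = 16773120)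
    (h8 : {x : Fin 24 → ℤ | bil B x x = 8}.ncard = 398034000) :
    ∃ v : Fin 24 → (Fin 24 → ℤ), (∀ i, bil B (v i) (v i) = 8) ∧
      (∀ i j, i ≠ j → bil B (v i) (v j) = 0) ∧
      (∀ i j, ∃ u : Fin 24 → ℤ, v i - v j = (2 : ℤ) • u) := by
  classical
  have f4 : {x : Fin 24 → ℤ | bil B x x = 4}.Finite :=
    Set.finite_of_ncard_ne_zero (by rw [h4]; norm_num)
  have f6 : {x : Fin 24 → ℤ | bil B x x = 6}.Finite :=
    Set.finite_of_ncard_ne_zero (by rw [h6]; norm_num)
  have f8 : {x : Fin 24 → ℤ | bil B x x = 8}.Finite :=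
    Set.finite_of_ncard_ne_zero (by rw [h8]; norm_num)
  have c4 : f4.toFinset.card = 196560 := by rw [← Set.ncard_eq_toFinset_card _ f4, h4]
  have c6 : f6.toFinset.card = 16773120 := by rw [← Set.ncard_eq_toFinset_card _ f6, h6]
  have c8 : f8.toFinset.card = 398034000 := by rw [← Set.ncard_eq_toFinset_card _ f8, h8]
  have m4 : ∀ x, x ∈ f4.toFinset ↔ bil B x x = 4 := fun x => by
    rw [Set.Finite.mem_toFinset]; rfl
  have m6 : ∀ x, x ∈ f6.toFinset ↔ bil B x x = 6 := fun x => by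
    rw [Set.Finite.mem_toFinset]; rfl
  have m8 : ∀ x, x ∈ f8.toFinset ↔ bil B x x = 8 := fun x => by
    rw [Set.Finite.mem_toFinset]; rfl
  have hneg : ∀ x : Fin 24 → ℤ, bil B (-x) (-x) = bil B x x := by
    intro x; rw [bil_neg_left, bil_neg_right, neg_neg]
  have hnz : ∀ x : Fin 24 → ℤ, bil B x x ≠ 0 → x ≠ 0 := by
    intro x h h0; rw [h0, bil_zero_left] at h; exact h rfl
  have hQ : Fintype.card (Fin 24 → ZMod 2) = 2 ^ 24 := by
    rw [Fintype.card_fun, ZMod.card, Fintype.card_fin]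
  have sh : ∀ x y : Fin 24 → ℤ, bil B x x ≤ 8 → bil B y y ≤ 8 → red x = red y →
      y = x ∨ y = -x ∨ (bil B x x = 8 ∧ bil B y y = 8 ∧ bil B x y = 0) :=
    fun x y hx hy hxy => short hsymm hpos heven h2 hx hy hxy
  have hz0 : ∀ x : Fin 24 → ℤ, 0 < bil B x x → bil B x x ≤ 8 → red x ≠ red 0 := by
    intro x hx0 hx8 hxy
    rcases sh x 0 hx8 (by rw [bil_zero_left]; norm_num) hxy with h | h | ⟨-, h, -⟩
    · rw [← h, bil_zero_left] at hx0; omega
    · have h' : x = 0 := by rw [← neg_neg x, ← h, neg_zero]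
      rw [h', bil_zero_left] at hx0; omega
    · rw [bil_zero_left] at h; omega
  have hFib : ∀ x : Fin 24 → ℤ,
      (∀ y ∈ f8.toFinset.filter (fun y => red y = red x), y ≠ 0) ∧
      (∀ y ∈ f8.toFinset.filter (fun y => red y = red x),
        ∀ y' ∈ f8.toFinset.filter (fun y => red y = red x),
          y' = y ∨ y' = -y ∨ bil B y y' = 0) := by
    intro x
    constructor
    · intro y hy
      rw [Finset.mem_filter, m8] at hy
      exact hnz y (by rw [hy.1]; norm_num)
    · intro y hy y' hy'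
      rw [Finset.mem_filter, m8] at hy hy'
      rcases sh y y' (by omega) (by omega) (hy.2.trans hy'.2.symm) with h | h | ⟨-, -, h⟩
      · exact Or.inl h
      · exact Or.inr (Or.inl h)
      · exact Or.inr (Or.inr h)
  obtain ⟨-, -, -, h48⟩ := count_core red hQ f4.toFinset f6.toFinset f8.toFinset
    (by
      intro x hx
      rw [m4] at hx ⊢
      exact ⟨by rw [hneg, hx], neg_ne_self (hnz x (by rw [hx]; norm_num)), red_neg x⟩)
    (by
      intro x hx
      rw [m6] at hx ⊢
      exact ⟨by rw [hneg, hx], neg_ne_self (hnz x (by rw [hx]; norm_num)), red_neg x⟩)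
    (by
      intro x hx y hy hxy
      rw [m4] at hx hy
      rcases sh x y (by omega) (by omega) hxy with h | h | ⟨h, -, -⟩
      · exact Or.inl h
      · exact Or.inr h
      · omega)
    (by
      intro x hx y hy hxy
      rw [m6] at hx hy
      rcases sh x y (by omega) (by omega) hxy with h | h | ⟨h, -, -⟩
      · exact Or.inl h
      · exact Or.inr h
      · omega)
    (by
      intro x hx y hy hxy
      rw [m4] at hx
      rw [m6] at hy
      rcases sh x y (by omega) (by omega) hxy with h | h | ⟨h, -, -⟩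
      · rw [h] at hy; omega
      · rw [h, hneg] at hy; omega
      · omega)
    (by
      intro x hx y hy hxy
      rw [m4] at hx
      rw [m8] at hy
      rcases sh x y (by omega) (by omega) hxy with h | h | ⟨h, -, -⟩
      · rw [h] at hy; omega
      · rw [h, hneg] at hy; omega
      · omega)
    (by
      intro x hx y hy hxy
      rw [m6] at hx
      rw [m8] at hy
      rcases sh x y (by omega) (by omega) hxy with h | h | ⟨h, -, -⟩
      · rw [h] at hy; omega
      · rw [h, hneg] at hy; omega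
      · omega)
    (by intro x hx; rw [m4] at hx; exact hz0 x (by omega) (by omega))
    (by intro x hx; rw [m6] at hx; exact hz0 x (by omega) (by omega))
    (by intro x hx; rw [m8] at hx; exact hz0 x (by omega) (by omega))
    (by
      intro x _
      exact (half hpos _ (hFib x).1 (hFib x).2).1)
    c4 c6.ge c8.ge
  have hpos8 : 0 < f8.toFinset.card := by rw [c8]; norm_num
  obtain ⟨x0, hx0⟩ := Finset.card_pos.mp hpos8
  obtain ⟨T, hTF, hT24, hTorth⟩ := (half hpos _ (hFib x0).1 (hFib x0).2).2 (h48 x0 hx0)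
  have hTmem : ∀ y ∈ T, bil B y y = 8 ∧ red y = red x0 := by
    intro y hy
    have := hTF hy
    rw [Finset.mem_filter, m8] at this
    exact this
  refine ⟨fun i => (((T.equivFinOfCardEq hT24).symm i : T) : Fin 24 → ℤ), ?_, ?_, ?_⟩
  · intro i
    exact (hTmem _ ((T.equivFinOfCardEq hT24).symm i).2).1
  · intro i j hij
    exact hTorth _ ((T.equivFinOfCardEq hT24).symm i).2 _ ((T.equivFinOfCardEq hT24).symm j).2
      (fun h => hij ((T.equivFinOfCardEq hT24).symm.injective (Subtype.ext h)))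
  · intro i j
    rw [← red_eq_iff]
    exact (hTmem _ ((T.equivFinOfCardEq hT24).symm i).2).2.trans
      (hTmem _ ((T.equivFinOfCardEq hT24).symm j).2).2.symm

theorem expand (hsymm : B.IsSymm) (hpos : ∀ x : Fin 24 → ℤ, x ≠ 0 → 0 < bil B x x)
    (v : Fin 24 → (Fin 24 → ℤ)) (hv8 : ∀ i, bil B (v i) (v i) = 8)
    (hv0 : ∀ i j, i ≠ j → bil B (v i) (v j) = 0) (x : Fin 24 → ℤ) :
    (8 : ℤ) • x = ∑ i, bil B x (v i) • v i := by
  classical
  by_contra hne
  obtain ⟨y, hy⟩ : ∃ y : Fin 24 → ℤ, y = (8 : ℤ) • x - ∑ i, bil B x (v i) • v i := ⟨_, rfl⟩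
  have hy0 : y ≠ 0 := by rw [hy]; exact sub_ne_zero.mpr hne
  have hyv : ∀ j, bil B y (v j) = 0 := by
    intro j
    rw [hy, bil_sub_left, bil_smul_left, bil_sum_left, Finset.sum_eq_single j]
    · rw [bil_smul_left, hv8]; ring
    · intro i _ hij; rw [bil_smul_left, hv0 i j hij, mul_zero]
    · intro h; exact absurd (Finset.mem_univ j) h
  have hvinj : Function.Injective v := by
    intro i j hij
    by_contra h
    have h1 := hv0 i j h
    rw [hij, hv8] at h1
    norm_num at h1
  have hnot : y ∉ Finset.univ.image v := by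
    intro h
    obtain ⟨j, -, hj⟩ := Finset.mem_image.mp h
    have h1 := hyv j
    rw [← hj, hv8] at h1
    norm_num at h1
  have hcard : (insert y (Finset.univ.image v)).card = 25 := by
    rw [Finset.card_insert_of_notMem hnot, Finset.card_image_of_injective _ hvinj,
      Finset.card_univ, Fintype.card_fin]
  have hle := frame_card_le B hpos (insert y (Finset.univ.image v)) (by
    intro z hz
    rcases Finset.mem_insert.mp hz with h | hz
    · rw [h]; exact hy0
    · obtain ⟨j, -, rfl⟩ := Finset.mem_image.mp hz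
      intro h0
      have h1 := hv8 j
      rw [h0, bil_zero_left] at h1
      norm_num at h1) (by
    intro z hz z' hz' hne'
    show bil B z z' = 0
    rcases Finset.mem_insert.mp hz with h | hz
    · rcases Finset.mem_insert.mp hz' with h' | hz'
      · exact absurd (h.trans h'.symm) hne'
      · obtain ⟨j, -, rfl⟩ := Finset.mem_image.mp hz'
        rw [h]; exact hyv j
    · obtain ⟨i, -, rfl⟩ := Finset.mem_image.mp hz
      rcases Finset.mem_insert.mp hz' with h' | hz'
      · rw [h', bil_comm B hsymm]; exact hyv i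
      · obtain ⟨j, -, rfl⟩ := Finset.mem_image.mp hz'
        exact hv0 i j (fun h => hne' (by rw [h])))
  rw [hcard, Fintype.card_fin] at hle
  omega

theorem dot_eq (hsymm : B.IsSymm) (hpos : ∀ x : Fin 24 → ℤ, x ≠ 0 → 0 < bil B x x)
    (v : Fin 24 → (Fin 24 → ℤ)) (hv8 : ∀ i, bil B (v i) (v i) = 8)
    (hv0 : ∀ i j, i ≠ j → bil B (v i) (v j) = 0) (x y : Fin 24 → ℤ) :
    ∑ i, bil B x (v i) * bil B y (v i) = 8 * bil B x y := by
  have h := expand hsymm hpos v hv8 hv0 x
  have h1 : bil B ((8 : ℤ) • x) y = 8 * bil B x y := bil_smul_left B 8 x y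
  rw [h, bil_sum_left] at h1
  rw [← h1]
  apply Finset.sum_congr rfl
  intro i _
  rw [bil_smul_left, bil_comm B hsymm (v i) y]

/-- Coordinates with respect to a frame. -/
theorem frame_coords (hsymm : B.IsSymm) (hpos : ∀ x : Fin 24 → ℤ, x ≠ 0 → 0 < bil B x x)
    (heven : ∀ x : Fin 24 → ℤ, (2 : ℤ) ∣ bil B x x) (h2 : ∀ x : Fin 24 → ℤ, bil B x x ≠ 2)
    (h4 : {x : Fin 24 → ℤ | bil B x x = 4}.ncard = 196560)
    (h6 : {x : Fin 24 → ℤ | bil B x x = 6}.ncard = 16773120)
    (h8 : {x : Fin 24 → ℤ | bil B x x = 8}.ncard = 398034000) :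
    ∃ c : (Fin 24 → ℤ) →+ (Fin 24 → ℤ),
      (∀ x y, ∑ i, c x i * c y i = 8 * bil B x y) ∧
      (∀ x i j, (2 : ℤ) ∣ c x i - c x j) ∧
      (∀ i, (Pi.single i (8 : ℤ) : Fin 24 → ℤ) ∈ c.range) ∧
      (∀ i j, (Pi.single i (4 : ℤ) - Pi.single j (4 : ℤ) : Fin 24 → ℤ) ∈ c.range) := by
  obtain ⟨v, hv8, hv0, hv2⟩ := exists_frame hsymm hpos heven h2 h4 h6 h8
  have hvv : ∀ a b, bil B (v a) (v b) = if b = a then 8 else 0 := by
    intro a b
    by_cases h : b = a
    · rw [if_pos h, h, hv8]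
    · rw [if_neg h, hv0 a b (fun h' => h h'.symm)]
  refine ⟨{ toFun := fun x i => bil B x (v i)
            map_zero' := by funext i; exact bil_zero_left B _
            map_add' := fun x y => by funext i; exact bil_add_left B x y (v i) }, ?_, ?_, ?_, ?_⟩
  · intro x y
    exact dot_eq hsymm hpos v hv8 hv0 x y
  · intro x i j
    obtain ⟨u, hu⟩ := hv2 i j
    show (2 : ℤ) ∣ bil B x (v i) - bil B x (v j)
    rw [← bil_sub_right, hu, bil_smul_right]
    exact dvd_mul_right _ _
  · intro j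
    refine ⟨v j, ?_⟩
    funext i
    show bil B (v j) (v i) = (Pi.single j (8 : ℤ) : Fin 24 → ℤ) i
    rw [hvv, Pi.single_apply]
  · intro i j
    obtain ⟨u, hu⟩ := hv2 i j
    refine ⟨u, ?_⟩
    funext k
    show bil B u (v k) = ((Pi.single i (4 : ℤ) - Pi.single j (4 : ℤ) : Fin 24 → ℤ)) k
    have h1 : 2 * bil B u (v k) = bil B (v i) (v k) - bil B (v j) (v k) := by
      rw [← bil_smul_left, ← hu, bil_sub_left]
    rw [hvv, hvv] at h1
    rw [Pi.sub_apply, Pi.single_apply, Pi.single_apply]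
    by_cases hki : k = i <;> by_cases hkj : k = j <;> simp only [hki, hkj, if_true, if_false] at h1 ⊢ <;> omega

end

end Cfsg.Agent.Lib.Helper92.LeechChar1
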