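import Mathlib
import Cfsg.Prelude.Def_Sporadic_a

/-!
Characterisation of the Leech lattice, part 2: a sublattice of `ℤ^24` with the arithmetic
properties of the coordinates with respect to a frame; its binary code.
-/

set_option autoImplicit false

namespace Cfsg.Agent.Lib.Helper92.LeechChar2

/-- The arithmetic properties of the lattice of coordinates with respect to a frame. -/
structure Hyp (M : AddSubgroup (Fin 24 → ℤ)) : Prop where
  par : ∀ m ∈ M, ∀ i j, (2 : ℤ) ∣ m i - m j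
  dot : ∀ m ∈ M, ∀ m' ∈ M, (8 : ℤ) ∣ ∑ i, m i * m' i
  sq16 : ∀ m ∈ M, (16 : ℤ) ∣ ∑ i, m i ^ 2
  min32 : ∀ m ∈ M, m ≠ 0 → 32 ≤ ∑ i, m i ^ 2
  e8 : ∀ i, (Pi.single i (8 : ℤ) : Fin 24 → ℤ) ∈ M
  e44 : ∀ i j, (Pi.single i (4 : ℤ) - Pi.single j (4 : ℤ) : Fin 24 → ℤ) ∈ M

variable {M : AddSubgroup (Fin 24 → ℤ)}

theorem four_mem (h : Hyp M) (z : Fin 24 → ℤ) (hz : (2 : ℤ) ∣ ∑ i, z i) : (4 : ℤ) • z ∈ M := by
  obtain ⟨k, hk⟩ := hz
  have h1 : (4 : ℤ) • z = ∑ i, z i • (Pi.single i (4 : ℤ) - Pi.single 0 (4 : ℤ) : Fin 24 → ℤ)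
      + k • (Pi.single 0 (8 : ℤ) : Fin 24 → ℤ) := by
    funext j
    simp only [Pi.add_apply, Finset.sum_apply, Pi.smul_apply, Pi.sub_apply, Pi.single_apply,
      smul_eq_mul]
    have h2 : ∑ i, z i * ((if j = i then (4 : ℤ) else 0) - (if j = 0 then 4 else 0))
        = 4 * z j - (if j = 0 then 4 else 0) * ∑ i, z i := by
      simp only [mul_sub, Finset.sum_sub_distrib, mul_ite, mul_zero, Finset.sum_ite_eq,
        Finset.mem_univ, if_true]
      rw [Finset.mul_sum]
      congr 1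
      · ring
      · apply Finset.sum_congr rfl
        intro i _
        split_ifs <;> ring
    rw [h2, hk]
    split_ifs <;> ring
  rw [h1]
  exact M.add_mem (M.sum_mem (fun i _ => M.zsmul_mem (h.e44 i 0) _)) (M.zsmul_mem (h.e8 0) _)

theorem no16 (h : Hyp M) {m : Fin 24 → ℤ} (hm : m ∈ M) : ∑ i, m i ^ 2 ≠ 16 := by
  intro h16
  have hne : m ≠ 0 := by
    intro h0
    rw [h0] at h16
    simp at h16
  have := h.min32 m hm hne
  omega

theorem sum_single (j : Fin 24) (a : ℤ) : ∑ i, (Pi.single j a : Fin 24 → ℤ) i = a := by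
  rw [Finset.sum_eq_single j]
  · rw [Pi.single_eq_same]
  · intro i _ hij; rw [Pi.single_eq_of_ne hij]
  · intro hj; exact absurd (Finset.mem_univ j) hj

theorem single4_notMem (h : Hyp M) (j : Fin 24) : (Pi.single j (4 : ℤ) : Fin 24 → ℤ) ∉ M := by
  intro hm
  apply no16 h hm
  rw [Finset.sum_eq_single j]
  · rw [Pi.single_eq_same]; norm_num
  · intro i _ hij; rw [Pi.single_eq_of_ne hij]; norm_num
  · intro hj; exact absurd (Finset.mem_univ j) hj

theorem four_mem_iff (h : Hyp M) (z : Fin 24 → ℤ) : (4 : ℤ) • z ∈ M ↔ (2 : ℤ) ∣ ∑ i, z i := by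
  constructor
  · intro hz
    by_contra hodd
    have h1 : (2 : ℤ) ∣ ∑ i, (z - (Pi.single 0 (1 : ℤ) : Fin 24 → ℤ)) i := by
      simp only [Pi.sub_apply, Finset.sum_sub_distrib]
      rw [sum_single]
      omega
    have h2 := four_mem h _ h1
    have h3 : (Pi.single 0 (4 : ℤ) : Fin 24 → ℤ) = (4 : ℤ) • z - (4 : ℤ) • (z - (Pi.single 0 (1 : ℤ) : Fin 24 → ℤ)) := by
      funext i
      simp only [Pi.sub_apply, Pi.smul_apply, smul_eq_mul, Pi.single_apply]
      split_ifs <;> ring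
    exact single4_notMem h 0 (by rw [h3]; exact M.sub_mem hz h2)
  · exact four_mem h z

/-- The binary code of the lattice: the halves of its even vectors, modulo 2. -/
def code (M : AddSubgroup (Fin 24 → ℤ)) : Submodule (ZMod 2) (Fin 24 → ZMod 2) where
  carrier := {w | ∃ z : Fin 24 → ℤ, (2 : ℤ) • z ∈ M ∧ ∀ i, ((z i : ℤ) : ZMod 2) = w i}
  add_mem' := by
    rintro a b ⟨z, hz, hza⟩ ⟨z', hz', hzb⟩
    refine ⟨z + z', by rw [smul_add]; exact M.add_mem hz hz', fun i => ?_⟩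
    rw [Pi.add_apply, Pi.add_apply, Int.cast_add, hza, hzb]
  zero_mem' := ⟨0, by rw [smul_zero]; exact M.zero_mem, fun i => by simp⟩
  smul_mem' := by
    rintro c w ⟨z, hz, hzw⟩
    refine ⟨((c.val : ℕ) : ℤ) • z, ?_, fun i => ?_⟩
    · rw [smul_comm]; exact M.zsmul_mem hz _
    · rw [Pi.smul_apply, Pi.smul_apply, smul_eq_mul, smul_eq_mul, Int.cast_mul, hzw]
      congr 1
      simp

theorem mem_code {w : Fin 24 → ZMod 2} :
    w ∈ code M ↔ ∃ z : Fin 24 → ℤ, (2 : ℤ) • z ∈ M ∧ ∀ i, ((z i : ℤ) : ZMod 2) = w i := Iff.rfl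

theorem cast_eq_zero_iff (a : ℤ) : ((a : ℤ) : ZMod 2) = 0 ↔ a % 2 = 0 := by
  rw [ZMod.intCast_zmod_eq_zero_iff_dvd]
  constructor
  · intro h; exact Int.emod_eq_zero_of_dvd (by exact_mod_cast h)
  · intro h; exact_mod_cast Int.dvd_of_emod_eq_zero h

theorem cast_eq_cast_iff (a b : ℤ) : ((a : ℤ) : ZMod 2) = ((b : ℤ) : ZMod 2) ↔ a % 2 = b % 2 := by
  rw [← sub_eq_zero, ← Int.cast_sub, cast_eq_zero_iff]
  omega

theorem two_smul_congr (h : Hyp M) {z0 z : Fin 24 → ℤ} (h0 : (2 : ℤ) • z0 ∈ M)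
    (hc : ∀ i, z i % 2 = z0 i % 2) (hs : (4 : ℤ) ∣ ∑ i, (z i - z0 i)) : (2 : ℤ) • z ∈ M := by
  have h1 : (2 : ℤ) • z = (2 : ℤ) • z0 + (4 : ℤ) • (fun i => (z i - z0 i) / 2) := by
    funext i
    simp only [Pi.add_apply, Pi.smul_apply, smul_eq_mul]
    have := hc i
    omega
  rw [h1]
  refine M.add_mem h0 (four_mem h _ ?_)
  have h2 : ∑ i, (z i - z0 i) = 2 * ∑ i, (z i - z0 i) / 2 := by
    rw [Finset.mul_sum]
    apply Finset.sum_congr rfl
    intro i _
    have := hc i
    omega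
  rw [h2] at hs
  omega

theorem exists_short (h : Hyp M) {w : Fin 24 → ZMod 2} (hw : w ∈ code M) (hne : w ≠ 0) :
    ∃ z : Fin 24 → ℤ, (2 : ℤ) • z ∈ M ∧
      ∀ i, (w i = 0 → z i = 0) ∧ (w i ≠ 0 → z i = 1 ∨ z i = -1) := by
  obtain ⟨z0, hz0, hzw⟩ := hw
  have hpar : ∀ i, (if w i = 0 then (0 : ℤ) else 1) % 2 = z0 i % 2 := by
    intro i
    by_cases hi : w i = 0
    · rw [if_pos hi]
      have := hzw i
      rw [hi, cast_eq_zero_iff] at this
      omega
    · rw [if_neg hi]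
      have h1 : w i = 1 := by
        have key : ∀ a : ZMod 2, a ≠ 0 → a = 1 := by decide
        exact key _ hi
      have := hzw i
      rw [h1, ← Int.cast_one, cast_eq_cast_iff] at this
      omega
  by_cases h4 : (4 : ℤ) ∣ ∑ i, ((if w i = 0 then (0 : ℤ) else 1) - z0 i)
  · refine ⟨fun i => if w i = 0 then 0 else 1, two_smul_congr h hz0 hpar h4, fun i => ?_⟩
    constructor
    · intro hi; simp only [hi, if_true]
    · intro hi; left; simp only [hi, if_false]
  · obtain ⟨j, hj⟩ := Function.ne_iff.mp hne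
    rw [Pi.zero_apply] at hj
    have h2 : (2 : ℤ) ∣ ∑ i, ((if w i = 0 then (0 : ℤ) else 1) - z0 i) := by
      apply Finset.dvd_sum
      intro i _
      have := hpar i
      omega
    refine ⟨fun i => (if w i = 0 then 0 else 1) - (if i = j then 2 else 0),
      two_smul_congr h hz0 ?_ ?_, fun i => ?_⟩
    · intro i
      have := hpar i
      show ((if w i = 0 then (0 : ℤ) else 1) - (if i = j then 2 else 0)) % 2 = z0 i % 2
      split_ifs at this ⊢ <;> omega
    · have h3 : ∑ i, ((if w i = 0 then (0 : ℤ) else 1) - (if i = j then 2 else 0) - z0 i)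
          = ∑ i, ((if w i = 0 then (0 : ℤ) else 1) - z0 i) - 2 := by
        have h5 : ∀ i, ((if w i = 0 then (0 : ℤ) else 1) - (if i = j then 2 else 0) - z0 i)
            = ((if w i = 0 then (0 : ℤ) else 1) - z0 i) - (if i = j then 2 else 0) := by
          intro i; ring
        simp only [h5]
        rw [Finset.sum_sub_distrib, Finset.sum_ite_eq' Finset.univ j, if_pos (Finset.mem_univ j)]
      show (4 : ℤ) ∣ ∑ i, ((if w i = 0 then (0 : ℤ) else 1) - (if i = j then 2 else 0) - z0 i)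
      rw [h3]
      omega
    · constructor
      · intro hi
        have hij : i ≠ j := fun hij => hj (hij ▸ hi)
        show (if w i = 0 then (0 : ℤ) else 1) - (if i = j then 2 else 0) = 0
        rw [if_pos hi, if_neg hij]; norm_num
      · intro hi
        show (if w i = 0 then (0 : ℤ) else 1) - (if i = j then 2 else 0) = 1 ∨
          (if w i = 0 then (0 : ℤ) else 1) - (if i = j then 2 else 0) = -1
        rw [if_neg hi]
        by_cases hij : i = j
        · right; rw [if_pos hij]; norm_num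
        · left; rw [if_neg hij]; norm_num

theorem weight (h : Hyp M) {w : Fin 24 → ZMod 2} (hw : w ∈ code M) :
    4 ∣ hammingNorm w ∧ (w ≠ 0 → 8 ≤ hammingNorm w) := by
  by_cases hne : w = 0
  · rw [hne, hammingNorm_zero]
    exact ⟨dvd_zero 4, fun h => absurd rfl h⟩
  obtain ⟨z, hz, hzw⟩ := exists_short h hw hne
  have hsum : ∑ i, ((2 : ℤ) • z) i ^ 2 = 4 * (hammingNorm w : ℤ) := by
    unfold hammingNorm
    rw [Finset.card_filter, Nat.cast_sum, Finset.mul_sum]
    apply Finset.sum_congr rfl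
    intro i _
    rw [Pi.smul_apply, smul_eq_mul]
    by_cases hi : w i = 0
    · rw [(hzw i).1 hi, if_neg (not_not.mpr hi)]; norm_num
    · rw [if_pos hi]
      rcases (hzw i).2 hi with h1 | h1 <;> rw [h1] <;> norm_num
  have h16 := h.sq16 _ hz
  have hne2 : (2 : ℤ) • z ≠ 0 := by
    obtain ⟨j, hj⟩ := Function.ne_iff.mp hne
    rw [Pi.zero_apply] at hj
    intro h0
    have := congrFun h0 j
    rw [Pi.smul_apply, smul_eq_mul, Pi.zero_apply] at this
    rcases (hzw j).2 hj with h1 | h1 <;> rw [h1] at this <;> norm_num at this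
  have h32 := h.min32 _ hz hne2
  rw [hsum] at h16 h32
  refine ⟨by omega, fun _ => by omega⟩

theorem orth (h : Hyp M) {v w : Fin 24 → ZMod 2} (hv : v ∈ code M) (hw : w ∈ code M) :
    ∑ i, v i * w i = 0 := by
  obtain ⟨z, hz, hzv⟩ := hv
  obtain ⟨z', hz', hzw⟩ := hw
  have h8 := h.dot _ hz _ hz'
  have h1 : ∑ i, ((2 : ℤ) • z) i * ((2 : ℤ) • z') i = 4 * ∑ i, z i * z' i := by
    rw [Finset.mul_sum]
    apply Finset.sum_congr rfl
    intro i _
    simp only [Pi.smul_apply, smul_eq_mul]; ring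
  rw [h1] at h8
  have h2 : (∑ i, z i * z' i) % 2 = 0 := by omega
  have h3 : (((∑ i, z i * z' i : ℤ)) : ZMod 2) = 0 := (cast_eq_zero_iff _).mpr h2
  rw [Int.cast_sum] at h3
  rw [← h3]
  apply Finset.sum_congr rfl
  intro i _
  rw [Int.cast_mul, hzv, hzw]

theorem finrank_le (h : Hyp M) : Module.finrank (ZMod 2) (code M) ≤ 12 := by
  let Bf : LinearMap.BilinForm (ZMod 2) (Fin 24 → ZMod 2) := Matrix.toBilin' 1
  have hB : Bf.Nondegenerate :=
    LinearMap.BilinForm.nondegenerate_toBilin'_of_det_ne_zero' _ (by simp)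
  have hBapp : ∀ x y : Fin 24 → ZMod 2, Bf x y = ∑ i, x i * y i := by
    intro x y
    simp [Bf, Matrix.toBilin'_apply', dotProduct]
  have hle : code M ≤ Bf.orthogonal (code M) := by
    intro w hw
    rw [LinearMap.BilinForm.mem_orthogonal_iff]
    intro c hc
    show Bf c w = 0
    rw [hBapp]
    exact orth h hc hw
  have hfin : Module.finrank (ZMod 2) (Bf.orthogonal (code M))
      = 24 - Module.finrank (ZMod 2) (code M) := by
    rw [LinearMap.BilinForm.finrank_orthogonal hB]; simp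
  have h1 := Submodule.finrank_mono hle
  rw [hfin] at h1
  omega

end Cfsg.Agent.Lib.Helper92.LeechChar2
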