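import Mathlib
import Cfsg.Agent.Lib.Helper92.LeechChar2
import Cfsg.Agent.Lib.Helper8.SelfDual24Octads

/-!
Characterisation of the Leech lattice, part 3: counting the vectors of sum of squares 32 in the
lattice of coordinates; the binary code has dimension 12 and the lattice has an odd vector.
-/

set_option autoImplicit false

namespace Cfsg.Agent.Lib.Helper92.LeechChar3

open Cfsg.Agent.Lib.Helper92.LeechChar2 Cfsg.Agent.Lib.Helper8.SelfDual24Octads
  Cfsg.Agent.Lib.Helper8.SelfDual24Leaders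

/-- A code of minimum weight 8 has at most 759 words of weight 8. -/
theorem octads_le (C : Submodule (ZMod 2) (Fin 24 → ZMod 2))
    (hmin : ∀ w ∈ C, w ≠ 0 → 8 ≤ hammingNorm w) (O : Finset (Finset (Fin 24)))
    (hO : ∀ b ∈ O, b ∈ oct C) : O.card ≤ 759 := by
  classical
  have hdisj : ∀ b ∈ O, ∀ b' ∈ O, b ≠ b' →
      Disjoint (b.powersetCard 5) (b'.powersetCard 5) := by
    intro b hb b' hb' hne
    rw [Finset.disjoint_left]
    intro F hF hF'
    rw [Finset.mem_powersetCard] at hF hF'
    apply hne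
    apply oct_unique C hmin (hO b hb) (hO b' hb')
    calc 5 = F.card := hF.2.symm
      _ ≤ (b ∩ b').card := Finset.card_le_card (Finset.subset_inter hF.1 hF'.1)
  have hcard : (O.biUnion (fun b => b.powersetCard 5)).card
      = ∑ b ∈ O, (b.powersetCard 5).card := Finset.card_biUnion hdisj
  have h56 : ∀ b ∈ O, (b.powersetCard 5).card = 56 := by
    intro b hb
    rw [Finset.card_powersetCard, (mem_oct.mp (hO b hb)).2]
    rfl
  rw [Finset.sum_congr rfl h56, Finset.sum_const, smul_eq_mul] at hcard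
  have hsub : O.biUnion (fun b => b.powersetCard 5)
      ⊆ (Finset.univ : Finset (Fin 24)).powersetCard 5 := by
    intro F hF
    obtain ⟨b, _, hFb⟩ := Finset.mem_biUnion.mp hF
    rw [Finset.mem_powersetCard] at hFb ⊢
    exact ⟨Finset.subset_univ _, hFb.2⟩
  have hle := Finset.card_le_card hsub
  rw [hcard, Finset.card_powersetCard, Finset.card_univ, Fintype.card_fin] at hle
  have h24 : Nat.choose 24 5 = 42504 := by norm_num [Nat.choose]
  omega

theorem sq_le_of_sum {t : Fin 24 → ℤ} {n : ℤ} (ht : ∑ i, t i ^ 2 = n) (i : Fin 24) :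
    t i ^ 2 ≤ n := by
  rw [← ht]
  exact Finset.single_le_sum (fun k _ => sq_nonneg (t k)) (Finset.mem_univ i)

/-- The vectors `±4 e_i ± 4 e_j`. -/
def gA (p : (Fin 24 × Fin 24) × (Bool × Bool)) : Fin 24 → ℤ :=
  Pi.single p.1.1 (if p.2.1 then 4 else -4) + Pi.single p.1.2 (if p.2.2 then 4 else -4)

set_option maxRecDepth 8192 in
theorem card_A (X : Finset (Fin 24 → ℤ))
    (hX : ∀ m ∈ X, ∑ i, m i ^ 2 = 32 ∧ ∀ i, (4 : ℤ) ∣ m i) : X.card ≤ 2304 := by
  classical
  have hsub : X ⊆ Finset.univ.image gA := by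
    intro m hm
    have h32 := (hX m hm).1
    have h4 := (hX m hm).2
    have hval : ∀ i, m i = 0 ∨ m i = 4 ∨ m i = -4 := by
      intro i
      have h1 := sq_le_of_sum h32 i
      obtain ⟨k, hk⟩ := h4 i
      rw [hk] at h1 ⊢
      have h2 : -1 ≤ k ∧ k ≤ 1 := by constructor <;> nlinarith
      omega
    have hcard : (Finset.univ.filter (fun i => m i ≠ 0)).card = 2 := by
      have h1 : ∑ i, m i ^ 2 = 16 * ((Finset.univ.filter (fun i => m i ≠ 0)).card : ℤ) := by
        rw [Finset.card_filter, Nat.cast_sum, Finset.mul_sum]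
        apply Finset.sum_congr rfl
        intro i _
        rcases hval i with h | h | h <;> rw [h] <;> simp
      omega
    have hex : ∃ i j : Fin 24, i ≠ j ∧
        Finset.univ.filter (fun i => m i ≠ 0) = {i, j} := Finset.card_eq_two.mp hcard
    obtain ⟨i, j, hij, hS⟩ := hex
    rw [Finset.mem_image]
    refine ⟨((i, j), (decide (m i = 4), decide (m j = 4))), Finset.mem_univ _, ?_⟩
    have hk : ∀ k, m k ≠ 0 ↔ k = i ∨ k = j := by
      intro k
      have h1 : k ∈ Finset.univ.filter (fun i => m i ≠ 0) ↔ k ∈ ({i, j} : Finset (Fin 24)) := by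
        rw [hS]
      simpa using h1
    funext k
    unfold gA
    simp only [Pi.add_apply, Pi.single_apply]
    by_cases hki : k = i
    · have hkj : k ≠ j := fun h => hij (hki.symm.trans h)
      have h0 : m i ≠ 0 := (hk i).mpr (Or.inl rfl)
      rw [if_pos hki, if_neg hkj, hki]
      rcases hval i with h | h | h
      · exact absurd h h0
      · simp [h]
      · simp [h]
    · by_cases hkj : k = j
      · have h0 : m j ≠ 0 := (hk j).mpr (Or.inr rfl)
        rw [if_neg hki, if_pos hkj, hkj]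
        rcases hval j with h | h | h
        · exact absurd h h0
        · simp [h]
        · simp [h]
      · have h0 : m k = 0 := by
          by_contra h
          exact ((hk k).mp h).elim hki hkj
        rw [if_neg hki, if_neg hkj, h0]
        norm_num
  calc X.card ≤ (Finset.univ.image gA).card := Finset.card_le_card hsub
    _ ≤ (Finset.univ : Finset ((Fin 24 × Fin 24) × (Bool × Bool))).card := Finset.card_image_le
    _ = 2304 := by simp

variable {M : AddSubgroup (Fin 24 → ℤ)}

theorem shape_B (h : Hyp M) {m : Fin 24 → ℤ} (hm : m ∈ M) (h32 : ∑ i, m i ^ 2 = 32)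
    (hev : ∀ i, m i % 2 = 0) (hn4 : ∃ i, m i % 4 ≠ 0) :
    (∀ i, m i = 0 ∨ m i = 2 ∨ m i = -2) ∧
      (Finset.univ.filter (fun i => m i ≠ 0)) ∈ oct (code M) := by
  classical
  have hz : (2 : ℤ) • (fun i => m i / 2) = m := by
    funext i
    simp only [Pi.smul_apply, smul_eq_mul]
    have := hev i
    omega
  have hw : (fun i => (((m i / 2 : ℤ)) : ZMod 2)) ∈ code M :=
    ⟨fun i => m i / 2, by rw [hz]; exact hm, fun i => rfl⟩
  have hwi : ∀ i, (((m i / 2 : ℤ)) : ZMod 2) ≠ 0 ↔ m i % 4 = 2 := by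
    intro i
    rw [Ne, cast_eq_zero_iff]
    have := hev i
    omega
  have hne : (fun i => (((m i / 2 : ℤ)) : ZMod 2)) ≠ 0 := by
    obtain ⟨i, hi⟩ := hn4
    intro h0
    have h1 := congrFun h0 i
    simp only [Pi.zero_apply] at h1
    have h2 := hwi i
    have := hev i
    rw [h1] at h2
    simp at h2
    omega
  have h8 := (weight h hw).2 hne
  have hnorm : hammingNorm (fun i => (((m i / 2 : ℤ)) : ZMod 2))
      = (Finset.univ.filter (fun i => m i % 4 = 2)).card := by
    unfold hammingNorm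
    congr 1
    apply Finset.filter_congr
    intro i _
    exact hwi i
  rw [hnorm] at h8
  have hnn : ∀ i, 0 ≤ m i ^ 2 - (if m i % 4 = 2 then 4 else 0) := by
    intro i
    by_cases hi : m i % 4 = 2
    · rw [if_pos hi]
      have h1 : m i ≤ -2 ∨ 2 ≤ m i := by omega
      rcases h1 with h1 | h1 <;> nlinarith
    · rw [if_neg hi]
      have := sq_nonneg (m i)
      linarith
  have hsum : ∑ i, (m i ^ 2 - (if m i % 4 = 2 then 4 else 0))
      = 32 - 4 * ((Finset.univ.filter (fun i => m i % 4 = 2)).card : ℤ) := by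
    rw [Finset.sum_sub_distrib, h32, Finset.card_filter, Nat.cast_sum, Finset.mul_sum]
    congr 1
    apply Finset.sum_congr rfl
    intro i _
    split_ifs <;> simp
  have hsum0 : ∑ i, (m i ^ 2 - (if m i % 4 = 2 then 4 else 0)) = 0 := by
    apply le_antisymm
    · rw [hsum]; omega
    · exact Finset.sum_nonneg (fun i _ => hnn i)
  have hall := (Finset.sum_eq_zero_iff_of_nonneg (fun i _ => hnn i)).mp hsum0
  have hcard8 : (Finset.univ.filter (fun i => m i % 4 = 2)).card = 8 := by
    rw [hsum0] at hsum; omega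
  have hval : ∀ i, m i = 0 ∨ m i = 2 ∨ m i = -2 := by
    intro i
    have h1 := hall i (Finset.mem_univ i)
    by_cases hi : m i % 4 = 2
    · rw [if_pos hi] at h1
      have h2 : (m i - 2) * (m i + 2) = 0 := by nlinarith
      rcases mul_eq_zero.mp h2 with h3 | h3
      · right; left; linarith
      · right; right; linarith
    · rw [if_neg hi] at h1
      left
      have h2 : m i ^ 2 = 0 := by linarith
      exact pow_eq_zero_iff (by norm_num) |>.mp h2
  refine ⟨hval, ?_⟩
  have hS : Finset.univ.filter (fun i => m i ≠ 0) = Finset.univ.filter (fun i => m i % 4 = 2) := by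
    apply Finset.filter_congr
    intro i _
    rcases hval i with h1 | h1 | h1 <;> rw [h1] <;> simp
  rw [hS, mem_oct]
  refine ⟨?_, hcard8⟩
  have hchi : chi (Finset.univ.filter (fun i => m i % 4 = 2))
      = (fun i => (((m i / 2 : ℤ)) : ZMod 2)) := by
    funext i
    unfold chi
    simp only [Finset.mem_filter, Finset.mem_univ, true_and]
    rcases hval i with h1 | h1 | h1 <;> rw [h1] <;> simp <;> decide
  rw [hchi]
  exact hw

theorem fibre_B (h : Hyp M) (S : Finset (Fin 24)) (hS : S.card = 8) (Y : Finset (Fin 24 → ℤ))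
    (hY : ∀ m ∈ Y, m ∈ M ∧ (∀ i, m i = 0 ∨ m i = 2 ∨ m i = -2) ∧
      Finset.univ.filter (fun i => m i ≠ 0) = S) : Y.card ≤ 128 := by
  classical
  obtain ⟨s0, hs0⟩ : S.Nonempty := Finset.card_pos.mp (by omega)
  have hsupp : ∀ m ∈ Y, ∀ i, m i ≠ 0 ↔ i ∈ S := by
    intro m hm i
    rw [← (hY m hm).2.2]
    simp
  have hle : Y.card ≤ ((S.erase s0).powerset).card := by
    apply Finset.card_le_card_of_injOn
      (fun m : Fin 24 → ℤ => (Finset.univ.filter (fun i => m i < 0)).erase s0)
    · intro m hm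
      rw [Finset.mem_coe, Finset.mem_powerset]
      intro i hi
      rw [Finset.mem_erase] at hi ⊢
      refine ⟨hi.1, ?_⟩
      rw [← hsupp m hm i]
      have := hi.2
      simp only [Finset.mem_filter, Finset.mem_univ, true_and] at this
      omega
    · intro m hm m' hm' heq
      have heq' : (Finset.univ.filter (fun i => m i < 0)).erase s0
          = (Finset.univ.filter (fun i => m' i < 0)).erase s0 := heq
      have hoff : ∀ i, i ≠ s0 → m i = m' i := by
        intro i hi
        have h1 : i ∈ (Finset.univ.filter (fun i => m i < 0)).erase s0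
            ↔ i ∈ (Finset.univ.filter (fun i => m' i < 0)).erase s0 := by rw [heq']
        simp only [Finset.mem_erase, Finset.mem_filter, Finset.mem_univ, true_and, ne_eq, hi,
          not_false_eq_true] at h1
        have h2 : m i ≠ 0 ↔ m' i ≠ 0 := by rw [hsupp m hm i, hsupp m' hm' i]
        rcases (hY m hm).2.1 i with a | a | a <;> rcases (hY m' hm').2.1 i with b | b | b <;>
          rw [a, b] at h1 h2 ⊢ <;> simp at h1 h2 ⊢
      by_contra hne
      have hs : m s0 ≠ m' s0 := by
        intro hs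
        apply hne
        funext i
        by_cases hi : i = s0
        · rw [hi, hs]
        · exact hoff i hi
      have hm0 : m s0 ≠ 0 := (hsupp m hm s0).mpr hs0
      have hm0' : m' s0 ≠ 0 := (hsupp m' hm' s0).mpr hs0
      have hcase : (m s0 = 2 ∧ m' s0 = -2) ∨ (m s0 = -2 ∧ m' s0 = 2) := by
        rcases (hY m hm).2.1 s0 with a | a | a <;> rcases (hY m' hm').2.1 s0 with b | b | b <;>
          omega
      rcases hcase with ⟨a, b⟩ | ⟨a, b⟩
      · have h4 : (Pi.single s0 (4 : ℤ) : Fin 24 → ℤ) = m - m' := by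
          funext i
          rw [Pi.sub_apply, Pi.single_apply]
          by_cases hi : i = s0
          · rw [if_pos hi, hi, a, b]; norm_num
          · rw [if_neg hi, hoff i hi]; ring
        exact single4_notMem h s0 (by rw [h4]; exact M.sub_mem (hY m hm).1 (hY m' hm').1)
      · have h4 : (Pi.single s0 (4 : ℤ) : Fin 24 → ℤ) = m' - m := by
          funext i
          rw [Pi.sub_apply, Pi.single_apply]
          by_cases hi : i = s0
          · rw [if_pos hi, hi, a, b]; norm_num
          · rw [if_neg hi, hoff i hi]; ring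
        exact single4_notMem h s0 (by rw [h4]; exact M.sub_mem (hY m' hm').1 (hY m hm).1)
  rw [Finset.card_powerset, Finset.card_erase_of_mem hs0, hS] at hle
  exact hle

theorem card_B (h : Hyp M) (X : Finset (Fin 24 → ℤ))
    (hX : ∀ m ∈ X, m ∈ M ∧ ∑ i, m i ^ 2 = 32 ∧ (∀ i, m i % 2 = 0) ∧ ∃ i, m i % 4 ≠ 0) :
    X.card ≤ 97152 := by
  classical
  have hmin : ∀ w ∈ code M, w ≠ 0 → 8 ≤ hammingNorm w := fun w hw => (weight h hw).2
  have hshape : ∀ m ∈ X, (∀ i, m i = 0 ∨ m i = 2 ∨ m i = -2) ∧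
      (Finset.univ.filter (fun i => m i ≠ 0)) ∈ oct (code M) := by
    intro m hm
    obtain ⟨h1, h2, h3, h4⟩ := hX m hm
    exact shape_B h h1 h2 h3 h4
  have hO := octads_le (code M) hmin
    (X.image (fun m : Fin 24 → ℤ => Finset.univ.filter (fun i => m i ≠ 0))) (by
      intro b hb
      obtain ⟨m, hm, rfl⟩ := Finset.mem_image.mp hb
      exact (hshape m hm).2)
  rw [Finset.card_eq_sum_card_image
    (fun m : Fin 24 → ℤ => Finset.univ.filter (fun i => m i ≠ 0)) X]
  calc ∑ b ∈ X.image (fun m : Fin 24 → ℤ => Finset.univ.filter (fun i => m i ≠ 0)),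
        (X.filter (fun m => Finset.univ.filter (fun i => m i ≠ 0) = b)).card
      ≤ ∑ _b ∈ X.image (fun m : Fin 24 → ℤ => Finset.univ.filter (fun i => m i ≠ 0)), 128 := by
        apply Finset.sum_le_sum
        intro b hb
        obtain ⟨m0, hm0, hb0⟩ := Finset.mem_image.mp hb
        have hb8 : b.card = 8 := by
          rw [← hb0]
          exact (mem_oct.mp (hshape m0 hm0).2).2
        apply fibre_B h b hb8
        intro m hm
        rw [Finset.mem_filter] at hm
        exact ⟨(hX m hm.1).1, (hshape m hm.1).1, hm.2⟩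
    _ = 128 * (X.image (fun m : Fin 24 → ℤ => Finset.univ.filter (fun i => m i ≠ 0))).card := by
        rw [Finset.sum_const, smul_eq_mul, mul_comm]
    _ ≤ 128 * 759 := Nat.mul_le_mul_left _ hO
    _ = 97152 := by norm_num

theorem shape_C {m : Fin 24 → ℤ} (h32 : ∑ i, m i ^ 2 = 32) (hodd : ∀ i, m i % 2 = 1) :
    (Finset.univ.filter (fun i => m i ^ 2 ≠ 1)).card = 1 ∧
      ∀ i, (m i ^ 2 ≠ 1 → m i = 3 ∨ m i = -3) ∧ (m i ^ 2 = 1 → m i = 1 ∨ m i = -1) := by
  classical
  have hnn : ∀ i, 0 ≤ m i ^ 2 - 1 := by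
    intro i
    have := hodd i
    have h1 : m i ≤ -1 ∨ 1 ≤ m i := by omega
    rcases h1 with h1 | h1 <;> nlinarith
  have hsum : ∑ i, (m i ^ 2 - 1) = 8 := by
    rw [Finset.sum_sub_distrib, h32, Finset.sum_const, Finset.card_univ, Fintype.card_fin]
    norm_num
  have hle : ∀ i, m i ^ 2 - 1 ≤ 8 := by
    intro i
    rw [← hsum]
    exact Finset.single_le_sum (fun k _ => hnn k) (Finset.mem_univ i)
  have hval : ∀ i, m i = 1 ∨ m i = -1 ∨ m i = 3 ∨ m i = -3 := by
    intro i
    have h1 := hle i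
    have := hodd i
    have h2 : -3 ≤ m i ∧ m i ≤ 3 := by constructor <;> nlinarith
    omega
  have hshape : ∀ i, (m i ^ 2 ≠ 1 → m i = 3 ∨ m i = -3) ∧ (m i ^ 2 = 1 → m i = 1 ∨ m i = -1) := by
    intro i
    rcases hval i with h1 | h1 | h1 | h1 <;> rw [h1] <;> simp
  refine ⟨?_, hshape⟩
  have h2 : ∑ i, (m i ^ 2 - 1)
      = 8 * ((Finset.univ.filter (fun i => m i ^ 2 ≠ 1)).card : ℤ) := by
    rw [Finset.card_filter, Nat.cast_sum, Finset.mul_sum]
    apply Finset.sum_congr rfl
    intro i _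
    rcases hval i with h1 | h1 | h1 | h1 <;> rw [h1] <;> simp
  rw [hsum] at h2
  omega

theorem card_code [DecidablePred fun w : Fin 24 → ZMod 2 => w ∈ code M] :
    (Finset.univ.filter (fun w : Fin 24 → ZMod 2 => w ∈ code M)).card
      = 2 ^ Module.finrank (ZMod 2) (code M) := by
  rw [← Fintype.card_subtype]
  have h1 := Module.card_eq_pow_finrank (K := ZMod 2) (V := code M)
  rw [ZMod.card] at h1
  rw [← h1]

theorem card_C (h : Hyp M) (m0 : Fin 24 → ℤ) (hm0 : m0 ∈ M) (hodd0 : ∀ i, m0 i % 2 = 1)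
    (X : Finset (Fin 24 → ℤ))
    (hX : ∀ m ∈ X, m ∈ M ∧ ∑ i, m i ^ 2 = 32 ∧ ∀ i, m i % 2 = 1) :
    X.card ≤ 24 * 2 ^ Module.finrank (ZMod 2) (code M) := by
  classical
  have hle : X.card ≤ (((Finset.univ : Finset (Fin 24)).powersetCard 1) ×ˢ
      (Finset.univ.filter (fun w : Fin 24 → ZMod 2 => w ∈ code M))).card := by
    apply Finset.card_le_card_of_injOn (fun m : Fin 24 → ℤ =>
      (Finset.univ.filter (fun i => m i ^ 2 ≠ 1), fun i => ((((m i - m0 i) / 2 : ℤ)) : ZMod 2)))
    · intro m hm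
      obtain ⟨h1, h2, h3⟩ := hX m hm
      rw [Finset.mem_coe, Finset.mem_product, Finset.mem_powersetCard, Finset.mem_filter]
      refine ⟨⟨Finset.subset_univ _, (shape_C h2 h3).1⟩, Finset.mem_univ _, ?_⟩
      refine ⟨fun i => (m i - m0 i) / 2, ?_, fun i => rfl⟩
      have h4 : (2 : ℤ) • (fun i => (m i - m0 i) / 2) = m - m0 := by
        funext i
        simp only [Pi.smul_apply, smul_eq_mul, Pi.sub_apply]
        have := h3 i
        have := hodd0 i
        omega
      rw [h4]
      exact M.sub_mem h1 hm0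
    · intro m hm m' hm' heq
      obtain ⟨h1, h2, h3⟩ := hX m hm
      obtain ⟨h1', h2', h3'⟩ := hX m' hm'
      simp only [Prod.mk.injEq] at heq
      obtain ⟨hJ, hω⟩ := heq
      funext i
      have hi : ((((m i - m0 i) / 2 : ℤ)) : ZMod 2) = ((((m' i - m0 i) / 2 : ℤ)) : ZMod 2) :=
        congrFun hω i
      rw [cast_eq_cast_iff] at hi
      have hJi : m i ^ 2 ≠ 1 ↔ m' i ^ 2 ≠ 1 := by
        have h5 : i ∈ Finset.univ.filter (fun i => m i ^ 2 ≠ 1)
            ↔ i ∈ Finset.univ.filter (fun i => m' i ^ 2 ≠ 1) := by rw [hJ]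
        simpa using h5
      have s1 := (shape_C h2 h3).2 i
      have s2 := (shape_C h2' h3').2 i
      have o1 := h3 i
      have o2 := h3' i
      have o3 := hodd0 i
      by_cases hc : m i ^ 2 = 1
      · have hc' : m' i ^ 2 = 1 := by
          by_contra hh
          exact (hJi.mpr hh) hc
        rcases s1.2 hc with a | a <;> rcases s2.2 hc' with b | b <;> rw [a, b] at hi ⊢ <;> omega
      · have hc' : m' i ^ 2 ≠ 1 := hJi.mp hc
        rcases s1.1 hc with a | a <;> rcases s2.1 hc' with b | b <;> rw [a, b] at hi ⊢ <;> omega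
  rw [Finset.card_product, Finset.card_powersetCard, Finset.card_univ, Fintype.card_fin,
    card_code] at hle
  simpa using hle

/-- The code has dimension 12, and the lattice contains a vector with odd coordinates. -/
theorem finrank_eq (h : Hyp M)
    (hcount : {m : Fin 24 → ℤ | m ∈ M ∧ ∑ i, m i ^ 2 = 32}.ncard = 196560) :
    Module.finrank (ZMod 2) (code M) = 12 ∧ ∃ m0 ∈ M, ∀ i, m0 i % 2 = 1 := by
  classical
  have hfin : {m : Fin 24 → ℤ | m ∈ M ∧ ∑ i, m i ^ 2 = 32}.Finite :=
    Set.finite_of_ncard_ne_zero (by rw [hcount]; norm_num)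
  have hc : hfin.toFinset.card = 196560 := by rw [← Set.ncard_eq_toFinset_card _ hfin, hcount]
  have hmem : ∀ m, m ∈ hfin.toFinset ↔ m ∈ M ∧ ∑ i, m i ^ 2 = 32 := fun m => by
    rw [Set.Finite.mem_toFinset]; rfl
  have hpar : ∀ m ∈ M, (∀ i, m i % 2 = 0) ∨ (∀ i, m i % 2 = 1) := by
    intro m hm
    rcases Int.emod_two_eq_zero_or_one (m 0) with h0 | h0
    · left; intro i; have := h.par m hm i 0; omega
    · right; intro i; have := h.par m hm i 0; omega
  have hcov : hfin.toFinset ⊆ (hfin.toFinset.filter (fun m => ∀ i, (4 : ℤ) ∣ m i) ∪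
      hfin.toFinset.filter (fun m => (∀ i, m i % 2 = 0) ∧ ∃ i, m i % 4 ≠ 0)) ∪
      hfin.toFinset.filter (fun m => ∀ i, m i % 2 = 1) := by
    intro m hm
    rw [Finset.mem_union, Finset.mem_union, Finset.mem_filter, Finset.mem_filter,
      Finset.mem_filter]
    rcases hpar m ((hmem m).mp hm).1 with hev | hodd
    · left
      by_cases h4 : ∀ i, (4 : ℤ) ∣ m i
      · left; exact ⟨hm, h4⟩
      · right
        refine ⟨hm, hev, ?_⟩
        by_contra hno
        apply h4
        intro i
        have : m i % 4 = 0 := by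
          by_contra hi
          exact hno ⟨i, hi⟩
        exact Int.dvd_of_emod_eq_zero this
    · right; exact ⟨hm, hodd⟩
  have hA := card_A (hfin.toFinset.filter (fun m => ∀ i, (4 : ℤ) ∣ m i)) (by
    intro m hm
    rw [Finset.mem_filter] at hm
    exact ⟨((hmem m).mp hm.1).2, hm.2⟩)
  have hB := card_B h (hfin.toFinset.filter (fun m => (∀ i, m i % 2 = 0) ∧ ∃ i, m i % 4 ≠ 0)) (by
    intro m hm
    rw [Finset.mem_filter] at hm
    exact ⟨((hmem m).mp hm.1).1, ((hmem m).mp hm.1).2, hm.2.1, hm.2.2⟩)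
  have hle := Finset.card_le_card hcov
  have hu1 := Finset.card_union_le (hfin.toFinset.filter (fun m => ∀ i, (4 : ℤ) ∣ m i) ∪
      hfin.toFinset.filter (fun m => (∀ i, m i % 2 = 0) ∧ ∃ i, m i % 4 ≠ 0))
      (hfin.toFinset.filter (fun m => ∀ i, m i % 2 = 1))
  have hu2 := Finset.card_union_le (hfin.toFinset.filter (fun m => ∀ i, (4 : ℤ) ∣ m i))
      (hfin.toFinset.filter (fun m => (∀ i, m i % 2 = 0) ∧ ∃ i, m i % 4 ≠ 0))
  have hCpos : 0 < (hfin.toFinset.filter (fun m => ∀ i, m i % 2 = 1)).card := by omega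
  obtain ⟨m0, hm0⟩ := Finset.card_pos.mp hCpos
  rw [Finset.mem_filter] at hm0
  have hm0M := ((hmem m0).mp hm0.1).1
  have hC := card_C h m0 hm0M hm0.2 (hfin.toFinset.filter (fun m => ∀ i, m i % 2 = 1)) (by
    intro m hm
    rw [Finset.mem_filter] at hm
    exact ⟨((hmem m).mp hm.1).1, ((hmem m).mp hm.1).2, hm.2⟩)
  have hk := finrank_le h
  refine ⟨?_, m0, hm0M, hm0.2⟩
  by_contra hne
  have h11 : Module.finrank (ZMod 2) (code M) ≤ 11 := by omega
  have hpow : 2 ^ Module.finrank (ZMod 2) (code M) ≤ 2 ^ 11 :=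
    Nat.pow_le_pow_right (by norm_num) h11
  omega

end Cfsg.Agent.Lib.Helper92.LeechChar3
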