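import Mathlib
import Cfsg.Agent.Lib.Helper92.M11Stmt
import Cfsg.Agent.Lib.Helper92.M11Base
import Cfsg.Agent.Lib.Helper69.InvDet

/-!
# Simple groups of order 7920: the centralizer of an involution has order 48
(assembly of the pieces)
-/

set_option autoImplicit false
set_option linter.style.haveILetI false
set_option maxHeartbeats 1000000

namespace Cfsg.Agent.Lib.Helper92.M11Asm5

open Cfsg Cfsg.Agent.Lib.Helper17.ExcMain Cfsg.Agent.Lib.Helper17.ExcCor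
open Cfsg.Agent.Lib.Helper92.M11Stmt Cfsg.Agent.Lib.Helper92.M11Base
open scoped ComplexConjugate

universe u

/-- The arithmetic behind the exclusion of a centralizer of order 144. -/
theorem perm_kill (s tt pb pd pe pf : ℕ)
    (h1 : 54 = 10 * s + 11 * pb + 16 * tt + 44 * pd + 45 * pe + 55 * pf)
    (h2 : 5 * pb + 4 * pd + 3 * pe ≤ 1 + 2 * s + 7 * pf) : False := by
  have hpf : pf = 0 := by omega
  subst hpf
  have hpe : pe ≤ 1 := by omega
  have hpd : pd ≤ 1 := by omega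
  have hpb : pb ≤ 4 := by omega
  have htt : tt ≤ 3 := by omega
  interval_cases pe <;> interval_cases pd <;> interval_cases pb <;> interval_cases tt <;> omega

theorem s0435_of (hEx : ExistsChars.{u}) (h11 : Rel11.{u}) (h5 : Rel5.{u})
    (hFS : InvCentLB.{u}) (hDiv : CentDvd.{u}) (hM6 : Mult6.{u}) (hIA : InvArith)
    (hPerm : PermDecomp.{u})
    {G : Type u} [Group G] [Finite G] [IsSimpleGroup G] (hG : Nat.card G = 7920) (x : G)
    (hx : orderOf x = 2) : Nat.card (Subgroup.centralizer ({x} : Set G)) = 48 := by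
  classical
  obtain ⟨D⟩ := hEx G hG
  have hGc : ¬ IsMulCommutative G :=
    Cfsg.Agent.Lib.Helper17.Sylow.not_comm_of_not_prime (by rw [hG]; norm_num)
  have hperf := Cfsg.Agent.Lib.Helper17.ExcSimple.commutator_eq_top hGc
  have hx2 : x * x = 1 := by rw [← pow_two, ← hx]; exact pow_orderOf_eq_one x
  have hx1 : x ≠ 1 := by
    rintro rfl
    rw [orderOf_one] at hx
    omega
  -- the values at `x` are integers congruent to the degree modulo 4
  have hint : ∀ ψ : IrrCharacter G, ∃ m : ℤ,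
      (ψ : G → ℂ) x = (((charDegree (ψ : G → ℂ) : ℤ) - 4 * m : ℤ) : ℂ) := by
    intro ψ
    obtain ⟨m, hm⟩ := Cfsg.Agent.Lib.Helper69.InvDet.char_invol hperf
      (Cfsg.Agent.Lib.CT.Wedderburn.isCharacter_of_irr ψ.2) x hx2
    refine ⟨m, ?_⟩
    rw [hm, deg_eq]
    push_cast
    ring
  obtain ⟨m0, hm0⟩ := hint (D.a 0)
  obtain ⟨m1, hm1⟩ := hint (D.a 1)
  obtain ⟨m2, hm2⟩ := hint (D.a 2)
  obtain ⟨mb, hmb⟩ := hint D.b
  rw [D.ha] at hm0 hm1 hm2
  rw [D.hb] at hmb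
  obtain ⟨α0, hα0⟩ : ∃ α0 : ℤ, α0 = 10 - 4 * m0 := ⟨_, rfl⟩
  obtain ⟨α1, hα1⟩ : ∃ α1 : ℤ, α1 = 10 - 4 * m1 := ⟨_, rfl⟩
  obtain ⟨α2, hα2⟩ : ∃ α2 : ℤ, α2 = 10 - 4 * m2 := ⟨_, rfl⟩
  obtain ⟨β, hβ⟩ : ∃ β : ℤ, β = 11 - 4 * mb := ⟨_, rfl⟩
  have ha0 : (D.a 0 : G → ℂ) x = (α0 : ℂ) := by rw [hm0, hα0]; norm_num
  have ha1 : (D.a 1 : G → ℂ) x = (α1 : ℂ) := by rw [hm1, hα1]; norm_num
  have ha2 : (D.a 2 : G → ℂ) x = (α2 : ℂ) := by rw [hm2, hα2]; norm_num
  have hb : (D.b : G → ℂ) x = (β : ℂ) := by rw [hmb, hβ]; norm_num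
  have hth0 := th_vanish hG D 0 x (by rw [hx])
  have hth1 := th_vanish hG D 1 x (by rw [hx])
  have hr5 := h5 G hG D x (by rw [hx]; norm_num)
  obtain ⟨-, hr11⟩ := h11 G hG D x (by rw [hx]; norm_num)
  have ho2 := orth_one D x hx1
  have ho1 := orth_self D x
  have hd : (D.d : G → ℂ) x = ((1 + β : ℤ) : ℂ) := by
    rw [← hr5, hth0, hth1, hb]
    push_cast
    ring
  have he : (D.e : G → ℂ) x = ((α0 + α1 + α2 - 1 : ℤ) : ℂ) := by
    rw [ha0, ha1, ha2, hth0] at hr11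
    push_cast
    linear_combination hr11
  have hf : (D.f : G → ℂ) x = ((-(α0 + α1 + α2) - β : ℤ) : ℂ) := by
    rw [ha0, ha1, ha2, hb, hth0, hth1, hd, he] at ho2
    push_cast at ho2 ⊢
    linear_combination (1 / 55 : ℂ) * ho2
  obtain ⟨N, hN⟩ : ∃ N : ℕ, N = Nat.card (Subgroup.centralizer ({x} : Set G)) := ⟨_, rfl⟩
  have hNeq : (N : ℤ) = 1 + α0 ^ 2 + α1 ^ 2 + α2 ^ 2 + β ^ 2 + (1 + β) ^ 2
      + (α0 + α1 + α2 - 1) ^ 2 + (α0 + α1 + α2 + β) ^ 2 := by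
    rw [← hN, ha0, ha1, ha2, hb, hth0, hth1, hd, he, hf] at ho1
    simp only [Complex.normSq_intCast, map_zero] at ho1
    have h2 : ((N : ℤ) : ℝ) = ((1 + α0 ^ 2 + α1 ^ 2 + α2 ^ 2 + β ^ 2 + (1 + β) ^ 2
      + (α0 + α1 + α2 - 1) ^ 2 + (α0 + α1 + α2 + β) ^ 2 : ℤ) : ℝ) := by
      push_cast
      push_cast at ho1
      linear_combination ho1
    exact_mod_cast h2
  have hdiv : N ∣ 144 := by
    rw [hN]
    exact hDiv G hG x hx1 (by rw [hx]; norm_num) (by rw [hx]; norm_num)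
  have hlb : 37 ≤ N := by
    rw [hN]
    exact hFS G hG x hx
  have h3 : 3 ∣ N → (3 : ℤ) ∣ α0 + α1 + α2 - 1 := by
    intro h3N
    haveI : Fact (Nat.Prime 3) := ⟨Nat.prime_three⟩
    obtain ⟨y, hy⟩ := exists_prime_orderOf_dvd_card' 3
      (G := Subgroup.centralizer ({x} : Set G)) (by rw [← hN]; exact h3N)
    have hyG : orderOf (y : G) = 3 := by rw [Subgroup.orderOf_coe]; exact hy
    have hcomm : Commute x (y : G) :=
      (Subgroup.mem_centralizer_iff.mp y.2 x (Set.mem_singleton x))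
    obtain ⟨n, hn⟩ := hM6 G (D.e : G → ℂ)
      (Cfsg.Agent.Lib.CT.Wedderburn.isCharacter_of_irr D.e.2) x y hx hyG hcomm
      (fun z hz => e_vanish hG D z hz)
    rw [deg_eq, D.he, he] at hn
    have h4 : (45 : ℤ) + (α0 + α1 + α2 - 1) = 6 * n := by exact_mod_cast hn
    exact ⟨2 * n - 15, by linarith⟩
  rcases hIA α0 α1 α2 β N ⟨m0, hα0⟩ ⟨m1, hα1⟩ ⟨m2, hα2⟩ ⟨mb, hβ⟩ hNeq hdiv hlb h3 with
    h48 | ⟨h144, hb5, hpat⟩
  · rw [← hN]
    exact h48
  · exfalso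
    obtain ⟨p0, p1, p2, pb, pt0, pt1, pd, pe, pf, k, hidx, hk⟩ :=
      hPerm G hG D (Subgroup.centralizer ({x} : Set G)) x
    have hindex : (Subgroup.centralizer ({x} : Set G)).index = 55 := by
      have := Subgroup.card_mul_index (Subgroup.centralizer ({x} : Set G))
      rw [← hN, h144, hG] at this
      omega
    rw [hindex] at hidx
    rw [ha0, ha1, ha2, hb, hth0, hth1, hd, he, hf] at hk
    have hidx' : (55 : ℤ) = 1 + 10 * ((p0 : ℤ) + p1 + p2) + 11 * pb + 16 * ((pt0 : ℤ) + pt1)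
        + 44 * pd + 45 * pe + 55 * pf := by exact_mod_cast hidx
    have hk' : (k : ℤ) = 1 + p0 * α0 + p1 * α1 + p2 * α2 + pb * β + pd * (1 + β)
        + pe * (α0 + α1 + α2 - 1) + pf * (-(α0 + α1 + α2) - β) := by
      have h2 : ((k : ℤ) : ℂ) = ((1 + p0 * α0 + p1 * α1 + p2 * α2 + pb * β + pd * (1 + β)
        + pe * (α0 + α1 + α2 - 1) + pf * (-(α0 + α1 + α2) - β) : ℤ) : ℂ) := by
        push_cast
        push_cast at hk
        linear_combination hk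
      exact_mod_cast h2
    have hfin : 5 * pb + 4 * pd + 3 * pe ≤ 1 + 2 * (p0 + p1 + p2) + 7 * pf := by
      rcases hpat with ⟨r0, r1, r2⟩ | ⟨r0, r1, r2⟩ | ⟨r0, r1, r2⟩
      · rw [r0, r1, r2, hb5] at hk'
        omega
      · rw [r0, r1, r2, hb5] at hk'
        omega
      · rw [r0, r1, r2, hb5] at hk'
        omega
    exact perm_kill (p0 + p1 + p2) (pt0 + pt1) pb pd pe pf (by omega) hfin

end Cfsg.Agent.Lib.Helper92.M11Asm5
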