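import Mathlib
import Cfsg.Agent.Lib.Helper3.M24BlkStmt
import Cfsg.Agent.Lib.Helper7.M22Class
import Cfsg.Agent.Lib.Helper7.M24Main

/-!
# S5006 piece O21 (helper92): every element of order 21 of `M24` is conjugate to a power of `r21`
-/

set_option autoImplicit false
set_option linter.style.haveILetI false

namespace Cfsg.Agent.Lib.Helper92.M24O21

open Cfsg Cfsg.Agent.Lib.Helper7.GolayBase Cfsg.Agent.Lib.Helper7.GolayPerm
  Cfsg.Agent.Lib.Helper3.M24Blk Cfsg.Agent.Lib.Helper3.M24BlkStmt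

/-- A permutation `w` with `w ^ 3 = 1` preserving a set of three points agrees on it with a
power of a 3-cycle `r` of these points. -/
theorem three {α : Type*} (w r : Equiv.Perm α) (p0 p1 p2 : α) (h01 : p0 ≠ p1) (h12 : p1 ≠ p2)
    (h02 : p0 ≠ p2) (hr0 : r p0 = p1) (hr1 : r p1 = p2) (hr2 : r p2 = p0)
    (hwF : ∀ x, (x = p0 ∨ x = p1 ∨ x = p2) → (w x = p0 ∨ w x = p1 ∨ w x = p2))
    (hw3 : w ^ 3 = 1) :
    ∃ e : ℕ, w p0 = (r ^ e) p0 ∧ w p1 = (r ^ e) p1 ∧ w p2 = (r ^ e) p2 := by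
  have hw3' : ∀ x, w (w (w x)) = x := by
    intro x
    have h := congrArg (fun f : Equiv.Perm α => f x) hw3
    simpa [pow_succ, Equiv.Perm.mul_apply] using h
  have hinj := w.injective
  rcases hwF p0 (Or.inl rfl) with h0 | h0 | h0
  · rcases hwF p1 (Or.inr (Or.inl rfl)) with h1 | h1 | h1
    · exact absurd (hinj (h1.trans h0.symm)) (Ne.symm h01)
    · rcases hwF p2 (Or.inr (Or.inr rfl)) with h2 | h2 | h2
      · exact absurd (hinj (h2.trans h0.symm)) (Ne.symm h02)
      · exact absurd (hinj (h2.trans h1.symm)) (Ne.symm h12)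
      · exact ⟨0, by simp [h0], by simp [h1], by simp [h2]⟩
    · rcases hwF p2 (Or.inr (Or.inr rfl)) with h2 | h2 | h2
      · exact absurd (hinj (h2.trans h0.symm)) (Ne.symm h02)
      · have h := hw3' p1
        rw [h1, h2, h1] at h
        exact absurd h (Ne.symm h12)
      · exact absurd (hinj (h2.trans h1.symm)) (Ne.symm h12)
  · rcases hwF p1 (Or.inr (Or.inl rfl)) with h1 | h1 | h1
    · have h := hw3' p0
      rw [h0, h1, h0] at h
      exact absurd h (Ne.symm h01)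
    · exact absurd (hinj (h1.trans h0.symm)) (Ne.symm h01)
    · rcases hwF p2 (Or.inr (Or.inr rfl)) with h2 | h2 | h2
      · exact ⟨1, by simp [h0, hr0], by simp [h1, hr1], by simp [h2, hr2]⟩
      · exact absurd (hinj (h2.trans h0.symm)) (Ne.symm h02)
      · exact absurd (hinj (h2.trans h1.symm)) (Ne.symm h12)
  · rcases hwF p2 (Or.inr (Or.inr rfl)) with h2 | h2 | h2
    · have h := hw3' p0
      rw [h0, h2, h0] at h
      exact absurd h (Ne.symm h02)
    · rcases hwF p1 (Or.inr (Or.inl rfl)) with h1 | h1 | h1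
      · exact ⟨2, by simp [pow_two, Equiv.Perm.mul_apply, h0, hr0, hr1],
          by simp [pow_two, Equiv.Perm.mul_apply, h1, hr1, hr2],
          by simp [pow_two, Equiv.Perm.mul_apply, h2, hr2, hr0]⟩
      · exact absurd (hinj (h1.trans h2.symm)) h12
      · exact absurd (hinj (h1.trans h0.symm)) (Ne.symm h01)
    · exact absurd (hinj (h2.trans h0.symm)) (Ne.symm h02)

theorem rep_r21 : Rep ((r21 : G24) : Equiv.Perm GolayPt) r21T := rep_mkG _ _ _ _

theorem rep_r7 : Rep ((r7 : G24) : Equiv.Perm GolayPt)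
    (Cfsg.Agent.Lib.Helper7.M22Fn.powT r21T 3) := by
  show Rep (((r21 ^ 3 : G24)) : Equiv.Perm GolayPt) _
  rw [Subgroup.coe_pow]
  exact Cfsg.Agent.Lib.Helper7.M22Fn.rep_powT rep_r21 3

theorem fix_r7 (x : GolayPt) :
    ((r7 : G24) : Equiv.Perm GolayPt) x = x ↔ (x = pt 9 ∨ x = pt 23 ∨ x = pt 18) := by
  have hdec : ∀ i, i < 24 → ((Cfsg.Agent.Lib.Helper7.M22Fn.powT r21T 3).getD i 0 = i ↔
      (i = 9 ∨ i = 23 ∨ i = 18)) := by decide
  have h1 := rep_r7.2 x
  have h2 := hdec (idx x) (idx_lt x)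
  constructor
  · intro hx
    rw [hx] at h1
    rcases h2.mp h1 with h | h | h
    · left; rw [← pt_idx x, h]
    · right; left; rw [← pt_idx x, h]
    · right; right; rw [← pt_idx x, h]
  · intro hx
    apply idx_injective
    rw [← h1]
    apply h2.mpr
    rcases hx with h | h | h
    · left; rw [h]; exact idx_pt (by norm_num)
    · right; left; rw [h]; exact idx_pt (by norm_num)
    · right; right; rw [h]; exact idx_pt (by norm_num)

theorem main : OrdStmt → K7Stmt → O21Stmt := by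
  intro hord hK7 g hg
  obtain ⟨-, -, h21, -⟩ := hord
  haveI : Finite G24 := Nat.finite_of_card_ne_zero (by
    rw [Cfsg.Agent.Lib.Helper7.M24Main.card_M24]; norm_num)
  haveI : Fact (Nat.Prime 7) := ⟨by norm_num⟩
  have hr21pow : r21 ^ 21 = 1 := by rw [← h21]; exact pow_orderOf_eq_one _
  have hr7 : orderOf r7 = 7 := by
    show orderOf (r21 ^ 3) = 7
    rw [orderOf_pow' _ (by norm_num), h21]; norm_num
  have hr7pow : r7 ^ 7 = 1 := by rw [← hr7]; exact pow_orderOf_eq_one _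
  have hg21 : g ^ 21 = 1 := by rw [← hg]; exact pow_orderOf_eq_one _
  have hg3 : orderOf (g ^ 3) = 7 := by rw [orderOf_pow' _ (by norm_num), hg]; norm_num
  have hfac : (Nat.card G24).factorization 7 = 1 := by
    rw [Cfsg.Agent.Lib.Helper7.M24Main.card_M24,
      show (244823040 : ℕ) = 7 ^ 1 * 34974720 by norm_num]
    exact Cfsg.Agent.Lib.Helper7.M22Class.fac_pow (by norm_num) (by norm_num) (by norm_num)
  obtain ⟨c, k, hk7, hk0, hck⟩ :=
    Cfsg.Agent.Lib.Helper7.M22Class.conj_into_zpowers hr7 hfac hg3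
  refine ⟨c, ?_⟩
  obtain ⟨g', hg'⟩ : ∃ g' : G24, g' = c * g * c⁻¹ := ⟨_, rfl⟩
  rw [← hg']
  have hg'3 : g' ^ 3 = r7 ^ k := by rw [hg', conj_pow]; exact hck.symm
  have hg'21 : g' ^ 21 = 1 := by rw [hg', conj_pow, hg21]; group
  -- `r7` is a power of `g' ^ 3`
  have hr7' : ∃ j : ℕ, r7 = (g' ^ 3) ^ j := by
    have key : ∀ j m : ℕ, k * j = 7 * m + 1 → r7 = (g' ^ 3) ^ j := by
      intro j m hjm
      rw [hg'3, ← pow_mul, hjm, pow_succ, pow_mul, hr7pow, one_pow, one_mul]
    interval_cases k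
    · exact ⟨1, key 1 0 (by norm_num)⟩
    · exact ⟨4, key 4 1 (by norm_num)⟩
    · exact ⟨5, key 5 2 (by norm_num)⟩
    · exact ⟨2, key 2 1 (by norm_num)⟩
    · exact ⟨3, key 3 2 (by norm_num)⟩
    · exact ⟨6, key 6 5 (by norm_num)⟩
  obtain ⟨j, hj⟩ := hr7'
  have hcomm : Commute g' r7 := by
    rw [hj]
    exact ((Commute.refl g').pow_right 3).pow_right j
  have hwcomm : Commute (g' ^ 7) r7 := hcomm.pow_left 7
  have hrcomm : Commute r21 r7 := (Commute.refl r21).pow_right 3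
  -- the action on the fixed points of `r7`
  have hmaps : ∀ (t : G24), Commute t r7 → ∀ x : GolayPt, (x = pt 9 ∨ x = pt 23 ∨ x = pt 18) →
      ((t : Equiv.Perm GolayPt) x = pt 9 ∨ (t : Equiv.Perm GolayPt) x = pt 23 ∨
        (t : Equiv.Perm GolayPt) x = pt 18) := by
    intro t ht x hx
    rw [← fix_r7]
    have h1 : ((r7 * t : G24) : Equiv.Perm GolayPt) x = ((t * r7 : G24) : Equiv.Perm GolayPt) x := by
      rw [ht.eq]
    rw [Subgroup.coe_mul, Subgroup.coe_mul, Equiv.Perm.mul_apply, Equiv.Perm.mul_apply,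
      (fix_r7 x).mpr hx] at h1
    exact h1
  have hw3 : ((g' ^ 7 : G24) : Equiv.Perm GolayPt) ^ 3 = 1 := by
    rw [← Subgroup.coe_pow, ← pow_mul, hg'21]; rfl
  have h01 : pt 9 ≠ pt 23 := by
    intro h
    have := congrArg idx h
    rw [idx_pt (by norm_num), idx_pt (by norm_num)] at this
    omega
  have h12 : pt 23 ≠ pt 18 := by
    intro h
    have := congrArg idx h
    rw [idx_pt (by norm_num), idx_pt (by norm_num)] at this
    omega
  have h02 : pt 9 ≠ pt 18 := by
    intro h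
    have := congrArg idx h
    rw [idx_pt (by norm_num), idx_pt (by norm_num)] at this
    omega
  obtain ⟨e, he0, he1, he2⟩ := three ((g' ^ 7 : G24) : Equiv.Perm GolayPt)
    ((r21 : G24) : Equiv.Perm GolayPt) (pt 9) (pt 23) (pt 18) h01 h12 h02
    (rep_r21.apply_eq (by norm_num) (by decide)) (rep_r21.apply_eq (by norm_num) (by decide))
    (rep_r21.apply_eq (by norm_num) (by decide)) (hmaps (g' ^ 7) hwcomm) hw3
  -- `t = (r21 ^ e)⁻¹ * g' ^ 7` fixes the three points and commutes with `r7`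
  have htcomm : Commute ((r21 ^ e)⁻¹ * g' ^ 7) r7 :=
    ((hrcomm.pow_left e).inv_left).mul_left hwcomm
  have htfix : ∀ p : GolayPt, ((r7 : G24) : Equiv.Perm GolayPt) p = p →
      (((r21 ^ e)⁻¹ * g' ^ 7 : G24) : Equiv.Perm GolayPt) p = p := by
    intro p hp
    rw [Subgroup.coe_mul, Subgroup.coe_inv, Subgroup.coe_pow, Equiv.Perm.mul_apply,
      Equiv.Perm.inv_eq_iff_eq]
    rcases (fix_r7 p).mp hp with h | h | h
    · rw [h]; exact he0
    · rw [h]; exact he1
    · rw [h]; exact he2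
  have htmem := hK7 _ htcomm htfix
  have hr7mem : r7 ∈ Subgroup.zpowers r21 := ⟨3, by norm_cast⟩
  have hle : Subgroup.zpowers r7 ≤ Subgroup.zpowers r21 := by
    rw [Subgroup.zpowers_le]; exact hr7mem
  have hwmem : g' ^ 7 ∈ Subgroup.zpowers r21 := by
    have h1 : g' ^ 7 = r21 ^ e * ((r21 ^ e)⁻¹ * g' ^ 7) := by group
    rw [h1]
    exact Subgroup.mul_mem _ (Subgroup.pow_mem _ (Subgroup.mem_zpowers r21) e) (hle htmem)
  have hg3mem : g' ^ 3 ∈ Subgroup.zpowers r21 := by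
    rw [hg'3]
    exact Subgroup.pow_mem _ hr7mem k
  have hgmem : g' ∈ Subgroup.zpowers r21 := by
    have h1 : g' = g' ^ 7 * ((g' ^ 3)⁻¹ * (g' ^ 3)⁻¹) := by group
    rw [h1]
    exact Subgroup.mul_mem _ hwmem
      (Subgroup.mul_mem _ (Subgroup.inv_mem _ hg3mem) (Subgroup.inv_mem _ hg3mem))
  obtain ⟨n, -, hn⟩ := Cfsg.Agent.Lib.Helper7.L23Norm.exists_nat_pow 21 (by norm_num) hr21pow hgmem
  exact ⟨n, hn.symm⟩

end Cfsg.Agent.Lib.Helper92.M24O21
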