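import Mathlib
import Cfsg.Agent.Lib.Helper3.M24BlkStmt
import Cfsg.Agent.Lib.Helper7.M22Class
import Cfsg.Agent.Lib.Helper7.M24Main
import Cfsg.Agent.Lib.Helper92.M24O21

/-!
# S5006 piece O15 (helper92): every element of order 15 of `M24` is conjugate to a power of `r15`
-/

set_option autoImplicit false
set_option linter.style.haveILetI false

namespace Cfsg.Agent.Lib.Helper92.M24O15

open Cfsg Cfsg.Agent.Lib.Helper7.GolayBase Cfsg.Agent.Lib.Helper7.GolayPerm
  Cfsg.Agent.Lib.Helper3.M24Blk Cfsg.Agent.Lib.Helper3.M24BlkStmt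

/-- A permutation `w` with `w ^ 3 = 1` preserving a set of four points fixes one of them. -/
theorem four {α : Type*} (w : Equiv.Perm α) (pts : Fin 4 → α) (hinj : Function.Injective pts)
    (hwF : ∀ i, ∃ j, w (pts i) = pts j) (hw3 : w ^ 3 = 1) : ∃ i, w (pts i) = pts i := by
  choose σ hσ using hwF
  have hw3' : ∀ x, w (w (w x)) = x := by
    intro x
    have h := congrArg (fun f : Equiv.Perm α => f x) hw3
    simpa [pow_succ, Equiv.Perm.mul_apply] using h
  have h3 : ∀ i, σ (σ (σ i)) = i := by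
    intro i
    apply hinj
    rw [← hσ, ← hσ, ← hσ, hw3']
  have key : ∀ a b c d : Fin 4,
      (∀ i, (![a, b, c, d] : Fin 4 → Fin 4) ((![a, b, c, d] : Fin 4 → Fin 4)
        ((![a, b, c, d] : Fin 4 → Fin 4) i)) = i) →
      ∃ i, (![a, b, c, d] : Fin 4 → Fin 4) i = i := by decide
  have hσeq : σ = ![σ 0, σ 1, σ 2, σ 3] := by
    funext i
    fin_cases i <;> rfl
  obtain ⟨i, hi⟩ := key (σ 0) (σ 1) (σ 2) (σ 3) (by rw [← hσeq]; exact h3)
  rw [← hσeq] at hi
  exact ⟨i, by rw [hσ, hi]⟩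

/-! ### The explicit elements -/

def uAT : List Nat :=
  [1, 0, 8, 7, 21, 20, 22, 3, 2, 16, 14, 12, 11, 15, 10, 13, 9, 19, 23, 17, 5, 4, 6, 18]
def uBT : List Nat :=
  [18, 23, 12, 16, 10, 6, 5, 9, 11, 7, 4, 8, 2, 17, 21, 19, 3, 13, 0, 15, 22, 14, 20, 1]
def uCT : List Nat :=
  [23, 18, 11, 9, 14, 22, 20, 16, 12, 3, 21, 2, 8, 19, 4, 17, 7, 15, 1, 13, 6, 10, 5, 0]

/-- Involutions centralising `r5`: `uA` swaps `3, 7`, `uB` swaps `7, 9`, `uC` swaps `7, 16`. -/
def uA : G24 := mkG uAT uAT (by decide +kernel) (by decide +kernel)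
def uB : G24 := mkG uBT uBT (by decide +kernel) (by decide +kernel)
def uC : G24 := mkG uCT uCT (by decide +kernel) (by decide +kernel)

theorem rep_uA : Rep ((uA : G24) : Equiv.Perm GolayPt) uAT := rep_mkG _ _ _ _
theorem rep_uB : Rep ((uB : G24) : Equiv.Perm GolayPt) uBT := rep_mkG _ _ _ _
theorem rep_uC : Rep ((uC : G24) : Equiv.Perm GolayPt) uCT := rep_mkG _ _ _ _

theorem rep_r15 : Rep ((r15 : G24) : Equiv.Perm GolayPt) r15T := rep_mkG _ _ _ _

theorem rep_r5 : Rep ((r5 : G24) : Equiv.Perm GolayPt)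
    (Cfsg.Agent.Lib.Helper7.M22Fn.powT r15T 3) := by
  show Rep (((r15 ^ 3 : G24)) : Equiv.Perm GolayPt) _
  rw [Subgroup.coe_pow]
  exact Cfsg.Agent.Lib.Helper7.M22Fn.rep_powT rep_r15 3

theorem comm_of_tables (u r : G24) (uT rT : List Nat) (hu : Rep (u : Equiv.Perm GolayPt) uT)
    (hr : Rep (r : Equiv.Perm GolayPt) rT) (h : tmul uT rT = tmul rT uT) : Commute u r := by
  show u * r = r * u
  apply Subtype.ext
  rw [Subgroup.coe_mul, Subgroup.coe_mul]
  have h2 := hu.mul hr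
  rw [h] at h2
  exact h2.ext (hr.mul hu)

theorem comm_uA : Commute uA r5 := comm_of_tables _ _ _ _ rep_uA rep_r5 (by decide +kernel)
theorem comm_uB : Commute uB r5 := comm_of_tables _ _ _ _ rep_uB rep_r5 (by decide +kernel)
theorem comm_uC : Commute uC r5 := comm_of_tables _ _ _ _ rep_uC rep_r5 (by decide +kernel)

theorem pt_ne {i j : ℕ} (hi : i < 24) (hj : j < 24) (h : i ≠ j) : pt i ≠ pt j := by
  intro h'
  have := congrArg idx h'
  rw [idx_pt hi, idx_pt hj] at this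
  exact h this

/-- The four fixed points of `r5`. -/
def ptsN : Fin 4 → ℕ := ![7, 3, 16, 9]
def pts : Fin 4 → GolayPt := fun i => pt (ptsN i)

theorem ptsN_lt : ∀ i : Fin 4, ptsN i < 24 := by decide

theorem ptsN_inj : ∀ i j : Fin 4, ptsN i = ptsN j → i = j := by decide

theorem pts_inj : Function.Injective pts := by
  intro i j h
  have := congrArg idx h
  rw [pts, pts, idx_pt (ptsN_lt i), idx_pt (ptsN_lt j)] at this
  exact ptsN_inj i j this

theorem pts_mem (i : Fin 4) : pts i = pt 7 ∨ pts i = pt 3 ∨ pts i = pt 16 ∨ pts i = pt 9 := by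
  fin_cases i
  · exact Or.inl rfl
  · exact Or.inr (Or.inl rfl)
  · exact Or.inr (Or.inr (Or.inl rfl))
  · exact Or.inr (Or.inr (Or.inr rfl))

theorem fix_r5 (x : GolayPt) :
    ((r5 : G24) : Equiv.Perm GolayPt) x = x ↔ (x = pt 7 ∨ x = pt 3 ∨ x = pt 16 ∨ x = pt 9) := by
  have hdec : ∀ i, i < 24 → ((Cfsg.Agent.Lib.Helper7.M22Fn.powT r15T 3).getD i 0 = i ↔
      (i = 7 ∨ i = 3 ∨ i = 16 ∨ i = 9)) := by decide
  have h1 := rep_r5.2 x
  have h2 := hdec (idx x) (idx_lt x)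
  constructor
  · intro hx
    rw [hx] at h1
    rcases h2.mp h1 with h | h | h | h
    · left; rw [← pt_idx x, h]
    · right; left; rw [← pt_idx x, h]
    · right; right; left; rw [← pt_idx x, h]
    · right; right; right; rw [← pt_idx x, h]
  · intro hx
    apply idx_injective
    rw [← h1]
    apply h2.mpr
    rcases hx with h | h | h | h
    · left; rw [h]; exact idx_pt (by norm_num)
    · right; left; rw [h]; exact idx_pt (by norm_num)
    · right; right; left; rw [h]; exact idx_pt (by norm_num)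
    · right; right; right; rw [h]; exact idx_pt (by norm_num)

/-- An element commuting with `r5` preserves its set of fixed points. -/
theorem maps_fix (t : G24) (ht : Commute t r5) (x : GolayPt)
    (hx : ((r5 : G24) : Equiv.Perm GolayPt) x = x) :
    ((r5 : G24) : Equiv.Perm GolayPt) ((t : Equiv.Perm GolayPt) x) = (t : Equiv.Perm GolayPt) x := by
  have h1 : ((r5 * t : G24) : Equiv.Perm GolayPt) x = ((t * r5 : G24) : Equiv.Perm GolayPt) x := by
    rw [ht.eq]
  rw [Subgroup.coe_mul, Subgroup.coe_mul, Equiv.Perm.mul_apply, Equiv.Perm.mul_apply, hx] at h1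
  exact h1

/-- The case where the element of order 3 fixes the point `pt 7`. -/
theorem core (hK5 : K5Stmt) (g' : G24) (hg15 : g' ^ 15 = 1) (k : ℕ)
    (hg3 : g' ^ 3 = r5 ^ k) (hcomm : Commute g' r5)
    (h7 : ((g' ^ 5 : G24) : Equiv.Perm GolayPt) (pt 7) = pt 7) :
    g' ∈ Subgroup.zpowers r15 := by
  have hwcomm : Commute (g' ^ 5) r5 := hcomm.pow_left 5
  have hrcomm : Commute r15 r5 := (Commute.refl r15).pow_right 3
  have hw3 : ((g' ^ 5 : G24) : Equiv.Perm GolayPt) ^ 3 = 1 := by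
    rw [← Subgroup.coe_pow, ← pow_mul, hg15]; rfl
  have hmaps : ∀ x : GolayPt, (x = pt 3 ∨ x = pt 16 ∨ x = pt 9) →
      (((g' ^ 5 : G24) : Equiv.Perm GolayPt) x = pt 3 ∨
        ((g' ^ 5 : G24) : Equiv.Perm GolayPt) x = pt 16 ∨
        ((g' ^ 5 : G24) : Equiv.Perm GolayPt) x = pt 9) := by
    intro x hx
    have hxF : ((r5 : G24) : Equiv.Perm GolayPt) x = x := (fix_r5 x).mpr (Or.inr hx)
    rcases (fix_r5 _).mp (maps_fix _ hwcomm x hxF) with h | h
    · exfalso
      have hx7 : x = pt 7 := ((g' ^ 5 : G24) : Equiv.Perm GolayPt).injective (h.trans h7.symm)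
      rcases hx with h' | h' | h'
      · rw [h'] at hx7; exact pt_ne (by norm_num) (by norm_num) (by norm_num) hx7
      · rw [h'] at hx7; exact pt_ne (by norm_num) (by norm_num) (by norm_num) hx7
      · rw [h'] at hx7; exact pt_ne (by norm_num) (by norm_num) (by norm_num) hx7
    · exact h
  obtain ⟨e, he0, he1, he2⟩ := Cfsg.Agent.Lib.Helper92.M24O21.three
    ((g' ^ 5 : G24) : Equiv.Perm GolayPt) ((r15 : G24) : Equiv.Perm GolayPt) (pt 3) (pt 16) (pt 9)
    (pt_ne (by norm_num) (by norm_num) (by norm_num))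
    (pt_ne (by norm_num) (by norm_num) (by norm_num))
    (pt_ne (by norm_num) (by norm_num) (by norm_num))
    (rep_r15.apply_eq (by norm_num) (by decide)) (rep_r15.apply_eq (by norm_num) (by decide))
    (rep_r15.apply_eq (by norm_num) (by decide)) hmaps hw3
  have hr7 : (((r15 : G24) : Equiv.Perm GolayPt) ^ e) (pt 7) = pt 7 :=
    Equiv.Perm.pow_apply_eq_self_of_apply_eq_self
      (rep_r15.apply_eq (by norm_num) (by decide)) e
  have htcomm : Commute ((r15 ^ e)⁻¹ * g' ^ 5) r5 :=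
    ((hrcomm.pow_left e).inv_left).mul_left hwcomm
  have htfix : ∀ p : GolayPt, ((r5 : G24) : Equiv.Perm GolayPt) p = p →
      (((r15 ^ e)⁻¹ * g' ^ 5 : G24) : Equiv.Perm GolayPt) p = p := by
    intro p hp
    rw [Subgroup.coe_mul, Subgroup.coe_inv, Subgroup.coe_pow, Equiv.Perm.mul_apply,
      Equiv.Perm.inv_eq_iff_eq]
    rcases (fix_r5 p).mp hp with h | h | h | h
    · rw [h, hr7]; exact h7
    · rw [h]; exact he0
    · rw [h]; exact he1
    · rw [h]; exact he2
  have htmem := hK5 _ htcomm htfix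
  have hr5mem : r5 ∈ Subgroup.zpowers r15 := ⟨3, by norm_cast⟩
  have hle : Subgroup.zpowers r5 ≤ Subgroup.zpowers r15 := by
    rw [Subgroup.zpowers_le]; exact hr5mem
  have hwmem : g' ^ 5 ∈ Subgroup.zpowers r15 := by
    have h1 : g' ^ 5 = r15 ^ e * ((r15 ^ e)⁻¹ * g' ^ 5) := by group
    rw [h1]
    exact Subgroup.mul_mem _ (Subgroup.pow_mem _ (Subgroup.mem_zpowers r15) e) (hle htmem)
  have hg3mem : g' ^ 3 ∈ Subgroup.zpowers r15 := by
    rw [hg3]
    exact Subgroup.pow_mem _ hr5mem k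
  have h1 : g' = (g' ^ 3) * (g' ^ 3) * (g' ^ 5)⁻¹ := by group
  rw [h1]
  exact Subgroup.mul_mem _ (Subgroup.mul_mem _ hg3mem hg3mem) (Subgroup.inv_mem _ hwmem)

theorem main : OrdStmt → K5Stmt → O15Stmt := by
  intro hord hK5 g hg
  obtain ⟨-, h15, -, -⟩ := hord
  haveI : Finite G24 := Nat.finite_of_card_ne_zero (by
    rw [Cfsg.Agent.Lib.Helper7.M24Main.card_M24]; norm_num)
  haveI : Fact (Nat.Prime 5) := ⟨by norm_num⟩
  have hr15pow : r15 ^ 15 = 1 := by rw [← h15]; exact pow_orderOf_eq_one _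
  have hr5 : orderOf r5 = 5 := by
    show orderOf (r15 ^ 3) = 5
    rw [orderOf_pow' _ (by norm_num), h15]; norm_num
  have hr5pow : r5 ^ 5 = 1 := by rw [← hr5]; exact pow_orderOf_eq_one _
  have hg15 : g ^ 15 = 1 := by rw [← hg]; exact pow_orderOf_eq_one _
  have hg3 : orderOf (g ^ 3) = 5 := by rw [orderOf_pow' _ (by norm_num), hg]; norm_num
  have hfac : (Nat.card G24).factorization 5 = 1 := by
    rw [Cfsg.Agent.Lib.Helper7.M24Main.card_M24,
      show (244823040 : ℕ) = 5 ^ 1 * 48964608 by norm_num]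
    exact Cfsg.Agent.Lib.Helper7.M22Class.fac_pow (by norm_num) (by norm_num) (by norm_num)
  obtain ⟨c, k, hk5, hk0, hck⟩ :=
    Cfsg.Agent.Lib.Helper7.M22Class.conj_into_zpowers hr5 hfac hg3
  obtain ⟨g', hg'⟩ : ∃ g' : G24, g' = c * g * c⁻¹ := ⟨_, rfl⟩
  have hg'3 : g' ^ 3 = r5 ^ k := by rw [hg', conj_pow]; exact hck.symm
  have hg'15 : g' ^ 15 = 1 := by rw [hg', conj_pow, hg15]; group
  -- `r5` is a power of `g' ^ 3`
  have hr5' : ∃ j : ℕ, r5 = (g' ^ 3) ^ j := by
    have key : ∀ j m : ℕ, k * j = 5 * m + 1 → r5 = (g' ^ 3) ^ j := by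
      intro j m hjm
      rw [hg'3, ← pow_mul, hjm, pow_succ, pow_mul, hr5pow, one_pow, one_mul]
    interval_cases k
    · exact ⟨1, key 1 0 (by norm_num)⟩
    · exact ⟨3, key 3 1 (by norm_num)⟩
    · exact ⟨2, key 2 1 (by norm_num)⟩
    · exact ⟨4, key 4 3 (by norm_num)⟩
  obtain ⟨j, hj⟩ := hr5'
  have hcomm : Commute g' r5 := by
    rw [hj]
    exact ((Commute.refl g').pow_right 3).pow_right j
  have hwcomm : Commute (g' ^ 5) r5 := hcomm.pow_left 5
  have hw3 : ((g' ^ 5 : G24) : Equiv.Perm GolayPt) ^ 3 = 1 := by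
    rw [← Subgroup.coe_pow, ← pow_mul, hg'15]; rfl
  -- `g' ^ 5` fixes one of the four fixed points of `r5`
  have hwF : ∀ i, ∃ j, ((g' ^ 5 : G24) : Equiv.Perm GolayPt) (pts i) = pts j := by
    intro i
    have h1 := maps_fix _ hwcomm (pts i) ((fix_r5 _).mpr (pts_mem i))
    rcases (fix_r5 _).mp h1 with h | h | h | h
    · exact ⟨0, h⟩
    · exact ⟨1, h⟩
    · exact ⟨2, h⟩
    · exact ⟨3, h⟩
  obtain ⟨i, hi⟩ := four _ pts pts_inj hwF hw3
  -- move this point to `pt 7` inside the centraliser of `r5`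
  have hx : ∃ x : G24, Commute x r5 ∧ (x : Equiv.Perm GolayPt) (pts i) = pt 7 := by
    fin_cases i
    · exact ⟨1, Commute.one_left _, by rw [Subgroup.coe_one]; rfl⟩
    · refine ⟨uA, comm_uA, ?_⟩
      show ((uA : G24) : Equiv.Perm GolayPt) (pt 3) = pt 7
      exact rep_uA.apply_eq (by norm_num) (by decide)
    · refine ⟨uC, comm_uC, ?_⟩
      show ((uC : G24) : Equiv.Perm GolayPt) (pt 16) = pt 7
      exact rep_uC.apply_eq (by norm_num) (by decide)
    · refine ⟨uB, comm_uB, ?_⟩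
      show ((uB : G24) : Equiv.Perm GolayPt) (pt 9) = pt 7
      exact rep_uB.apply_eq (by norm_num) (by decide)
  obtain ⟨x, hxcomm, hx7⟩ := hx
  have hxinv : ((x : G24) : Equiv.Perm GolayPt)⁻¹ (pt 7) = pts i := by
    rw [Equiv.Perm.inv_eq_iff_eq, hx7]
  have hmem : x * g' * x⁻¹ ∈ Subgroup.zpowers r15 := by
    refine core hK5 (x * g' * x⁻¹) ?_ k ?_ ?_ ?_
    · rw [conj_pow, hg'15]; group
    · rw [conj_pow, hg'3, (hxcomm.pow_right k).eq, mul_inv_cancel_right]
    · exact (hxcomm.mul_left hcomm).mul_left hxcomm.inv_left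
    · rw [conj_pow, Subgroup.coe_mul, Subgroup.coe_mul, Subgroup.coe_inv, Equiv.Perm.mul_apply,
        Equiv.Perm.mul_apply, hxinv, hi, hx7]
  obtain ⟨n, -, hn⟩ := Cfsg.Agent.Lib.Helper7.L23Norm.exists_nat_pow 15 (by norm_num) hr15pow hmem
  refine ⟨x * c, n, ?_⟩
  rw [hn, hg']
  group

end Cfsg.Agent.Lib.Helper92.M24O15
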