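import Mathlib
import Cfsg.Agent.Lib.Helper3.M24BlkStmt
import Cfsg.Agent.Lib.Helper7.M22Fn

/-!
# S5006 piece QAR21 (helper92): the octad test separates `r21` from `r21⁻¹`
-/

set_option autoImplicit false

namespace Cfsg.Agent.Lib.Helper92.M24QAR21

open Cfsg Cfsg.Agent.Lib.Helper7.GolayBase Cfsg.Agent.Lib.Helper7.GolayCode
  Cfsg.Agent.Lib.Helper7.GolayPerm Cfsg.Agent.Lib.Helper7.M22Fn
  Cfsg.Agent.Lib.Helper3.M24Blk Cfsg.Agent.Lib.Helper3.M24BlkStmt

/-- The set `{g ^ k (pt i) : k ∈ S}` is `mk m`, from the table of `g`. -/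
theorem image_eq_mk {g : Equiv.Perm GolayPt} {T : List Nat} (hg : Rep g T) (S : Finset ℕ) {i : ℕ}
    (hi : i < 24) (m : ℕ)
    (h : ∀ j, j < 24 → ((∃ k ∈ S, (powT T k).getD i 0 = j) ↔ m.testBit j = true)) :
    S.image (fun k => (g ^ k) (pt i)) = mk m := by
  ext p
  rw [Finset.mem_image, mem_mk, ← h (idx p) (idx_lt p)]
  have key : ∀ k : ℕ, (powT T k).getD i 0 = idx ((g ^ k) (pt i)) := by
    intro k
    have := (rep_powT hg k).2 (pt i)
    rw [idx_pt hi] at this
    exact this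
  constructor
  · rintro ⟨k, hk, rfl⟩
    exact ⟨k, hk, key k⟩
  · rintro ⟨k, hk, hkp⟩
    refine ⟨k, hk, ?_⟩
    apply idx_injective
    rw [← hkp]
    exact (key k).symm

/-- The octad test fails, from the table of `g` and the list of the 24 masks. -/
theorem not_QA {g : Equiv.Perm GolayPt} {T : List Nat} (hg : Rep g T) (S : Finset ℕ)
    (ML : List ℕ)
    (h : ∀ i, i < 24 → (ML.getD i 0 < 2 ^ 24 ∧ inCode (ML.getD i 0) = false ∧
      ∀ j, j < 24 → ((∃ k ∈ S, (powT T k).getD i 0 = j) ↔ (ML.getD i 0).testBit j = true))) :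
    ¬ QA S g := by
  rintro ⟨p, hp⟩
  obtain ⟨hlt, hnc, hj⟩ := h (idx p) (idx_lt p)
  have himg := image_eq_mk hg S (idx_lt p) _ hj
  rw [pt_idx] at himg
  rw [himg, mem_supports_iff] at hp
  obtain ⟨c, hc, hcm⟩ := hp
  have hceq : c = ML.getD (idx p) 0 := mk_injOn (codeList_lt c hc) hlt hcm
  rw [hceq, ← inCode_iff, hnc] at hc
  exact Bool.noConfusion hc

/-- The octad test succeeds at the point `pt i`, from the table of `g` and the mask. -/
theorem QA_of {g : Equiv.Perm GolayPt} {T : List Nat} (hg : Rep g T) (S : Finset ℕ) (i m : ℕ)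
    (hi : i < 24) (hm : inCode m = true)
    (h : ∀ j, j < 24 → ((∃ k ∈ S, (powT T k).getD i 0 = j) ↔ m.testBit j = true)) :
    QA S g := by
  refine ⟨pt i, ?_⟩
  rw [image_eq_mk hg S hi m h]
  exact mk_mem_supports (inCode_sound hm)

theorem rep_r21 : Rep ((r21 : G24) : Equiv.Perm GolayPt) r21T := rep_mkG _ _ _ _

theorem rep_r21_inv : Rep (((r21⁻¹ : G24)) : Equiv.Perm GolayPt) r21T' := by
  rw [Subgroup.coe_inv]
  exact rep_r21.inv (by decide) (by decide)

/-- The masks of the sets `{r21⁻¹ ^ k (pt i) : k ∈ S21f}`. -/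
def ML21 : List ℕ := [4312321, 1672259, 4855942, 3302536, 4739164, 3281193, 2623956, 6488234,
  4237656, 8651264, 111890, 5777460, 708776, 211028, 2155527, 106949, 601440, 3326050, 8651264,
  6820017, 1197331, 3229707, 5248172, 8651264]

theorem main : QAR21Stmt := by
  refine ⟨?_, ?_⟩
  · exact QA_of rep_r21 S21f 0 3719203 (by norm_num) (by decide +kernel) (by decide +kernel)
  · exact not_QA rep_r21_inv S21f ML21 (by decide +kernel)

end Cfsg.Agent.Lib.Helper92.M24QAR21
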