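import Mathlib
import Cfsg.Prelude.Def_MonsterType
import Cfsg.Agent.Lib.Helper92.MonVec
import Cfsg.Agent.Lib.Helper92.O2Co2
import Cfsg.Agent.Lib.Helper90.ESData
import Cfsg.Agent.Lib.Helper90.FStarES

/-!
Groups of Monster type: a conjugate of the central involution `z` lying in `Q` and different
from `z` is not represented by a minimal vector of the lattice.
-/

set_option autoImplicit false

namespace Cfsg.Agent.Lib.Helper92.MonExcl

open Cfsg Cfsg.Agent.Lib.Helper92.LeechCore Cfsg.Agent.Lib.Helper92.ActQ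
open Cfsg.Agent.Lib.Helper92.MonQ Cfsg.Agent.Lib.Helper92.MonLat
open Cfsg.Agent.Lib.Helper92.MonVec Cfsg.Agent.Lib.Helper92.O2Co2
open Cfsg.Agent.Lib.Helper90.ESData Cfsg.Agent.Lib.Helper90.FStarES
open Cfsg.Agent.S0398

/-- In an extraspecial 2-group with more than eight elements, the centralizer of a non-central
involution is not abelian. -/
theorem exists_noncomm {G : Type*} [Group G] {Q : Subgroup G} {z : G} (hE : ESD Q z)
    (hcard : 9 ≤ Nat.card Q) {b : G} (hb : b ∈ Q) (hb1 : b ≠ 1) (hbz : b ≠ z)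
    (hbb : b * b = 1) :
    ∃ a1 ∈ Q, ∃ a2 ∈ Q, a1 * b = b * a1 ∧ a2 * b = b * a2 ∧ a1 * a2 ≠ a2 * a1 := by
  by_contra hcon
  push Not at hcon
  obtain ⟨t, ht, htb⟩ := hE.exists_conj hb hb1 hbz
  obtain ⟨p, hp, hpb, hpp⟩ := hE.exists_sq_eq hcard hb
  have hzz := hE.zz
  have hzb : b * z = z * b := hE.zc b hb
  have key : ∀ a ∈ Q, a * b = b * a → a ≠ 1 → a ≠ z → t * a * t⁻¹ = z * a := by
    intro a ha hab ha1 haz
    rcases hE.comm t ht a ha with h | h
    · exfalso
      have hta : t * a = a * t := by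
        have := congrArg (fun x => x * a * t) h
        simpa [mul_assoc] using this
      have hcen : ∀ r ∈ Q, a * r = r * a := by
        intro r hr
        rcases hE.comm_or hb htb hr with h1 | h1
        · exact hcon a ha r hr hab h1
        · have h2 := hcon a ha (r * t) (Q.mul_mem hr ht) hab h1
          have h3 : a * r * t = r * a * t := by
            calc a * r * t = a * (r * t) := by group
              _ = r * t * a := h2
              _ = r * (t * a) := by group
              _ = r * (a * t) := by rw [hta]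
              _ = r * a * t := by group
          exact mul_right_cancel h3
      rcases hE.cent a hcen with h1 | h1
      · exact ha1 h1
      · exact haz h1
    · have := congrArg (fun x => x * a) h
      simpa [mul_assoc] using this
  have hp1 : p ≠ 1 := by
    intro h
    rw [h, mul_one] at hpp
    exact hE.z1 hpp.symm
  have hpz : p ≠ z := by
    intro h
    rw [h, hzz] at hpp
    exact hE.z1 hpp.symm
  have h_tp := key p hp hpb hp1 hpz
  have hbp_comm : (b * p) * b = b * (b * p) := by rw [mul_assoc, hpb]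
  have hbp1 : b * p ≠ 1 := by
    intro h
    have h2 : b * p = b * b := by rw [h, hbb]
    have h3 : p = b := mul_left_cancel h2
    rw [h3, hbb] at hpp
    exact hE.z1 hpp.symm
  have hbpz : b * p ≠ z := by
    intro h
    have h2 : p = b * z := by
      have h3 : b * (b * p) = b * z := by rw [h]
      rw [← mul_assoc, hbb, one_mul] at h3
      exact h3
    have h4 : p * p = 1 := by
      rw [h2]
      calc b * z * (b * z) = b * (z * b) * z := by group
        _ = b * (b * z) * z := by rw [← hzb]
        _ = (b * b) * (z * z) := by group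
        _ = 1 := by rw [hbb, hzz, one_mul]
    rw [h4] at hpp
    exact hE.z1 hpp.symm
  have h_tbp := key (b * p) (Q.mul_mem hb hp) hbp_comm hbp1 hbpz
  have h5 : t * (b * p) * t⁻¹ = (t * b * t⁻¹) * (t * p * t⁻¹) := by group
  rw [h5, htb, h_tp] at h_tbp
  have h6 : z * b * (z * p) = b * p := by
    calc z * b * (z * p) = z * (b * z) * p := by group
      _ = z * (z * b) * p := by rw [hzb]
      _ = (z * z) * (b * p) := by group
      _ = b * p := by rw [hzz, one_mul]
  rw [h6] at h_tbp
  apply hE.z1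
  have := congrArg (fun x => x * (b * p)⁻¹) h_tbp
  simpa [mul_assoc] using this.symm

section monster

variable {G : Type*} [Group G] {z : G} {Q : Subgroup (Subgroup.centralizer ({z} : Set G))}
  [Q.Normal]

theorem liso_of_iso (hES : IsExtraspecial 2 ↥Q)
    {e : (Subgroup.centralizer ({z} : Set G)) ⧸ Q ≃* Spor.Co1}
    {ψ : leechLattice → ↥Q ⧸ Subgroup.center ↥Q} (hψ : IsLeechModTwoIso Q e ψ) : LIso Q ψ := by
  obtain ⟨hadd, hsurj, hker, hequiv⟩ := hψ
  refine ⟨hES.2, hadd, hsurj, hker, ?_⟩
  intro g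
  obtain ⟨h, hh⟩ := QuotientGroup.mk_surjective (e.symm (QuotientGroup.mk g))
  refine ⟨h, fun v q hq => hequiv h g ?_ v q hq⟩
  rw [hh, MulEquiv.apply_symm_apply]

theorem negC_smul (w : leechLattice) : negC • w = -w := rfl

/-- A conjugate of `z` in `Q` other than `z` is not represented by a minimal vector. -/
theorem no_type2 [Finite G] (hM : IsOfMonsterType z Q)
    {e : (Subgroup.centralizer ({z} : Set G)) ⧸ Q ≃* Spor.Co1}
    {ψ : leechLattice → ↥Q ⧸ Subgroup.center ↥Q} (hψ : IsLeechModTwoIso Q e ψ)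
    (g : G) (s : Q) (hs : ((s : Subgroup.centralizer ({z} : Set G)) : G) = g * z * g⁻¹)
    (hsz : g * z * g⁻¹ ≠ z) (v : leechLattice) (hv : ψ v = QuotientGroup.mk s) :
    sqNorm (v : GolayPt → ℤ) ≠ 32 := by
  intro hv32
  have hL : LIso Q ψ := liso_of_iso hM.1.2.2.1 hψ
  obtain ⟨hadd, hsurj, hker, hequiv⟩ := hψ
  -- the extraspecial data in `G`
  have hF : (generalizedFittingSubgroup ↥(Subgroup.centralizer ({z} : Set G))).map
      (Subgroup.centralizer ({z} : Set G)).subtype
      = Q.map (Subgroup.centralizer ({z} : Set G)).subtype := by rw [hM.1.2.1]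
  have hQg : IsExtraspecial 2 ↥(Q.map (Subgroup.centralizer ({z} : Set G)).subtype) :=
    isExtraspecial_of_mulEquiv (Q.equivMapOfInjective _ (Subgroup.subtype_injective _))
      hM.1.2.2.1
  have hS := Setup.of_gfs hM.1.1 hF hQg
  obtain ⟨z', hE0, hz'Z, -⟩ := exists_esd _ hQg hS.centralizer_eq hS.centralizer_le
  have hz' : z' = z := by
    rcases hS.center_cases hz'Z with h | h
    · exact absurd h hE0.z1
    · exact h
  rw [hz'] at hE0
  have hcardQg : Nat.card ↥(Q.map (Subgroup.centralizer ({z} : Set G)).subtype) = 2 ^ 25 := by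
    rw [Subgroup.card_map_of_injective (Subgroup.subtype_injective _)]
    exact hM.1.2.2.2.1
  have hsQg : g * z * g⁻¹ ∈ Q.map (Subgroup.centralizer ({z} : Set G)).subtype :=
    ⟨s.1, s.2, hs⟩
  have hE' := hE0.conj g
  have hzQ' := hE0.mem_conj_of_conj_mem (by rw [hcardQg]; norm_num) g hsQg hsz
  have hcardQ'g : Nat.card ↥((Q.map (Subgroup.centralizer ({z} : Set G)).subtype).map
      (MulAut.conj g).toMonoidHom) = 2 ^ 25 := by
    rw [Subgroup.card_map_of_injective (MulAut.conj g).injective]
    exact hcardQg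
  generalize hQg_def : Q.map (Subgroup.centralizer ({z} : Set G)).subtype = Qg at *
  generalize hQ'g_def : Qg.map (MulAut.conj g).toMonoidHom = Q'g at *
  obtain ⟨a1, ha1, a2, ha2, ha1z, ha2z, hne⟩ := exists_noncomm hE' (by rw [hcardQ'g]; norm_num)
    hzQ' (z_ne_one hM) (Ne.symm hsz) (z_sq hM)
  -- `s` is not central
  have hsnc : s ∉ Subgroup.center ↥Q := by
    intro hcen
    rcases hL.cases hcen with h | h
    · have h1 : g * z * g⁻¹ = 1 := by
        rw [← hs, h]
        rfl
      apply z_ne_one hM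
      have h2 := congrArg (fun x => g⁻¹ * x * g) h1
      simpa [mul_assoc] using h2
    · apply hsz
      rw [← hs, h, hL.c_eq hM]
      rfl
  -- the 2-subgroup of the automorphism group induced by `Q'g ∩ C`
  let φ : ↥(Subgroup.centralizer ({z} : Set G)) →* Spor.Co1 :=
    (e : (Subgroup.centralizer ({z} : Set G)) ⧸ Q →* Spor.Co1).comp (QuotientGroup.mk' Q)
  let π : ↥Co0 →* Spor.Co1 := QuotientGroup.mk' (Subgroup.center ↥Co0)
  let M : Subgroup ↥Co0 :=
    ((Q'g.comap (Subgroup.centralizer ({z} : Set G)).subtype).map φ).comap π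
  have hMmem : ∀ g0 : ↥Co0, g0 ∈ M ↔ ∃ y : ↥(Subgroup.centralizer ({z} : Set G)),
      (y : G) ∈ Q'g ∧ e (QuotientGroup.mk y) = (QuotientGroup.mk g0 : Spor.Co1) :=
    fun g0 => Iff.rfl
  have hMp : IsPGroup 2 M := by
    apply IsPGroup.comap_of_ker_isPGroup
    · apply IsPGroup.map
      apply IsPGroup.comap_of_injective _ _ (Subgroup.subtype_injective _)
      exact IsPGroup.of_card hcardQ'g
    · rw [QuotientGroup.ker_mk']
      exact IsPGroup.of_card (n := 1) (by rw [pow_one]; exact Cfsg.Agent.S0398.result)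
  have hMv : ∀ g0 ∈ M, g0 • v = v ∨ g0 • v = -v := by
    intro g0 hg0
    obtain ⟨y, hy, hyg⟩ := (hMmem g0).mp hg0
    have h1 := hequiv y g0 hyg.symm v s hv
    have hys : y * (s : ↥(Subgroup.centralizer ({z} : Set G))) * y⁻¹
        = (s : ↥(Subgroup.centralizer ({z} : Set G))) := by
      apply Subtype.ext
      show (y : G) * ((s : ↥(Subgroup.centralizer ({z} : Set G))) : G) * (y : G)⁻¹
        = ((s : ↥(Subgroup.centralizer ({z} : Set G))) : G)
      rw [hs, hE'.zc (y : G) hy]
      group
    have h2 : ψ (g0 • v) = ψ v := by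
      rw [h1, hv]
      congr 1
      exact Subtype.ext hys
    have h3 : ψ (g0 • v + v) = 1 := by rw [hL.add, h2, hL.psi_sq]
    obtain ⟨w, hw⟩ := (hL.ker _).mp h3
    have h4 := short_congr (g0 • v).2 (-v).2 (by rw [sqNorm_smul, hv32]; norm_num)
      (by rw [AddSubgroup.coe_neg, sqNorm_neg, hv32]; norm_num)
      ⟨(w : GolayPt → ℤ), w.2, by
        have := congrArg (fun x : leechLattice => (x : GolayPt → ℤ)) hw
        simp only [AddSubgroup.coe_add] at this
        rw [AddSubgroup.coe_neg, sub_neg_eq_add, this, two_nsmul]⟩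
    rcases h4 with h5 | h5 | h5
    · right
      exact Subtype.ext h5.symm
    · left
      apply Subtype.ext
      have := congrArg Neg.neg h5
      simpa using this.symm
    · exfalso
      have := h5.1
      rw [sqNorm_smul, hv32] at this
      norm_num at this
  have hlift : ∀ k : ↥Co0, k • v = v → ∃ h : ↥(Subgroup.centralizer ({z} : Set G)),
      e (QuotientGroup.mk h) = (QuotientGroup.mk k : Spor.Co1) ∧
      (h : G) * (g * z * g⁻¹) = (g * z * g⁻¹) * (h : G) := by
    intro k hk
    obtain ⟨h, hh⟩ := QuotientGroup.mk_surjective (e.symm (QuotientGroup.mk k))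
    have hhk : e (QuotientGroup.mk h) = (QuotientGroup.mk k : Spor.Co1) := by
      rw [hh, MulEquiv.apply_symm_apply]
    have h1 := hequiv h k hhk.symm v s hv
    rw [hk, hv] at h1
    rcases hL.mk_eq h1 with h2 | h2
    · refine ⟨h, hhk, ?_⟩
      have h3 : (h : G) * ((s : ↥(Subgroup.centralizer ({z} : Set G))) : G) * (h : G)⁻¹
          = ((s : ↥(Subgroup.centralizer ({z} : Set G))) : G) :=
        congrArg (fun x : Q => ((x : ↥(Subgroup.centralizer ({z} : Set G))) : G)) h2
      rw [hs] at h3
      have := congrArg (fun x => x * (h : G)) h3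
      simpa [mul_assoc] using this
    · obtain ⟨q, hq⟩ := hL.exists_conj_c hsnc
      refine ⟨(q : ↥(Subgroup.centralizer ({z} : Set G)))⁻¹ * h, ?_, ?_⟩
      · rw [QuotientGroup.mk_mul, map_mul, hhk]
        have : (QuotientGroup.mk ((q : ↥(Subgroup.centralizer ({z} : Set G)))⁻¹) :
            (Subgroup.centralizer ({z} : Set G)) ⧸ Q) = 1 :=
          (QuotientGroup.eq_one_iff _).mpr (Q.inv_mem q.2)
        rw [this, map_one, one_mul]
      · have h3 : (h : G) * ((s : ↥(Subgroup.centralizer ({z} : Set G))) : G) * (h : G)⁻¹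
            = ((s : ↥(Subgroup.centralizer ({z} : Set G))) : G)
              * ((hL.c : ↥(Subgroup.centralizer ({z} : Set G))) : G) :=
          congrArg (fun x : Q => ((x : ↥(Subgroup.centralizer ({z} : Set G))) : G)) h2
        have h4 : ((q : ↥(Subgroup.centralizer ({z} : Set G))) : G)
            * ((s : ↥(Subgroup.centralizer ({z} : Set G))) : G)
            * ((q : ↥(Subgroup.centralizer ({z} : Set G))) : G)⁻¹
            = ((s : ↥(Subgroup.centralizer ({z} : Set G))) : G)
              * ((hL.c : ↥(Subgroup.centralizer ({z} : Set G))) : G) :=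
          congrArg (fun x : Q => ((x : ↥(Subgroup.centralizer ({z} : Set G))) : G)) hq
        rw [← h4, hs] at h3
        show ((q : ↥(Subgroup.centralizer ({z} : Set G))) : G)⁻¹ * (h : G) * (g * z * g⁻¹)
          = (g * z * g⁻¹) * (((q : ↥(Subgroup.centralizer ({z} : Set G))) : G)⁻¹ * (h : G))
        calc ((q : ↥(Subgroup.centralizer ({z} : Set G))) : G)⁻¹ * (h : G) * (g * z * g⁻¹)
            = ((q : ↥(Subgroup.centralizer ({z} : Set G))) : G)⁻¹
                * ((h : G) * (g * z * g⁻¹) * (h : G)⁻¹) * (h : G) := by group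
          _ = ((q : ↥(Subgroup.centralizer ({z} : Set G))) : G)⁻¹
                * (((q : ↥(Subgroup.centralizer ({z} : Set G))) : G) * (g * z * g⁻¹)
                  * ((q : ↥(Subgroup.centralizer ({z} : Set G))) : G)⁻¹) * (h : G) := by rw [h3]
          _ = (g * z * g⁻¹) * (((q : ↥(Subgroup.centralizer ({z} : Set G))) : G)⁻¹ * (h : G)) := by
              group
  have hMnorm : ∀ k : ↥Co0, k • v = v → ∀ m ∈ M, k * m * k⁻¹ ∈ M := by
    intro k hk m hm
    obtain ⟨y, hy, hym⟩ := (hMmem m).mp hm
    obtain ⟨h, hhk, hhs⟩ := hlift k hk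
    rw [hMmem]
    refine ⟨h * y * h⁻¹, hE'.norm (h : G) hhs (y : G) hy, ?_⟩
    rw [QuotientGroup.mk_mul, QuotientGroup.mk_mul, QuotientGroup.mk_inv, map_mul, map_mul,
      map_inv, hhk, hym]
    rfl
  have hM0 : ∀ m ∈ M ⊓ MulAction.stabilizer ↥Co0 v, m = 1 := by
    apply O2_stab v hv32 _ (hMp.to_le inf_le_left)
    · intro m hm
      exact MulAction.mem_stabilizer_iff.mp hm.2
    · intro k hk m hm
      refine ⟨hMnorm k hk m hm.1, ?_⟩
      have hkinv : k⁻¹ • v = v := by
        rw [inv_smul_eq_iff, hk]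
      show (k * m * k⁻¹) • v = v
      rw [mul_smul, mul_smul, hkinv, MulAction.mem_stabilizer_iff.mp hm.2, hk]
  have hnegM : negC ∈ M := by
    rw [hMmem]
    refine ⟨1, Q'g.one_mem, ?_⟩
    rw [QuotientGroup.mk_one, map_one]
    exact ((QuotientGroup.eq_one_iff negC).mpr negC_central).symm
  have hP : ∀ y : G, y ∈ Q'g → y * z = z * y → y ∈ Qg := by
    intro y hy hyz
    have hyC : y ∈ Subgroup.centralizer ({z} : Set G) := by
      rw [Subgroup.mem_centralizer_iff]
      intro a ha
      rw [Set.mem_singleton_iff] at ha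
      rw [ha]
      exact hyz.symm
    obtain ⟨g0, hg0⟩ := QuotientGroup.mk_surjective
      (e (QuotientGroup.mk (⟨y, hyC⟩ : ↥(Subgroup.centralizer ({z} : Set G)))))
    have hg0M : g0 ∈ M := (hMmem g0).mpr ⟨⟨y, hyC⟩, hy, hg0.symm⟩
    have hone : (QuotientGroup.mk g0 : Spor.Co1) = 1 := by
      rcases hMv g0 hg0M with h | h
      · have := hM0 g0 ⟨hg0M, MulAction.mem_stabilizer_iff.mpr h⟩
        rw [this]
        rfl
      · have h1 : (negC * g0) • v = v := by
          rw [mul_smul, h, negC_smul, neg_neg]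
        have h2 := hM0 (negC * g0) ⟨M.mul_mem hnegM hg0M, MulAction.mem_stabilizer_iff.mpr h1⟩
        have h3 : (QuotientGroup.mk (negC * g0) : Spor.Co1) = 1 := by
          rw [h2]
          rfl
        rw [QuotientGroup.mk_mul, (QuotientGroup.eq_one_iff negC).mpr negC_central, one_mul] at h3
        exact h3
    rw [hone] at hg0
    have h3 : (QuotientGroup.mk (⟨y, hyC⟩ : ↥(Subgroup.centralizer ({z} : Set G))) :
        (Subgroup.centralizer ({z} : Set G)) ⧸ Q) = 1 := by
      have := congrArg e.symm hg0.symm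
      simpa using this
    rw [← hQg_def]
    exact ⟨⟨y, hyC⟩, (QuotientGroup.eq_one_iff _).mp h3, rfl⟩
  -- the contradiction
  have h1 := hP a1 ha1 ha1z
  have h2 := hP a2 ha2 ha2z
  have hcomm1 : a1 * a2 * a1⁻¹ * a2⁻¹ = 1 := by
    rcases hE0.comm a1 h1 a2 h2 with h | h
    · exact h
    · rcases hE'.comm a1 ha1 a2 ha2 with h' | h'
      · exact h'
      · exfalso
        rw [h] at h'
        exact hsz h'.symm
  apply hne
  have := congrArg (fun x => x * a2 * a1) hcomm1
  simpa [mul_assoc] using this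

end monster

end Cfsg.Agent.Lib.Helper92.MonExcl
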