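import Mathlib
import Cfsg.Prelude.Def_MonsterType
import Cfsg.Agent.Lib.Helper92.MonExcl

/-!
Groups of Monster type: the conjugates of the central involution `z` lying in `Q` and different
from `z` are exactly the elements represented by lattice vectors of sum of squares 64.
-/

set_option autoImplicit false

namespace Cfsg.Agent.Lib.Helper92.MonConj

open Cfsg Cfsg.Agent.Lib.Helper92.LeechCore Cfsg.Agent.Lib.Helper92.ActQ
open Cfsg.Agent.Lib.Helper92.MonQ Cfsg.Agent.Lib.Helper92.MonLat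
open Cfsg.Agent.Lib.Helper92.MonVec Cfsg.Agent.Lib.Helper92.MonExcl

section liso

variable {C : Type*} [Group C] {Q : Subgroup C} [Q.Normal]
  {ψ : leechLattice → ↥Q ⧸ Subgroup.center ↥Q}

theorem K_bb (hL : LIso Q ψ) {i j : Fin 12} (hij : i ≠ j) : K ψ (bb j) (bb i) = 1 := by
  have e := hL.S_add (bb i) (bb j)
  rw [S_bb_add hL hij, S_bb hL i, S_bb hL j, one_mul, one_mul] at e
  exact e.symm

/-- The reference vector of sum of squares 64. -/
noncomputable def v64 : leechLattice := bb 0 + (bb 1 - bb 2)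

theorem v64_norm : sqNorm (v64 : GolayPt → ℤ) = 64 := by
  have h01 : (0 : Fin 12) ≠ 1 := by decide
  have h02 : (0 : Fin 12) ≠ 2 := by decide
  have h12 : (1 : Fin 12) ≠ 2 := by decide
  have hd : dotInt (bb 0 : GolayPt → ℤ) ((bb 1 - bb 2 : leechLattice) : GolayPt → ℤ) = 0 := by
    rw [AddSubgroup.coe_sub, Cfsg.Agent.S5552.dot_comm, Cfsg.Agent.S5546.dot_sub,
      Cfsg.Agent.S5552.dot_comm, dot_bb h01, Cfsg.Agent.S5552.dot_comm, dot_bb h02]
    norm_num
  show sqNorm ((bb 0 + (bb 1 - bb 2) : leechLattice) : GolayPt → ℤ) = 64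
  rw [AddSubgroup.coe_add, LeechCore.sqNorm_add, bb_norm, hd, bb_sub_norm h12]
  norm_num

/-- Lifts of vectors of sum of squares 64 are involutions. -/
theorem S_64 (hL : LIso Q ψ) (v : leechLattice) (hv : sqNorm (v : GolayPt → ℤ) = 64) :
    S ψ v = 1 := by
  have h64 : (64 : ℤ) = 32 ∨ (64 : ℤ) = 48 ∨ (64 : ℤ) = 64 := Or.inr (Or.inr rfl)
  rw [S_const hL v v64 h64 hv v64_norm]
  have h01 : (0 : Fin 12) ≠ 1 := by decide
  have h02 : (0 : Fin 12) ≠ 2 := by decide
  have h12 : (1 : Fin 12) ≠ 2 := by decide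
  have e1 : (bb 1 - bb 2 : leechLattice) = bb 1 + bb 2 + (-bb 2 + -bb 2) := by abel
  have hK : K ψ (bb 1 - bb 2) (bb 0) = 1 := by
    rw [e1, hL.K_add, hL.K_add, K_bb hL h01, K_bb hL h02, hL.K_of_ker (hL.psi_dbl _), mul_one,
      mul_one]
  show S ψ (bb 0 + (bb 1 - bb 2)) = 1
  rw [hL.S_add, S_bb hL 0, S_32 hL _ (bb_sub_norm h12), hK, mul_one, mul_one]

/-- A group all of whose elements square to the identity is not `Q`. -/
theorem exp2_false (hL : LIso Q ψ) (hcard : Nat.card Q ≠ 2) (hall : ∀ x : Q, x * x = 1) :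
    False := by
  have hcomm : ∀ x y : Q, x * y = y * x := by
    intro x y
    calc x * y = (x * y)⁻¹ := (inv_eq_of_mul_eq_one_left (hall (x * y))).symm
      _ = y⁻¹ * x⁻¹ := mul_inv_rev x y
      _ = y * x := by rw [inv_eq_of_mul_eq_one_left (hall y), inv_eq_of_mul_eq_one_left (hall x)]
  have htop : Subgroup.center ↥Q = ⊤ := by
    rw [eq_top_iff]
    intro x _
    rw [Subgroup.mem_center_iff]
    intro y
    exact hcomm y x
  have h := hL.card
  rw [htop, Subgroup.card_top] at h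
  exact hcard h

/-- Lifts of vectors of sum of squares 48 are not involutions. -/
theorem S_48 (hL : LIso Q ψ) (hcard : Nat.card Q ≠ 2) (v : leechLattice)
    (hv : sqNorm (v : GolayPt → ℤ) = 48) : S ψ v ≠ 1 := by
  intro h
  have h48 : (48 : ℤ) = 32 ∨ (48 : ℤ) = 48 ∨ (48 : ℤ) = 64 := Or.inr (Or.inl rfl)
  apply exp2_false hL hcard
  intro x
  by_cases hx : x ∈ Subgroup.center ↥Q
  · exact hL.sq_of_mem hx
  · obtain ⟨w, hw, hn⟩ := exists_rep hL hx
    rw [hL.S_eq hw]
    rcases hn with hn | hn | hn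
    · exact S_32 hL w hn
    · rw [S_const hL w v h48 hn hv, h]
    · exact S_64 hL w hn

end liso

section monster

variable {G : Type*} [Group G] {z : G} {Q : Subgroup (Subgroup.centralizer ({z} : Set G))}
  [Q.Normal]

theorem card_ne_two (hM : IsOfMonsterType z Q) : Nat.card Q ≠ 2 := by
  rw [hM.1.2.2.2.1]
  norm_num

/-- A conjugate of `z` in `Q` other than `z` is represented by a vector of sum of squares 64. -/
theorem rep64_of_conj [Finite G] (hM : IsOfMonsterType z Q)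
    {e : (Subgroup.centralizer ({z} : Set G)) ⧸ Q ≃* Spor.Co1}
    {ψ : leechLattice → ↥Q ⧸ Subgroup.center ↥Q} (hψ : IsLeechModTwoIso Q e ψ)
    (g : G) (s : Q) (hs : ((s : Subgroup.centralizer ({z} : Set G)) : G) = g * z * g⁻¹)
    (hsz : g * z * g⁻¹ ≠ z) :
    s ∉ Subgroup.center ↥Q ∧
    ∃ v : leechLattice, sqNorm (v : GolayPt → ℤ) = 64 ∧ ψ v = QuotientGroup.mk s := by
  have hL : LIso Q ψ := liso_of_iso hM.1.2.2.1 hψ
  have hsnc : s ∉ Subgroup.center ↥Q := by
    intro hcen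
    rcases hL.cases hcen with h | h
    · have h1 : g * z * g⁻¹ = 1 := by
        rw [← hs, h]
        rfl
      apply z_ne_one hM
      have h2 := congrArg (fun x => g⁻¹ * x * g) h1
      simpa [mul_assoc] using h2
    · apply hsz
      rw [← hs, h, hL.c_eq hM]
      rfl
  refine ⟨hsnc, ?_⟩
  obtain ⟨v, hv, hn⟩ := exists_rep hL hsnc
  rcases hn with hn | hn | hn
  · exact absurd hn (no_type2 hM hψ g s hs hsz v hv)
  · exfalso
    apply S_48 hL (card_ne_two hM) v hn
    rw [← hL.S_eq hv]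
    apply Subtype.ext
    apply Subtype.ext
    show ((s : Subgroup.centralizer ({z} : Set G)) : G) * ((s : Subgroup.centralizer ({z} : Set G)) : G)
      = 1
    rw [hs]
    have e1 : g * z * g⁻¹ * (g * z * g⁻¹) = g * (z * z) * g⁻¹ := by group
    rw [e1, z_sq hM]
    group
  · exact ⟨v, hn, hv⟩

/-- The characterisation of the conjugates of `z` in `Q`. -/
theorem conj_iff [Finite G] (hM : IsOfMonsterType z Q)
    {e : (Subgroup.centralizer ({z} : Set G)) ⧸ Q ≃* Spor.Co1}
    {ψ : leechLattice → ↥Q ⧸ Subgroup.center ↥Q} (hψ : IsLeechModTwoIso Q e ψ) (x : Q) :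
    (IsConj z ((x : Subgroup.centralizer ({z} : Set G)) : G) ∧
        ((x : Subgroup.centralizer ({z} : Set G)) : G) ≠ z) ↔
      ∃ v : leechLattice, sqNorm (v : GolayPt → ℤ) = 64 ∧ ψ v = QuotientGroup.mk x := by
  have hL : LIso Q ψ := liso_of_iso hM.1.2.2.1 hψ
  constructor
  · rintro ⟨hconj, hne⟩
    obtain ⟨g, hg⟩ := isConj_iff.mp hconj
    exact (rep64_of_conj hM hψ g x hg.symm (by rw [hg]; exact hne)).2
  · rintro ⟨v, hn, hv⟩
    have hxnc : x ∉ Subgroup.center ↥Q := by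
      intro hcen
      have h1 : ψ v = 1 := by
        rw [hv]
        exact (QuotientGroup.eq_one_iff x).mpr hcen
      obtain ⟨w, hw⟩ := (hL.ker v).mp h1
      have h2 : sqNorm (v : GolayPt → ℤ) = 4 * sqNorm (w : GolayPt → ℤ) := by
        rw [hw, AddSubgroup.coe_add, ← two_nsmul, sqNorm_two_smul]
      have hw0 : (w : GolayPt → ℤ) ≠ 0 := by
        intro h0
        rw [h0, Cfsg.Agent.Lib.Helper92.Conway.sqNorm_zero'] at h2
        rw [hn] at h2
        norm_num at h2
      have h3 := min_norm w.2 hw0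
      rw [hn] at h2
      omega
    obtain ⟨g, ⟨hgc, hgQ⟩, hgne⟩ := hM.1.2.2.2.2
    obtain ⟨-, vs, hns, hvs⟩ := rep64_of_conj hM hψ g ⟨⟨g * z * g⁻¹, hgc⟩, hgQ⟩ rfl hgne
    obtain ⟨h, hh⟩ := conj_of_norm hL hxnc hvs hv (Or.inr (Or.inr rfl)) hns hn
    have hh' : (h : G) * (g * z * g⁻¹) * (h : G)⁻¹ = ((x : Subgroup.centralizer ({z} : Set G)) : G) :=
      congrArg Subtype.val hh
    refine ⟨?_, ?_⟩
    · rw [isConj_iff]
      refine ⟨(h : G) * g, ?_⟩
      rw [← hh']
      group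
    · intro hxz
      apply hxnc
      have : x = zQ hM := Subtype.ext (Subtype.ext hxz)
      rw [this]
      exact zQ_mem_center hM

end monster

end Cfsg.Agent.Lib.Helper92.MonConj
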