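import Mathlib
import Cfsg.Prelude.Def_MonsterType
import Cfsg.Agent.Lib.Helper92.MonConj
import Cfsg.Agent.Lib.Helper92.NormalMono

/-!
Groups of Monster type: for a conjugate `s = g z g⁻¹` of the central involution `z` lying in `Q`
and different from `z`, the image in the first Conway group of the part of `g Q g⁻¹` centralizing
`z` is a conjugate of the group of sign changes, and the image of the centralizer of `s` is the
corresponding conjugate of the monomial group.
-/

set_option autoImplicit false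

namespace Cfsg.Agent.Lib.Helper92.MonMeet

open Cfsg Cfsg.Agent.Lib.Helper92.LeechCore Cfsg.Agent.Lib.Helper92.ActQ
open Cfsg.Agent.Lib.Helper92.MonQ Cfsg.Agent.Lib.Helper92.MonLat
open Cfsg.Agent.Lib.Helper92.MonVec Cfsg.Agent.Lib.Helper92.O2Co2
open Cfsg.Agent.Lib.Helper92.MonExcl Cfsg.Agent.Lib.Helper92.MonConj
open Cfsg.Agent.Lib.Helper92.NormalMono Cfsg.Agent.Lib.Helper92.MinVec
open Cfsg.Agent.Lib.Helper92.Conway Cfsg.Agent.Lib.Helper92.Shells
open Cfsg.Agent.Lib.Helper90.ESData Cfsg.Agent.Lib.Helper90.FStarES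
open Cfsg.Agent.S0398

section general

theorem card_subgroupOf {G : Type*} [Group G] (H K : Subgroup G) :
    Nat.card ↥(H.subgroupOf K) = Nat.card ↥(H ⊓ K) := by
  rw [← Subgroup.subgroupOf_map_subtype,
    Subgroup.card_map_of_injective (Subgroup.subtype_injective K)]

theorem card_inf_ker_mul {A B : Type*} [Group A] [Group B] (f : A →* B) (K : Subgroup A) :
    Nat.card ↥(f.ker ⊓ K) * Nat.card ↥(K.map f) = Nat.card ↥K := by
  rw [← Subgroup.relIndex_ker, ← card_subgroupOf]
  exact Subgroup.card_mul_index _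

theorem card_inf_of_relIndex {G : Type*} [Group G] (H K : Subgroup G) (h : H.relIndex K = 2) :
    Nat.card ↥(K ⊓ H) * 2 = Nat.card ↥K := by
  rw [inf_comm, ← card_subgroupOf, ← h]
  exact Subgroup.card_mul_index _

theorem center_cases (x : ↥Co0) (hx : x ∈ Subgroup.center ↥Co0) : x = 1 ∨ x = negC := by
  have hx' := Subgroup.mem_center_iff.mp hx
  have := central_cases x.1 x.2 (fun g hg => by
    have := hx' ⟨g, hg⟩
    exact (congrArg Subtype.val this).symm)
  rcases this with h | h
  · left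
    exact Subtype.ext h
  · right
    exact Subtype.ext h

theorem mk_eq_iff (x y : ↥Co0) :
    (QuotientGroup.mk x : Spor.Co1) = QuotientGroup.mk y ↔ y = x ∨ y = x * negC := by
  rw [QuotientGroup.eq]
  constructor
  · intro h
    rcases center_cases _ h with h1 | h1
    · left
      exact (inv_mul_eq_one.mp h1).symm
    · right
      rw [← h1]
      group
  · rintro (h | h)
    · rw [h, inv_mul_cancel]
      exact Subgroup.one_mem _
    · rw [h, inv_mul_cancel_left]
      exact negC_central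

theorem conj_negC (a : ↥Co0) : a * negC * a⁻¹ = negC := by
  rw [Subgroup.mem_center_iff.mp negC_central a, mul_inv_cancel_right]

end general

section monster

variable {G : Type*} [Group G] {z : G} {Q : Subgroup (Subgroup.centralizer ({z} : Set G))}
  [Q.Normal]

theorem psi_eq_iff {ψ : leechLattice → ↥Q ⧸ Subgroup.center ↥Q} (hL : LIso Q ψ)
    (w v : leechLattice) :
    ψ w = ψ v ↔ cls (w : GolayPt → ℤ) = cls (v : GolayPt → ℤ) := by
  rw [cls_eq_iff w.2 v.2]
  constructor
  · intro h
    have h1 : ψ (w + v) = 1 := by rw [hL.add, h, hL.psi_sq]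
    obtain ⟨u, hu⟩ := (hL.ker _).mp h1
    refine ⟨(u : GolayPt → ℤ) - (v : GolayPt → ℤ), sub_mem u.2 v.2, ?_⟩
    have h2 := congrArg (fun x : leechLattice => (x : GolayPt → ℤ)) hu
    simp only [AddSubgroup.coe_add] at h2
    rw [smul_sub, two_nsmul, two_nsmul, ← h2]
    abel
  · rintro ⟨y, hy, hwy⟩
    have h1 : w = v + ((⟨y, hy⟩ : leechLattice) + ⟨y, hy⟩) := by
      apply Subtype.ext
      simp only [AddSubgroup.coe_add]
      rw [← two_nsmul, ← hwy]
      abel
    rw [h1, hL.psi_congr]

/-- The bridge between the group and the lattice for a conjugate of `z` in `Q`. -/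
theorem bridge [Finite G] (hM : IsOfMonsterType z Q) (g : G)
    (hsQ : ∃ hsc : g * z * g⁻¹ ∈ Subgroup.centralizer ({z} : Set G),
      (⟨g * z * g⁻¹, hsc⟩ : Subgroup.centralizer ({z} : Set G)) ∈ Q)
    (hsz : g * z * g⁻¹ ≠ z) :
    ∃ (e : (Subgroup.centralizer ({z} : Set G)) ⧸ Q ≃* Spor.Co1) (a : ↥Co0),
      (∀ x : Spor.Co1, x ∈ ((((Q.map (Subgroup.centralizer ({z} : Set G)).subtype).map
          (MulAut.conj g).toMonoidHom).subgroupOf (Subgroup.centralizer ({z} : Set G))).map
          ((e : (Subgroup.centralizer ({z} : Set G)) ⧸ Q →* Spor.Co1).comp (QuotientGroup.mk' Q)))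
        ↔ ∃ c, ∃ hc : IsCW c, x = QuotientGroup.mk (a * eps c hc * a⁻¹)) ∧
      (∀ x : Spor.Co1, x ∈ (((Subgroup.centralizer ({z} : Set G) ⊓
          Subgroup.centralizer ({g * z * g⁻¹} : Set G)).subgroupOf
            (Subgroup.centralizer ({z} : Set G))).map
          ((e : (Subgroup.centralizer ({z} : Set G)) ⧸ Q →* Spor.Co1).comp (QuotientGroup.mk' Q)))
        ↔ ∃ k : ↥Co0, k • c0 = c0 ∧ x = QuotientGroup.mk (a * k * a⁻¹)) ∧
      Nat.card ↥(((Q.map (Subgroup.centralizer ({z} : Set G)).subtype).map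
          (MulAut.conj g).toMonoidHom) ⊓ Subgroup.centralizer ({z} : Set G)) = 2 ^ 24 ∧
      (∀ y ∈ (Q.map (Subgroup.centralizer ({z} : Set G)).subtype).map (MulAut.conj g).toMonoidHom,
        y * (g * z * g⁻¹) = (g * z * g⁻¹) * y) ∧
      (∀ h : G, h * (g * z * g⁻¹) = (g * z * g⁻¹) * h →
        ∀ y ∈ (Q.map (Subgroup.centralizer ({z} : Set G)).subtype).map
          (MulAut.conj g).toMonoidHom,
          h * y * h⁻¹ ∈ (Q.map (Subgroup.centralizer ({z} : Set G)).subtype).map
            (MulAut.conj g).toMonoidHom) ∧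
      Nat.card ↥((((Q.map (Subgroup.centralizer ({z} : Set G)).subtype).map
          (MulAut.conj g).toMonoidHom).subgroupOf (Subgroup.centralizer ({z} : Set G))).map
          ((e : (Subgroup.centralizer ({z} : Set G)) ⧸ Q →* Spor.Co1).comp
            (QuotientGroup.mk' Q))) = 2 ^ 11 := by
  obtain ⟨e, ψ, hψ⟩ := hM.2
  obtain ⟨hsc, hsQ'⟩ := hsQ
  obtain ⟨hsnc, v, hv64, hv⟩ := rep64_of_conj hM hψ g ⟨⟨g * z * g⁻¹, hsc⟩, hsQ'⟩ rfl hsz
  have hL : LIso Q ψ := liso_of_iso hM.1.2.2.1 hψ
  obtain ⟨hadd, hsurj, hker, hequiv⟩ := hψ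
  generalize hsdef : (⟨⟨g * z * g⁻¹, hsc⟩, hsQ'⟩ : Q) = s at hsnc hv
  have hs : ((s : Subgroup.centralizer ({z} : Set G)) : G) = g * z * g⁻¹ := by rw [← hsdef]
  -- the extraspecial data in `G`
  have hF : (generalizedFittingSubgroup ↥(Subgroup.centralizer ({z} : Set G))).map
      (Subgroup.centralizer ({z} : Set G)).subtype
      = Q.map (Subgroup.centralizer ({z} : Set G)).subtype := by rw [hM.1.2.1]
  have hQg : IsExtraspecial 2 ↥(Q.map (Subgroup.centralizer ({z} : Set G)).subtype) :=
    isExtraspecial_of_mulEquiv (Q.equivMapOfInjective _ (Subgroup.subtype_injective _))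
      hM.1.2.2.1
  have hS := Setup.of_gfs hM.1.1 hF hQg
  obtain ⟨z', hE0, hz'Z, -⟩ := exists_esd _ hQg hS.centralizer_eq hS.centralizer_le
  have hz' : z' = z := by
    rcases hS.center_cases hz'Z with h | h
    · exact absurd h hE0.z1
    · exact h
  rw [hz'] at hE0
  have hcardQg : Nat.card ↥(Q.map (Subgroup.centralizer ({z} : Set G)).subtype) = 2 ^ 25 := by
    rw [Subgroup.card_map_of_injective (Subgroup.subtype_injective _)]
    exact hM.1.2.2.2.1
  have hsQg : g * z * g⁻¹ ∈ Q.map (Subgroup.centralizer ({z} : Set G)).subtype :=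
    ⟨s.1, s.2, hs⟩
  have hE' := hE0.conj g
  have hzQ' := hE0.mem_conj_of_conj_mem (by rw [hcardQg]; norm_num) g hsQg hsz
  have hcardQ'g : Nat.card ↥((Q.map (Subgroup.centralizer ({z} : Set G)).subtype).map
      (MulAut.conj g).toMonoidHom) = 2 ^ 25 := by
    rw [Subgroup.card_map_of_injective (MulAut.conj g).injective]
    exact hcardQg
  generalize hQg_def : Q.map (Subgroup.centralizer ({z} : Set G)).subtype = Qg at *
  generalize hQ'g_def : Qg.map (MulAut.conj g).toMonoidHom = Q'g at *
  -- the 2-subgroup of the automorphism group induced by `Q'g ∩ C`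
  let φ : ↥(Subgroup.centralizer ({z} : Set G)) →* Spor.Co1 :=
    (e : (Subgroup.centralizer ({z} : Set G)) ⧸ Q →* Spor.Co1).comp (QuotientGroup.mk' Q)
  let π : ↥Co0 →* Spor.Co1 := QuotientGroup.mk' (Subgroup.center ↥Co0)
  let M : Subgroup ↥Co0 :=
    ((Q'g.subgroupOf (Subgroup.centralizer ({z} : Set G))).map φ).comap π
  have hMmem : ∀ g0 : ↥Co0, g0 ∈ M ↔ ∃ y : ↥(Subgroup.centralizer ({z} : Set G)),
      (y : G) ∈ Q'g ∧ e (QuotientGroup.mk y) = (QuotientGroup.mk g0 : Spor.Co1) :=
    fun g0 => Iff.rfl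
  have hMp : IsPGroup 2 M := by
    apply IsPGroup.comap_of_ker_isPGroup
    · apply IsPGroup.map
      apply IsPGroup.comap_of_injective _ _ (Subgroup.subtype_injective _)
      exact IsPGroup.of_card hcardQ'g
    · rw [QuotientGroup.ker_mk']
      exact IsPGroup.of_card (n := 1) (by rw [pow_one]; exact Cfsg.Agent.S0398.result)
  have hMψ : ∀ g0 ∈ M, ψ (g0 • v) = ψ v := by
    intro g0 hg0
    obtain ⟨y, hy, hyg⟩ := (hMmem g0).mp hg0
    have h1 := hequiv y g0 hyg.symm v s hv
    have hys : y * (s : ↥(Subgroup.centralizer ({z} : Set G))) * y⁻¹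
        = (s : ↥(Subgroup.centralizer ({z} : Set G))) := by
      apply Subtype.ext
      show (y : G) * ((s : ↥(Subgroup.centralizer ({z} : Set G))) : G) * (y : G)⁻¹
        = ((s : ↥(Subgroup.centralizer ({z} : Set G))) : G)
      rw [hs, hE'.zc (y : G) hy]
      group
    rw [h1, hv]
    congr 1
    exact Subtype.ext hys
  have hlift : ∀ k : ↥Co0, ψ (k • v) = ψ v → ∃ h : ↥(Subgroup.centralizer ({z} : Set G)),
      e (QuotientGroup.mk h) = (QuotientGroup.mk k : Spor.Co1) ∧
      (h : G) * (g * z * g⁻¹) = (g * z * g⁻¹) * (h : G) := by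
    intro k hk
    obtain ⟨h, hh⟩ := QuotientGroup.mk_surjective (e.symm (QuotientGroup.mk k))
    have hhk : e (QuotientGroup.mk h) = (QuotientGroup.mk k : Spor.Co1) := by
      rw [hh, MulEquiv.apply_symm_apply]
    have h1 := hequiv h k hhk.symm v s hv
    rw [hk, hv] at h1
    rcases hL.mk_eq h1 with h2 | h2
    · refine ⟨h, hhk, ?_⟩
      have h3 : (h : G) * ((s : ↥(Subgroup.centralizer ({z} : Set G))) : G) * (h : G)⁻¹
          = ((s : ↥(Subgroup.centralizer ({z} : Set G))) : G) :=
        congrArg (fun x : Q => ((x : ↥(Subgroup.centralizer ({z} : Set G))) : G)) h2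
      rw [hs] at h3
      have := congrArg (fun x => x * (h : G)) h3
      simpa [mul_assoc] using this
    · obtain ⟨q, hq⟩ := hL.exists_conj_c hsnc
      refine ⟨(q : ↥(Subgroup.centralizer ({z} : Set G)))⁻¹ * h, ?_, ?_⟩
      · rw [QuotientGroup.mk_mul, map_mul, hhk]
        have : (QuotientGroup.mk ((q : ↥(Subgroup.centralizer ({z} : Set G)))⁻¹) :
            (Subgroup.centralizer ({z} : Set G)) ⧸ Q) = 1 :=
          (QuotientGroup.eq_one_iff _).mpr (Q.inv_mem q.2)
        rw [this, map_one, one_mul]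
      · have h3 : (h : G) * ((s : ↥(Subgroup.centralizer ({z} : Set G))) : G) * (h : G)⁻¹
            = ((s : ↥(Subgroup.centralizer ({z} : Set G))) : G)
              * ((hL.c : ↥(Subgroup.centralizer ({z} : Set G))) : G) :=
          congrArg (fun x : Q => ((x : ↥(Subgroup.centralizer ({z} : Set G))) : G)) h2
        have h4 : ((q : ↥(Subgroup.centralizer ({z} : Set G))) : G)
            * ((s : ↥(Subgroup.centralizer ({z} : Set G))) : G)
            * ((q : ↥(Subgroup.centralizer ({z} : Set G))) : G)⁻¹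
            = ((s : ↥(Subgroup.centralizer ({z} : Set G))) : G)
              * ((hL.c : ↥(Subgroup.centralizer ({z} : Set G))) : G) :=
          congrArg (fun x : Q => ((x : ↥(Subgroup.centralizer ({z} : Set G))) : G)) hq
        rw [← h4, hs] at h3
        show ((q : ↥(Subgroup.centralizer ({z} : Set G))) : G)⁻¹ * (h : G) * (g * z * g⁻¹)
          = (g * z * g⁻¹) * (((q : ↥(Subgroup.centralizer ({z} : Set G))) : G)⁻¹ * (h : G))
        calc ((q : ↥(Subgroup.centralizer ({z} : Set G))) : G)⁻¹ * (h : G) * (g * z * g⁻¹)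
            = ((q : ↥(Subgroup.centralizer ({z} : Set G))) : G)⁻¹
                * ((h : G) * (g * z * g⁻¹) * (h : G)⁻¹) * (h : G) := by group
          _ = ((q : ↥(Subgroup.centralizer ({z} : Set G))) : G)⁻¹
                * (((q : ↥(Subgroup.centralizer ({z} : Set G))) : G) * (g * z * g⁻¹)
                  * ((q : ↥(Subgroup.centralizer ({z} : Set G))) : G)⁻¹) * (h : G) := by rw [h3]
          _ = (g * z * g⁻¹) * (((q : ↥(Subgroup.centralizer ({z} : Set G))) : G)⁻¹ * (h : G)) := by
              group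
  have hMnorm : ∀ k : ↥Co0, ψ (k • v) = ψ v → ∀ m ∈ M, k * m * k⁻¹ ∈ M := by
    intro k hk m hm
    obtain ⟨y, hy, hym⟩ := (hMmem m).mp hm
    obtain ⟨h, hhk, hhs⟩ := hlift k hk
    rw [hMmem]
    refine ⟨h * y * h⁻¹, hE'.norm (h : G) hhs (y : G) hy, ?_⟩
    rw [QuotientGroup.mk_mul, QuotientGroup.mk_mul, QuotientGroup.mk_inv, map_mul, map_mul,
      map_inv, hhk, hym]
    rfl
  have hnegM : negC ∈ M := by
    rw [hMmem]
    refine ⟨1, Q'g.one_mem, ?_⟩
    rw [QuotientGroup.mk_one, map_one]
    exact ((QuotientGroup.eq_one_iff negC).mpr negC_central).symm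
  -- transport to the standard frame
  have hvorb : cls (v : GolayPt → ℤ) ∈ MulAction.orbit ↥Co0 c0 := by
    rw [orbit_eq]
    exact ⟨(v : GolayPt → ℤ), mem_shell.mpr ⟨v.2, hv64⟩, rfl⟩
  obtain ⟨a, ha⟩ := hvorb
  have ha' : a • c0 = cls (v : GolayPt → ℤ) := ha
  have hstabv : ∀ k : ↥Co0, ψ (k • v) = ψ v ↔ (a⁻¹ * k * a) • c0 = c0 := by
    intro k
    rw [psi_eq_iff hL, ← smul_cls, ← ha', mul_smul, mul_smul, inv_smul_eq_iff]
  let M' : Subgroup ↥Co0 := M.map (MulAut.conj a⁻¹).toMonoidHom
  have hM'mem : ∀ m : ↥Co0, m ∈ M' ↔ a * m * a⁻¹ ∈ M := by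
    intro m
    have := Cfsg.Agent.Lib.Helper90.Basic.mem_map_conj_iff M a⁻¹ m
    rw [inv_inv] at this
    exact this
  have hM'p : IsPGroup 2 M' := hMp.map _
  have hM'stab : ∀ m ∈ M', m • c0 = c0 := by
    intro m hm
    have h1 := hMψ _ ((hM'mem m).mp hm)
    rw [hstabv] at h1
    have h2 : a⁻¹ * (a * m * a⁻¹) * a = m := by group
    rw [h2] at h1
    exact h1
  have hconjψ : ∀ k : ↥Co0, k • c0 = c0 → ψ ((a * k * a⁻¹) • v) = ψ v := by
    intro k hk
    rw [hstabv]
    have h2 : a⁻¹ * (a * k * a⁻¹) * a = k := by group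
    rw [h2]
    exact hk
  have hM'norm : ∀ k : ↥Co0, k • c0 = c0 → ∀ m ∈ M', k * m * k⁻¹ ∈ M' := by
    intro k hk m hm
    rw [hM'mem] at hm ⊢
    have h3 := hMnorm _ (hconjψ k hk) _ hm
    have h4 : a * k * a⁻¹ * (a * m * a⁻¹) * (a * k * a⁻¹)⁻¹ = a * (k * m * k⁻¹) * a⁻¹ := by
      group
    rw [h4] at h3
    exact h3
  have hnegM' : negC ∈ M' := by
    rw [hM'mem, conj_negC]
    exact hnegM
  have hback : ∀ m ∈ M, a⁻¹ * m * a ∈ M' := by
    intro m hm
    rw [hM'mem]
    have : a * (a⁻¹ * m * a) * a⁻¹ = m := by group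
    rw [this]
    exact hm
  rcases normal_two hM'p hM'stab hM'norm hnegM' with hcase | hcase
  · exfalso
    have hMtriv : ∀ m ∈ M, (QuotientGroup.mk m : Spor.Co1) = 1 := by
      intro m hm
      have h5 : a * (a⁻¹ * m * a) * a⁻¹ = m := by group
      rcases hcase _ (hback m hm) with h2 | h2
      · have : m = 1 := by
          rw [← h5, h2]
          group
        rw [this]
        rfl
      · have : m = negC := by
          rw [← h5, h2, conj_negC]
        rw [this]
        exact (QuotientGroup.eq_one_iff negC).mpr negC_central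
    obtain ⟨a1, ha1, a2, ha2, ha1z, ha2z, hne⟩ := exists_noncomm hE'
      (by rw [hcardQ'g]; norm_num) hzQ' (z_ne_one hM) (Ne.symm hsz) (z_sq hM)
    have hP : ∀ y : G, y ∈ Q'g → y * z = z * y → y ∈ Qg := by
      intro y hy hyz
      have hyC : y ∈ Subgroup.centralizer ({z} : Set G) := by
        rw [Subgroup.mem_centralizer_iff]
        intro a ha
        rw [Set.mem_singleton_iff] at ha
        rw [ha]
        exact hyz.symm
      obtain ⟨g0, hg0⟩ := QuotientGroup.mk_surjective
        (e (QuotientGroup.mk (⟨y, hyC⟩ : ↥(Subgroup.centralizer ({z} : Set G)))))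
      have hg0M : g0 ∈ M := (hMmem g0).mpr ⟨⟨y, hyC⟩, hy, hg0.symm⟩
      have hone := hMtriv g0 hg0M
      rw [hone] at hg0
      have h3 : (QuotientGroup.mk (⟨y, hyC⟩ : ↥(Subgroup.centralizer ({z} : Set G))) :
          (Subgroup.centralizer ({z} : Set G)) ⧸ Q) = 1 := by
        have := congrArg e.symm hg0.symm
        simpa using this
      rw [← hQg_def]
      exact ⟨⟨y, hyC⟩, (QuotientGroup.eq_one_iff _).mp h3, rfl⟩
    have h1 := hP a1 ha1 ha1z
    have h2 := hP a2 ha2 ha2z
    have hcomm1 : a1 * a2 * a1⁻¹ * a2⁻¹ = 1 := by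
      rcases hE0.comm a1 h1 a2 h2 with h | h
      · exact h
      · rcases hE'.comm a1 ha1 a2 ha2 with h' | h'
        · exact h'
        · exfalso
          rw [h] at h'
          exact hsz h'.symm
    apply hne
    have := congrArg (fun x => x * a2 * a1) hcomm1
    simpa [mul_assoc] using this
  · have hMeps : ∀ m : ↥Co0, m ∈ M ↔ ∃ c, ∃ hc : IsCW c, m = a * eps c hc * a⁻¹ := by
      intro m
      constructor
      · intro hm
        obtain ⟨c, hc, h2⟩ := (hcase _).mp (hback m hm)
        refine ⟨c, hc, ?_⟩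
        rw [← h2]
        group
      · rintro ⟨c, hc, rfl⟩
        exact (hM'mem _).mp ((hcase _).mpr ⟨c, hc, rfl⟩)
    refine ⟨e, a, ?_, ?_, ?_, ?_, ?_, ?_⟩
    · intro x
      constructor
      · intro hx
        obtain ⟨g0, rfl⟩ := QuotientGroup.mk_surjective x
        have hg0 : g0 ∈ M := hx
        obtain ⟨c, hc, h⟩ := (hMeps g0).mp hg0
        exact ⟨c, hc, by rw [h]⟩
      · rintro ⟨c, hc, rfl⟩
        have : a * eps c hc * a⁻¹ ∈ M := (hMeps _).mpr ⟨c, hc, rfl⟩
        exact this
    · intro x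
      constructor
      · rintro ⟨h, hh, rfl⟩
        obtain ⟨k0, hk0⟩ := QuotientGroup.mk_surjective (φ h)
        have hhs : (h : G) * (g * z * g⁻¹) = (g * z * g⁻¹) * (h : G) :=
          (Subgroup.mem_centralizer_iff.mp hh.2 (g * z * g⁻¹) (Set.mem_singleton _)).symm
        have h1 := hequiv h k0 hk0 v s hv
        have hys : h * (s : ↥(Subgroup.centralizer ({z} : Set G))) * h⁻¹
            = (s : ↥(Subgroup.centralizer ({z} : Set G))) := by
          apply Subtype.ext
          show (h : G) * ((s : ↥(Subgroup.centralizer ({z} : Set G))) : G) * (h : G)⁻¹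
            = ((s : ↥(Subgroup.centralizer ({z} : Set G))) : G)
          rw [hs, hhs]
          group
        have h2 : ψ (k0 • v) = ψ v := by
          rw [h1, hv]
          congr 1
          exact Subtype.ext hys
        refine ⟨a⁻¹ * k0 * a, (hstabv k0).mp h2, ?_⟩
        have : a * (a⁻¹ * k0 * a) * a⁻¹ = k0 := by group
        rw [this]
        exact hk0.symm
      · rintro ⟨k, hk, rfl⟩
        obtain ⟨h, hhk, hhs⟩ := hlift _ (hconjψ k hk)
        refine ⟨h, ⟨h.2, ?_⟩, hhk⟩
        show (h : G) ∈ Subgroup.centralizer ({g * z * g⁻¹} : Set G)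
        rw [Subgroup.mem_centralizer_iff]
        intro y hy
        rw [Set.mem_singleton_iff] at hy
        rw [hy]
        exact hhs.symm
    · obtain ⟨t, ht, htz⟩ := hE'.exists_conj hzQ' (z_ne_one hM) (Ne.symm hsz)
      have hrel : (Subgroup.centralizer ({z} : Set G)).relIndex Q'g = 2 := by
        rw [Subgroup.relIndex_eq_two_iff]
        refine ⟨t, ht, fun b hb => ?_⟩
        have hmemC : ∀ y : G, y ∈ Subgroup.centralizer ({z} : Set G) ↔ y * z = z * y := by
          intro y
          rw [Subgroup.mem_centralizer_iff]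
          constructor
          · intro h
            exact (h z (Set.mem_singleton z)).symm
          · intro h w hw
            rw [Set.mem_singleton_iff] at hw
            rw [hw]
            exact h.symm
        rw [hmemC, hmemC]
        have hnot : ¬ (b * z = z * b ∧ b * t * z = z * (b * t)) := by
          rintro ⟨h1, h2⟩
          have h3 : t * z = z * t := by
            have h4 : b * (t * z) = b * (z * t) := by
              rw [← mul_assoc, h2, ← mul_assoc, ← h1, mul_assoc]
            exact mul_left_cancel h4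
          rw [h3, mul_inv_cancel_right] at htz
          apply hE'.z1
          have := congrArg (fun x => x * z⁻¹) htz
          simpa using this.symm
        rcases hE'.comm_or hzQ' htz hb with h | h
        · right
          exact ⟨h, fun h' => hnot ⟨h, h'⟩⟩
        · left
          exact ⟨h, fun h' => hnot ⟨h', h⟩⟩
      have := card_inf_of_relIndex _ _ hrel
      rw [hcardQ'g] at this
      omega
    · exact fun y hy => hE'.zc y hy
    · exact fun h hh y hy => hE'.norm h hh y hy
    · have hcardM : Nat.card M = 4096 := card_eps_conj a hMeps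
      have h1 := card_inf_ker_mul π M
      have h2 : M.map π = (Q'g.subgroupOf (Subgroup.centralizer ({z} : Set G))).map φ :=
        Subgroup.map_comap_eq_self_of_surjective (QuotientGroup.mk'_surjective _) _
      have h3 : π.ker ⊓ M = π.ker := inf_eq_left.mpr (Subgroup.ker_le_comap π _)
      have h4 : Nat.card π.ker = 2 := by
        rw [QuotientGroup.ker_mk']
        exact Cfsg.Agent.S0398.result
      rw [h2, h3, h4, hcardM] at h1
      show Nat.card ↥((Q'g.subgroupOf (Subgroup.centralizer ({z} : Set G))).map φ) = 2 ^ 11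
      omega

/-- The intersection of `Q` with a conjugate of `Q` containing a conjugate of `z` in `Q` other
than `z` has order `2 ^ 13`. -/
theorem meet_card [Finite G] (hM : IsOfMonsterType z Q) (g : G)
    (hsQ : ∃ hsc : g * z * g⁻¹ ∈ Subgroup.centralizer ({z} : Set G),
      (⟨g * z * g⁻¹, hsc⟩ : Subgroup.centralizer ({z} : Set G)) ∈ Q)
    (hsz : g * z * g⁻¹ ≠ z) :
    Nat.card ↥((Q.map (Subgroup.centralizer ({z} : Set G)).subtype) ⊓
      (Q.map (Subgroup.centralizer ({z} : Set G)).subtype).map (MulAut.conj g).toMonoidHom)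
      = 2 ^ 13 := by
  obtain ⟨e, a, -, -, h3, -, -, h6⟩ := bridge hM g hsQ hsz
  generalize hQ'g_def : (Q.map (Subgroup.centralizer ({z} : Set G)).subtype).map
    (MulAut.conj g).toMonoidHom = Q'g at *
  have h1 := card_inf_ker_mul ((e : (Subgroup.centralizer ({z} : Set G)) ⧸ Q →* Spor.Co1).comp
    (QuotientGroup.mk' Q)) (Q'g.subgroupOf (Subgroup.centralizer ({z} : Set G)))
  rw [h6, card_subgroupOf Q'g, h3] at h1
  have hker : ((e : (Subgroup.centralizer ({z} : Set G)) ⧸ Q →* Spor.Co1).comp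
      (QuotientGroup.mk' Q)).ker = Q := by
    ext y
    rw [MonoidHom.mem_ker]
    show e (QuotientGroup.mk y) = 1 ↔ y ∈ Q
    rw [EmbeddingLike.map_eq_one_iff, QuotientGroup.eq_one_iff]
  rw [hker] at h1
  have h2 : (Q ⊓ Q'g.subgroupOf (Subgroup.centralizer ({z} : Set G))).map
      (Subgroup.centralizer ({z} : Set G)).subtype
      = Q.map (Subgroup.centralizer ({z} : Set G)).subtype ⊓ Q'g := by
    ext y
    constructor
    · rintro ⟨x, ⟨hx1, hx2⟩, rfl⟩
      exact ⟨⟨x, hx1, rfl⟩, hx2⟩
    · rintro ⟨⟨x, hx1, rfl⟩, hx2⟩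
      exact ⟨x, ⟨hx1, hx2⟩, rfl⟩
  rw [← h2, Subgroup.card_map_of_injective (Subgroup.subtype_injective _)]
  have h4 : (2 : ℕ) ^ 24 = 2 ^ 13 * 2 ^ 11 := by norm_num
  rw [h4] at h1
  exact Nat.eq_of_mul_eq_mul_right (by norm_num) h1

end monster

end Cfsg.Agent.Lib.Helper92.MonMeet
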