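import Mathlib
import Cfsg.Prelude.Def_MonsterType
import Cfsg.Agent.Lib.Helper92.O2Co2
import Cfsg.Agent.Lib.Helper92.MonMeet

/-!
Lattice-side facts for the passage from Monster type to Baby Monster type: automorphisms of the
rank-24 lattice acting trivially modulo doubles are `±1`; the stabiliser of a minimal vector acts
faithfully on the vectors orthogonal to it modulo 2, taken modulo the vector; and the squaring
and commutator maps of `Q` in terms of the lattice.
-/

set_option autoImplicit false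

namespace Cfsg.Agent.Lib.Helper92.MonBaby1

open Cfsg Cfsg.Agent.Lib.Helper92.LeechCore Cfsg.Agent.Lib.Helper92.ActQ
open Cfsg.Agent.Lib.Helper92.MonQ Cfsg.Agent.Lib.Helper92.MonLat
open Cfsg.Agent.Lib.Helper92.MonVec Cfsg.Agent.Lib.Helper92.O2Co2
open Cfsg.Agent.Lib.Helper92.MonExcl Cfsg.Agent.Lib.Helper92.MonConj
open Cfsg.Agent.Lib.Helper92.Conway Cfsg.Agent.Lib.Helper92.Frames
open Cfsg.Agent.Lib.Helper92.Pairs
open Cfsg.Agent.S0398

/-! ### Automorphisms trivial modulo doubles -/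

/-- An automorphism acting trivially modulo doubles. -/
def TrivMod (g : ↥Co0) : Prop := ∀ v : leechLattice, ∃ w : leechLattice, g • v = v + (w + w)

theorem triv_one : TrivMod 1 := fun v => ⟨0, by rw [one_smul, add_zero, add_zero]⟩

theorem triv_mul {g h : ↥Co0} (hg : TrivMod g) (hh : TrivMod h) : TrivMod (g * h) := by
  intro v
  obtain ⟨w, hw⟩ := hh v
  obtain ⟨w', hw'⟩ := hg v
  obtain ⟨w'', hw''⟩ := hg w
  refine ⟨w' + w + (w'' + w''), ?_⟩
  rw [mul_smul, hw, smul_add', smul_add', hw', hw'']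
  abel

theorem triv_inv {g : ↥Co0} (hg : TrivMod g) : TrivMod g⁻¹ := by
  intro v
  obtain ⟨w, hw⟩ := hg (g⁻¹ • v)
  rw [smul_inv_smul] at hw
  refine ⟨-w, ?_⟩
  generalize g⁻¹ • v = u at hw
  subst hw
  abel

theorem triv_conj {g : ↥Co0} (hg : TrivMod g) (k : ↥Co0) : TrivMod (k * g * k⁻¹) := by
  intro v
  obtain ⟨w, hw⟩ := hg (k⁻¹ • v)
  refine ⟨k • w, ?_⟩
  rw [mul_smul, mul_smul, hw, smul_add', smul_add', smul_inv_smul]

theorem triv_negC : TrivMod negC := by
  intro v
  refine ⟨-v, ?_⟩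
  rw [negC_smul]
  abel

theorem triv_pm {g : ↥Co0} (hg : TrivMod g) (w : leechLattice)
    (hw : sqNorm (w : GolayPt → ℤ) = 32) : g • w = w ∨ g • w = -w := by
  apply pm_of_cls g w hw
  rw [smul_cls, cls_eq_iff (g • w).2 w.2]
  obtain ⟨u, hu⟩ := hg w
  refine ⟨(u : GolayPt → ℤ), u.2, ?_⟩
  rw [hu, AddSubgroup.coe_add, AddSubgroup.coe_add, two_nsmul]
  abel

open Cfsg.Agent.S5546 in
theorem elat_eq (p q : GolayPt) (hpq : p ≠ q) :
    elat p = (⟨mvec 1 p q, mvec_mem 1 (Or.inl rfl) p q hpq⟩ : leechLattice)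
      + ⟨mvec (-1) p q, mvec_mem (-1) (Or.inr rfl) p q hpq⟩ := by
  apply Subtype.ext
  funext r
  show evec p r = mvec 1 p q r + mvec (-1) p q r
  unfold evec mvec
  split_ifs <;> norm_num

open Cfsg.Agent.S5546 in
theorem triv_sq {g : ↥Co0} (hg : TrivMod g) : g * g = 1 := by
  apply fix_all
  intro p
  obtain ⟨q, hq⟩ := exists_ne p
  have hpq : p ≠ q := hq.symm
  have key : ∀ w : leechLattice, sqNorm (w : GolayPt → ℤ) = 32 → (g * g) • w = w := by
    intro w hw
    rw [mul_smul]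
    rcases triv_pm hg w hw with h | h
    · rw [h, h]
    · rw [h, smul_neg', h, neg_neg]
  rw [elat_eq p q hpq, smul_add', key _ (mvec_sq 1 (Or.inl rfl) p q hpq),
    key _ (mvec_sq (-1) (Or.inr rfl) p q hpq)]

theorem triv_fix {g : ↥Co0} (hg : TrivMod g) (hv : g • V0 = V0) : g = 1 := by
  let M : Subgroup ↥Co0 :=
    { carrier := {m | TrivMod m ∧ m • V0 = V0}
      one_mem' := ⟨triv_one, one_smul _ _⟩
      mul_mem' := fun {a b} ha hb => ⟨triv_mul ha.1 hb.1, by rw [mul_smul, hb.2, ha.2]⟩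
      inv_mem' := fun {a} ha => ⟨triv_inv ha.1, by rw [inv_smul_eq_iff, ha.2]⟩ }
  have hMp : IsPGroup 2 M := by
    intro m
    refine ⟨1, ?_⟩
    have h1 : (m : ↥Co0) * (m : ↥Co0) = 1 := triv_sq m.2.1
    have h2 : m * m = 1 := Subtype.ext h1
    rw [pow_one, pow_two, h2]
  exact O2_stab V0 V0_norm M hMp (fun m hm => hm.2) (fun k hk m hm => ⟨triv_conj hm.1 k, by
    rw [mul_smul, mul_smul, inv_smul_eq_iff.mpr hk.symm, hm.2, hk]⟩) g ⟨hg, hv⟩

/-- An automorphism acting trivially modulo doubles is the identity or negation. -/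
theorem triv_cases {g : ↥Co0} (hg : TrivMod g) : g = 1 ∨ g = negC := by
  rcases triv_pm hg V0 V0_norm with h | h
  · exact Or.inl (triv_fix hg h)
  · right
    have h1 : (negC * g) • V0 = V0 := by rw [mul_smul, h, negC_smul, neg_neg]
    have h2 := triv_fix (triv_mul triv_negC hg) h1
    have h3 : negC * negC = 1 := triv_sq triv_negC
    calc g = negC * negC * g := by rw [h3, one_mul]
      _ = negC * (negC * g) := mul_assoc _ _ _
      _ = negC := by rw [h2, mul_one]

theorem ne_neg_of_norm (v : leechLattice) (hv : sqNorm (v : GolayPt → ℤ) = 32) : -v ≠ v := by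
  intro h
  have h1 : (v : GolayPt → ℤ) = 0 := by
    funext i
    have h2 := congrFun (congrArg (fun x : leechLattice => (x : GolayPt → ℤ)) h) i
    simp only [AddSubgroup.coe_neg, Pi.neg_apply] at h2
    show (v : GolayPt → ℤ) i = 0
    omega
  rw [h1, sqNorm_zero_fun] at hv
  norm_num at hv

/-! ### Faithfulness of the stabiliser of a minimal vector on the orthogonal section -/

open Cfsg.Agent.S5546 in
theorem smul_zsmul' (g : ↥Co0) (k : ℤ) (v : leechLattice) : g • (k • v) = k • (g • v) :=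
  map_zsmul (addHom g.1 g.2) k v

/-- The automorphisms fixing `v0` and acting trivially on the vectors orthogonal to `v0` modulo 2,
taken modulo `v0` and doubles. -/
def ActSub (v0 : leechLattice) : Subgroup ↥Co0 where
  carrier := {m | m • v0 = v0 ∧ ∀ v : leechLattice,
      (16 : ℤ) ∣ dotInt (v : GolayPt → ℤ) (v0 : GolayPt → ℤ) →
      ∃ (k : ℤ) (w : leechLattice), m • v = v + k • v0 + (w + w)}
  one_mem' := ⟨one_smul _ _, fun v _ => ⟨0, 0, by rw [one_smul, zero_smul, add_zero, add_zero,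
    add_zero]⟩⟩
  mul_mem' := by
    rintro a b ⟨ha1, ha2⟩ ⟨hb1, hb2⟩
    refine ⟨by rw [mul_smul, hb1, ha1], fun v hv => ?_⟩
    obtain ⟨k, w, e⟩ := hb2 v hv
    obtain ⟨k', w', e'⟩ := ha2 v hv
    refine ⟨k' + k, w' + a • w, ?_⟩
    rw [mul_smul, e, smul_add', smul_add', smul_add', smul_zsmul', ha1, e', add_smul]
    abel
  inv_mem' := by
    rintro a ⟨ha1, ha2⟩
    have h1 : a⁻¹ • v0 = v0 := by rw [inv_smul_eq_iff, ha1]
    refine ⟨h1, fun v hv => ?_⟩
    have hd : (16 : ℤ) ∣ dotInt ((a⁻¹ • v : leechLattice) : GolayPt → ℤ) (v0 : GolayPt → ℤ) := by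
      have := dot_smul a⁻¹ v v0
      rw [h1] at this
      rw [this]
      exact hv
    obtain ⟨k, w, e⟩ := ha2 _ hd
    rw [smul_inv_smul] at e
    refine ⟨-k, -w, ?_⟩
    generalize a⁻¹ • v = u at e
    subst e
    rw [neg_smul]
    abel

/-- The stabiliser of a minimal vector acts faithfully on the orthogonal section. -/
theorem faithful (v0 : leechLattice) (hv0 : sqNorm (v0 : GolayPt → ℤ) = 32) (m : ↥Co0)
    (hm : m • v0 = v0)
    (hact : ∀ v : leechLattice, (16 : ℤ) ∣ dotInt (v : GolayPt → ℤ) (v0 : GolayPt → ℤ) →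
      ∃ (k : ℤ) (w : leechLattice), m • v = v + k • v0 + (w + w)) : m = 1 := by
  have hM4 : ∀ a ∈ ActSub v0, (a * a) * (a * a) = 1 := by
    intro a ha
    obtain ⟨ha1, ha2⟩ := ha
    have h2 : ∀ v : leechLattice, ∃ (k : ℤ) (w : leechLattice),
        (a * a) • v = v + k • v0 + (w + w) := by
      intro v
      have hd : (16 : ℤ) ∣ dotInt ((a • v - v : leechLattice) : GolayPt → ℤ)
          (v0 : GolayPt → ℤ) := by
        have h := dot_smul a v v0
        rw [ha1] at h
        rw [AddSubgroup.coe_sub, Cfsg.Agent.S5546.dot_sub, h, sub_self]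
        exact dvd_zero _
      obtain ⟨k, w, e⟩ := ha2 _ hd
      refine ⟨k, w + (a • v - v), ?_⟩
      have e2 : a • (a • v) = a • v + (a • (a • v - v)) := by
        rw [smul_sub']
        abel
      rw [mul_smul, e2, e]
      abel
    have hfix : (a * a) • v0 = v0 := by rw [mul_smul, ha1, ha1]
    have h4 : TrivMod ((a * a) * (a * a)) := by
      intro v
      obtain ⟨k, w, e⟩ := h2 v
      refine ⟨k • v0 + w + (a * a) • w, ?_⟩
      rw [mul_smul, e, smul_add', smul_add', smul_add', smul_zsmul', hfix, e]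
      abel
    rcases triv_cases h4 with h | h
    · exact h
    · exfalso
      have hfix4 : ((a * a) * (a * a)) • v0 = v0 := by rw [mul_smul, hfix, hfix]
      rw [h, negC_smul] at hfix4
      exact ne_neg_of_norm v0 hv0 hfix4
  have hMp : IsPGroup 2 (ActSub v0) := by
    intro a
    refine ⟨2, ?_⟩
    apply Subtype.ext
    have h := hM4 a.1 a.2
    show ((a ^ 4 : ↥(ActSub v0)) : ↥Co0) = 1
    rw [Subgroup.coe_pow]
    have e : (a : ↥Co0) ^ 4 = (a.1 * a.1) * (a.1 * a.1) := by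
      rw [pow_succ, pow_succ, pow_succ, pow_one, mul_assoc]
    rw [e]
    exact h
  have hnorm : ∀ k : ↥Co0, k • v0 = v0 → ∀ a ∈ ActSub v0, k * a * k⁻¹ ∈ ActSub v0 := by
    intro k hk a ha
    obtain ⟨ha1, ha2⟩ := ha
    have hk' : k⁻¹ • v0 = v0 := by rw [inv_smul_eq_iff, hk]
    refine ⟨by rw [mul_smul, mul_smul, hk', ha1, hk], fun v hv => ?_⟩
    have hd : (16 : ℤ) ∣ dotInt ((k⁻¹ • v : leechLattice) : GolayPt → ℤ) (v0 : GolayPt → ℤ) := by
      have := dot_smul k⁻¹ v v0
      rw [hk'] at this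
      rw [this]
      exact hv
    obtain ⟨j, w, e⟩ := ha2 _ hd
    refine ⟨j, k • w, ?_⟩
    rw [mul_smul, mul_smul, e, smul_add', smul_add', smul_add', smul_zsmul', hk, smul_inv_smul]
  exact O2_stab v0 hv0 (ActSub v0) hMp (fun a ha => ha.1) hnorm m ⟨hm, hact⟩

/-! ### The squaring map and the commutator pairing in terms of the lattice -/

section liso

variable {C : Type*} [Group C] {Q : Subgroup C} [Q.Normal]
  {ψ : leechLattice → ↥Q ⧸ Subgroup.center ↥Q}

theorem S_zero (hL : LIso Q ψ) : S ψ 0 = 1 := by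
  unfold S
  apply hL.sq_of_mem
  rw [← QuotientGroup.eq_one_iff, mk_lft, hL.psi_zero]

theorem dot_two_smul (y u : GolayPt → ℤ) : dotInt y (2 • u) = 2 * dotInt y u := by
  unfold dotInt
  rw [Finset.mul_sum]
  apply Finset.sum_congr rfl
  intro i _
  simp only [Pi.smul_apply, nsmul_eq_mul, Nat.cast_ofNat]
  ring

/-- The square of a lift of the image of `v` is trivial exactly when the sum of squares of `v`
is divisible by 32. -/
theorem S_eq_one_iff (hL : LIso Q ψ) (hcard : Nat.card Q ≠ 2) (v : leechLattice) :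
    S ψ v = 1 ↔ (32 : ℤ) ∣ sqNorm (v : GolayPt → ℤ) := by
  rcases short_rep v with ⟨w, hw⟩ | ⟨y, u, e, hn⟩
  · have h1 : S ψ v = 1 := by
      have : v = 0 + (w + w) := by rw [zero_add]; exact hw
      rw [this, hL.S_congr, S_zero hL]
    have h2 : (32 : ℤ) ∣ sqNorm (v : GolayPt → ℤ) := by
      rw [hw, AddSubgroup.coe_add, ← two_nsmul, sqNorm_two_smul]
      obtain ⟨k, hk⟩ := sqNorm_dvd16 w.2
      rw [hk]
      exact ⟨2 * k, by ring⟩
    exact ⟨fun _ => h2, fun _ => h1⟩
  · have h1 : S ψ v = S ψ y := by rw [e, hL.S_congr]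
    have h2 : ∃ j : ℤ, sqNorm (v : GolayPt → ℤ) = sqNorm (y : GolayPt → ℤ) + 32 * j := by
      rw [e, AddSubgroup.coe_add, AddSubgroup.coe_add, ← two_nsmul, LeechCore.sqNorm_add,
        sqNorm_two_smul, dot_two_smul]
      obtain ⟨k, hk⟩ := sqNorm_dvd16 u.2
      obtain ⟨l, hl⟩ := dot_dvd8 y.2 u.2
      rw [hk, hl]
      exact ⟨l + 2 * k, by ring⟩
    obtain ⟨j, hj⟩ := h2
    rw [h1, hj]
    rcases hn with hn | hn | hn
    · rw [hn]
      exact ⟨fun _ => ⟨1 + j, by ring⟩, fun _ => S_32 hL y hn⟩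
    · rw [hn]
      constructor
      · intro h
        exact absurd h (S_48 hL hcard y hn)
      · rintro ⟨k, hk⟩
        omega
    · rw [hn]
      exact ⟨fun _ => ⟨2 + j, by ring⟩, fun _ => S_64 hL y hn⟩

/-- The commutator of lifts is trivial exactly when the inner product is divisible by 16. -/
theorem K_eq_one_iff (hL : LIso Q ψ) (hcard : Nat.card Q ≠ 2) (v w : leechLattice) :
    K ψ w v = 1 ↔ (16 : ℤ) ∣ dotInt (v : GolayPt → ℤ) (w : GolayPt → ℤ) := by
  have hadd := hL.S_add v w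
  have hn : sqNorm ((v + w : leechLattice) : GolayPt → ℤ)
      = sqNorm (v : GolayPt → ℤ) + 2 * dotInt (v : GolayPt → ℤ) (w : GolayPt → ℤ)
        + sqNorm (w : GolayPt → ℤ) := by
    rw [AddSubgroup.coe_add, LeechCore.sqNorm_add]
  have h1 := S_eq_one_iff hL hcard v
  have h2 := S_eq_one_iff hL hcard w
  have h3 := S_eq_one_iff hL hcard (v + w)
  rw [hn] at h3
  obtain ⟨a, ha⟩ := sqNorm_dvd16 v.2
  obtain ⟨b, hb⟩ := sqNorm_dvd16 w.2
  obtain ⟨d, hd⟩ := dot_dvd8 v.2 w.2
  rw [ha, hb, hd] at h3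
  rw [ha] at h1
  rw [hb] at h2
  rw [hd]
  have hc := hL.c_ne
  have hcc := hL.c_sq
  rcases hL.cases (hL.S_mem v) with e1 | e1 <;> rcases hL.cases (hL.S_mem w) with e2 | e2 <;>
    rcases hL.cases (hL.K_mem w v) with e3 | e3 <;>
    · rw [e1] at h1 hadd
      rw [e2] at h2 hadd
      rw [e3] at hadd ⊢
      rw [hadd] at h3
      simp only [one_mul, mul_one, hcc, hc, true_iff, false_iff] at h1 h2 h3 ⊢
      omega

theorem comm_mul_central {H : Type*} [Group H] {c : H} (hc : ∀ q : H, q * c = c * q) (x y : H) :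
    (x * c) * y = y * (x * c) ↔ x * y = y * x := by
  have e1 : (x * c) * y = (x * y) * c := by rw [mul_assoc, ← hc y, ← mul_assoc]
  have e2 : y * (x * c) = (y * x) * c := by rw [mul_assoc]
  rw [e1, e2, mul_left_inj]

/-- Lifts of the images of `v` and `w` commute exactly when the inner product is divisible
by 16. -/
theorem comm_iff (hL : LIso Q ψ) (hcard : Nat.card Q ≠ 2) {v w : leechLattice} {x y : Q}
    (hx : ψ v = QuotientGroup.mk x) (hy : ψ w = QuotientGroup.mk y) :
    x * y = y * x ↔ (16 : ℤ) ∣ dotInt (v : GolayPt → ℤ) (w : GolayPt → ℤ) := by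
  have hx' : (QuotientGroup.mk (lft ψ v) : ↥Q ⧸ Subgroup.center ↥Q) = QuotientGroup.mk x := by
    rw [mk_lft, hx]
  have hy' : (QuotientGroup.mk (lft ψ w) : ↥Q ⧸ Subgroup.center ↥Q) = QuotientGroup.mk y := by
    rw [mk_lft, hy]
  have hc := hL.c_comm
  have key : x * y = y * x ↔ lft ψ v * lft ψ w = lft ψ w * lft ψ v := by
    rcases hL.mk_eq hx' with h3 | h3 <;> rcases hL.mk_eq hy' with h4 | h4 <;> rw [h3, h4]
    · rw [eq_comm, comm_mul_central hc, eq_comm]
    · rw [comm_mul_central hc]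
    · rw [comm_mul_central hc, eq_comm, comm_mul_central hc, eq_comm]
  rw [key, ← K_eq_one_iff hL hcard v w]
  constructor
  · intro h
    exact kap_of_comm h.symm
  · intro h
    exact (kap_eq_one h).symm

end liso

end Cfsg.Agent.Lib.Helper92.MonBaby1
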