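import Mathlib
import Cfsg.Prelude.Def_MonsterType
import Cfsg.Agent.Lib.Helper92.MonBaby1
import Cfsg.Agent.Lib.Helper92.MonBridge2
import Cfsg.Agent.S5411

/-!
Groups of Monster type: the involutions `t` of `Q` not conjugate to `z`. Such a `t` lies in a
conjugate of `Q` containing `z`; the elements of `C_G(z)` acting trivially on `C_Q(t)` modulo
`⟨t, z⟩` lie in `Q`; and `C_G(z) ∩ C_G(t)` maps onto the stabiliser of a minimal vector.
-/

set_option autoImplicit false

namespace Cfsg.Agent.Lib.Helper92.MonBaby2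

open Cfsg Cfsg.Agent.Lib.Helper92.LeechCore Cfsg.Agent.Lib.Helper92.ActQ
open Cfsg.Agent.Lib.Helper92.MonQ Cfsg.Agent.Lib.Helper92.MonLat
open Cfsg.Agent.Lib.Helper92.MonVec Cfsg.Agent.Lib.Helper92.O2Co2
open Cfsg.Agent.Lib.Helper92.MonExcl Cfsg.Agent.Lib.Helper92.MonConj
open Cfsg.Agent.Lib.Helper92.NormalMono Cfsg.Agent.Lib.Helper92.MinVec
open Cfsg.Agent.Lib.Helper92.Conway Cfsg.Agent.Lib.Helper92.Shells
open Cfsg.Agent.Lib.Helper92.MonMeet Cfsg.Agent.Lib.Helper92.MonBridge2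
open Cfsg.Agent.Lib.Helper92.MonBaby1 Cfsg.Agent.Lib.Helper92.Frames
open Cfsg.Agent.Lib.Helper92.Pairs Cfsg.Agent.Lib.Helper92.Co0Orbit
open Cfsg.Agent.Lib.Helper90.ESData Cfsg.Agent.Lib.Helper90.FStarES
open Cfsg.Agent.Lib.Helper7.GolayBase Cfsg.Agent.Lib.Helper7.GolayCode
open Cfsg.Agent.S0398 Cfsg.Agent.S5546

/-! ### The second Conway group inside the automorphism group -/

theorem Co2_le : Spor.Co2 ≤ Co0 := fun _ hx => hx.1

/-- The inclusion of the stabiliser of `u` into the automorphism group. -/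
noncomputable def incl : ↥Spor.Co2 →* ↥Co0 := Subgroup.inclusion Co2_le

theorem incl_smul (k : ↥Spor.Co2) (v : leechLattice) : incl k • v = k • v := rfl

theorem incl_fix (k : ↥Spor.Co2) : incl k • Spor.leechU = Spor.leechU := k.2.2

theorem incl_inj : Function.Injective incl := Subgroup.inclusion_injective Co2_le

/-- An automorphism fixing `u`, as an element of the stabiliser. -/
def toCo2 (k : ↥Co0) (hk : k • Spor.leechU = Spor.leechU) : ↥Spor.Co2 := ⟨k.1, ⟨k.2, hk⟩⟩

theorem incl_toCo2 (k : ↥Co0) (hk : k • Spor.leechU = Spor.leechU) : incl (toCo2 k hk) = k := rfl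

theorem leechU_norm : sqNorm (Spor.leechU : GolayPt → ℤ) = 32 := by
  have hpt : pt 0 = some 0 := by decide
  have : (Spor.leechU : GolayPt → ℤ) = mvec 1 none (pt 0) := by
    funext r
    show Spor.vecU r = mvec 1 none (pt 0) r
    rcases r with _ | x
    · simp [Spor.vecU, mvec, hpt]
    · simp [Spor.vecU, mvec, hpt]
  rw [this]
  exact mvec_sq 1 (Or.inl rfl) none (pt 0) none_ne_pt0

theorem pt12 : pt 1 ≠ pt 2 := pt_ne (by norm_num) (by norm_num) (by norm_num)

/-- The vector `8 e_∞` as a lattice vector. -/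
noncomputable def E8 : leechLattice := ⟨e8, e8_mem⟩

theorem E8_val : (E8 : GolayPt → ℤ) = e8 := rfl

theorem smul_c0 (a : ↥Co0) : a • c0 = cls ((a • E8 : leechLattice) : GolayPt → ℤ) :=
  smul_cls a E8

section liso

variable {C : Type*} [Group C] {Q : Subgroup C} [Q.Normal]
  {ψ : leechLattice → ↥Q ⧸ Subgroup.center ↥Q}

theorem psi_neg (hL : LIso Q ψ) (v : leechLattice) : ψ (-v) = ψ v := by
  have e : -v = v + (-v + -v) := by abel
  rw [e, hL.psi_congr]

theorem psi_eq_imp (hL : LIso Q ψ) {a b : leechLattice} (h : ψ a = ψ b) :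
    ∃ w : leechLattice, a = b + (w + w) := by
  have h1 : ψ (a + b) = 1 := by rw [hL.add, h, hL.psi_sq]
  obtain ⟨u, hu⟩ := (hL.ker _).mp h1
  refine ⟨u - b, ?_⟩
  have : a = (u + u) - b := by
    rw [← hu]
    abel
  rw [this]
  abel

theorem not_center_of_norm (hL : LIso Q ψ) {v : leechLattice}
    (hn : sqNorm (v : GolayPt → ℤ) = 32) {x : Q} (hv : ψ v = QuotientGroup.mk x) :
    x ∉ Subgroup.center ↥Q := by
  intro hcen
  have h1 : ψ v = 1 := by
    rw [hv]
    exact (QuotientGroup.eq_one_iff x).mpr hcen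
  obtain ⟨w, hw⟩ := (hL.ker v).mp h1
  have h2 : sqNorm (v : GolayPt → ℤ) = 4 * sqNorm (w : GolayPt → ℤ) := by
    rw [hw, AddSubgroup.coe_add, ← two_nsmul, sqNorm_two_smul]
  have hw0 : (w : GolayPt → ℤ) ≠ 0 := by
    intro h0
    rw [h0, Cfsg.Agent.Lib.Helper92.Conway.sqNorm_zero'] at h2
    rw [hn] at h2
    norm_num at h2
  have h3 := min_norm w.2 hw0
  rw [hn] at h2
  omega

end liso

section monster

variable {G : Type*} [Group G] {z : G} {Q : Subgroup (Subgroup.centralizer ({z} : Set G))}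
  [Q.Normal]

theorem esd_of_monster [Finite G] (hM : IsOfMonsterType z Q) :
    ESD (Q.map (Subgroup.centralizer ({z} : Set G)).subtype) z := by
  have hF : (generalizedFittingSubgroup ↥(Subgroup.centralizer ({z} : Set G))).map
      (Subgroup.centralizer ({z} : Set G)).subtype
      = Q.map (Subgroup.centralizer ({z} : Set G)).subtype := by rw [hM.1.2.1]
  have hQg : IsExtraspecial 2 ↥(Q.map (Subgroup.centralizer ({z} : Set G)).subtype) :=
    isExtraspecial_of_mulEquiv (Q.equivMapOfInjective _ (Subgroup.subtype_injective _))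
      hM.1.2.2.1
  have hS := Setup.of_gfs hM.1.1 hF hQg
  obtain ⟨z', hE0, hz'Z, -⟩ := exists_esd _ hQg hS.centralizer_eq hS.centralizer_le
  have hz' : z' = z := by
    rcases hS.center_cases hz'Z with h | h
    · exact absurd h hE0.z1
    · exact h
  rw [hz'] at hE0
  exact hE0

/-- An involution of `Q` not conjugate to `z` is represented by a minimal vector. -/
theorem rep32 [Finite G] (hM : IsOfMonsterType z Q)
    {e : (Subgroup.centralizer ({z} : Set G)) ⧸ Q ≃* Spor.Co1}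
    {ψ : leechLattice → ↥Q ⧸ Subgroup.center ↥Q} (hψ : IsLeechModTwoIso Q e ψ)
    (t : Q) (ht2 : orderOf t.1.1 = 2) (ht : ¬ IsConj z t.1.1) :
    t ∉ Subgroup.center ↥Q ∧
    ∃ v : leechLattice, sqNorm (v : GolayPt → ℤ) = 32 ∧ ψ v = QuotientGroup.mk t := by
  have hL : LIso Q ψ := liso_of_iso hM.1.2.2.1 hψ
  have htt : t.1.1 * t.1.1 = 1 := by
    rw [← pow_two, ← ht2]
    exact pow_orderOf_eq_one _
  have hnc : t ∉ Subgroup.center ↥Q := by
    intro hcen
    rcases hL.cases hcen with h | h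
    · have h1 : t.1.1 = 1 := by rw [h]; rfl
      rw [h1, orderOf_one] at ht2
      omega
    · apply ht
      have h1 : t.1.1 = z := by rw [h, hL.c_eq hM]; rfl
      rw [h1]
  refine ⟨hnc, ?_⟩
  obtain ⟨v, hv, hn⟩ := exists_rep hL hnc
  rcases hn with hn | hn | hn
  · exact ⟨v, hn, hv⟩
  · exfalso
    apply S_48 hL (card_ne_two hM) v hn
    rw [← hL.S_eq hv]
    apply Subtype.ext
    apply Subtype.ext
    exact htt
  · exfalso
    apply ht
    exact ((conj_iff hM hψ t).mpr ⟨v, hn, hv⟩).1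

/-- An automorphism fixing the class of the vector representing a non-central `x` is induced by
an element of `C_G(z)` centralizing `x`. -/
theorem lift_fix (hM : IsOfMonsterType z Q)
    {e : (Subgroup.centralizer ({z} : Set G)) ⧸ Q ≃* Spor.Co1}
    {ψ : leechLattice → ↥Q ⧸ Subgroup.center ↥Q} (hψ : IsLeechModTwoIso Q e ψ)
    {x : Q} (hx : x ∉ Subgroup.center ↥Q) {v : leechLattice} (hv : ψ v = QuotientGroup.mk x)
    (k : ↥Co0) (hk : ψ (k • v) = ψ v) :
    ∃ h : ↥(Subgroup.centralizer ({z} : Set G)),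
      e (QuotientGroup.mk h) = (QuotientGroup.mk k : Spor.Co1) ∧
      (h : G) * x.1.1 = x.1.1 * (h : G) := by
  have hL : LIso Q ψ := liso_of_iso hM.1.2.2.1 hψ
  obtain ⟨hadd, hsurj, hker, hequiv⟩ := hψ
  obtain ⟨h, hh⟩ := QuotientGroup.mk_surjective (e.symm (QuotientGroup.mk k))
  have hhk : e (QuotientGroup.mk h) = (QuotientGroup.mk k : Spor.Co1) := by
    rw [hh, MulEquiv.apply_symm_apply]
  have h1 := hequiv h k hhk.symm v x hv
  rw [hk, hv] at h1
  rcases hL.mk_eq h1 with h2 | h2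
  · refine ⟨h, hhk, ?_⟩
    have h3 : (h : G) * x.1.1 * (h : G)⁻¹ = x.1.1 :=
      congrArg (fun y : Q => y.1.1) h2
    have := congrArg (fun y => y * (h : G)) h3
    simpa [mul_assoc] using this
  · obtain ⟨q, hq⟩ := hL.exists_conj_c hx
    refine ⟨(q : ↥(Subgroup.centralizer ({z} : Set G)))⁻¹ * h, ?_, ?_⟩
    · rw [QuotientGroup.mk_mul, map_mul, hhk]
      have : (QuotientGroup.mk ((q : ↥(Subgroup.centralizer ({z} : Set G)))⁻¹) :
          (Subgroup.centralizer ({z} : Set G)) ⧸ Q) = 1 :=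
        (QuotientGroup.eq_one_iff _).mpr (Q.inv_mem q.2)
      rw [this, map_one, one_mul]
    · have h3 : (h : G) * x.1.1 * (h : G)⁻¹ = x.1.1 * hL.c.1.1 :=
        congrArg (fun y : Q => y.1.1) h2
      have h4 : q.1.1 * x.1.1 * q.1.1⁻¹ = x.1.1 * hL.c.1.1 :=
        congrArg (fun y : Q => y.1.1) hq
      rw [← h4] at h3
      show q.1.1⁻¹ * (h : G) * x.1.1 = x.1.1 * (q.1.1⁻¹ * (h : G))
      calc q.1.1⁻¹ * (h : G) * x.1.1
          = q.1.1⁻¹ * ((h : G) * x.1.1 * (h : G)⁻¹) * (h : G) := by group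
        _ = q.1.1⁻¹ * (q.1.1 * x.1.1 * q.1.1⁻¹) * (h : G) := by rw [h3]
        _ = x.1.1 * (q.1.1⁻¹ * (h : G)) := by group

/-- An involution of `Q`, not conjugate to `z`, lying in a conjugate of `Q` that contains `z`. -/
theorem exists_t0 [Finite G] (hM : IsOfMonsterType z Q)
    {e : (Subgroup.centralizer ({z} : Set G)) ⧸ Q ≃* Spor.Co1}
    {ψ : leechLattice → ↥Q ⧸ Subgroup.center ↥Q} (hψ : IsLeechModTwoIso Q e ψ) :
    ∃ (g : G) (t0 : Q), g * z * g⁻¹ ∈ Q.map (Subgroup.centralizer ({z} : Set G)).subtype ∧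
      g * z * g⁻¹ ≠ z ∧
      t0.1.1 ∈ (Q.map (Subgroup.centralizer ({z} : Set G)).subtype).map
        (MulAut.conj g).toMonoidHom ∧
      orderOf t0.1.1 = 2 ∧ ¬ IsConj z t0.1.1 := by
  have hL : LIso Q ψ := liso_of_iso hM.1.2.2.1 hψ
  have hcard := card_ne_two hM
  obtain ⟨g, ⟨hgc, hgQ⟩, hgne⟩ := hM.1.2.2.2.2
  obtain ⟨v, a, s, hs, hv, hv64, ha, hy, hzc, hnorm⟩ := bridge2 hM hψ g ⟨hgc, hgQ⟩ hgne
  have hψ' := hψ
  obtain ⟨hadd, hsurj, hker, hequiv⟩ := hψ
  obtain ⟨x, hx⟩ := QuotientGroup.mk_surjective (ψ (a • xx))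
  have hxn : sqNorm ((a • xx : leechLattice) : GolayPt → ℤ) = 32 := by
    rw [sqNorm_smul, xx_norm]
  have hxx : x * x = 1 := by rw [hL.S_eq hx.symm, S_32 hL _ hxn]
  -- `x` commutes with `s`
  have hdot : (16 : ℤ) ∣ dotInt ((a • xx : leechLattice) : GolayPt → ℤ) (v : GolayPt → ℤ) := by
    have h1 : cls ((a • E8 : leechLattice) : GolayPt → ℤ) = cls (v : GolayPt → ℤ) := by
      rw [← smul_c0]
      exact ha
    obtain ⟨y, hy', hyv⟩ := (cls_eq_iff (a • E8).2 v.2).mp h1
    have h2 : (v : GolayPt → ℤ) = ((a • E8 : leechLattice) : GolayPt → ℤ) - 2 • y := by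
      rw [← hyv]
      abel
    have h3 : dotInt ((E8 : leechLattice) : GolayPt → ℤ) (xx : GolayPt → ℤ) = 0 := by
      rw [E8_val]
      unfold e8
      rw [dot_single_left, xx_apply, if_neg O8_none]
      norm_num
    have e1 : dotInt ((a • xx : leechLattice) : GolayPt → ℤ) (v : GolayPt → ℤ)
        = - (2 * dotInt ((a • xx : leechLattice) : GolayPt → ℤ) y) := by
      rw [h2, Cfsg.Agent.S5552.dot_comm, Cfsg.Agent.S5546.dot_sub, dot_smul, h3,
        Cfsg.Agent.S5552.dot_comm (2 • y), dot_two_smul]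
      ring
    obtain ⟨l, hl⟩ := dot_dvd8 (a • xx).2 hy'
    rw [e1, hl]
    exact ⟨-l, by ring⟩
  have hxs : x * s = s * x := (comm_iff hL hcard hx.symm hv).mpr hdot
  -- the code word
  obtain ⟨c, hc, hcO⟩ := pair_octad (⟨O8_cw, O8_card⟩ : O8 ∈ octads) O8_pt1 O8_pt2 pt12
  obtain ⟨y0, hy0, hy0e⟩ := hy c hc
  have hmem : ∀ j, j ∈ c ∧ j ∈ O8 ↔ j = pt 1 ∨ j = pt 2 := by
    intro j
    rw [← Finset.mem_inter, hcO]
    simp
  have hW : ((eps c hc • xx - xx : leechLattice) : GolayPt → ℤ) = -(mvec 1 (pt 1) (pt 2)) := by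
    funext i
    have hxi := xx_apply i
    show (if i ∈ c then -(xx : GolayPt → ℤ) i else (xx : GolayPt → ℤ) i) - (xx : GolayPt → ℤ) i
      = -((if i = pt 1 then 4 else 0) + 1 * (if i = pt 2 then 4 else 0))
    rw [hxi]
    by_cases hic : i ∈ c
    · by_cases hiO : i ∈ O8
      · rcases (hmem i).mp ⟨hic, hiO⟩ with h | h
        · rw [if_pos hic, if_pos hiO, if_pos h, if_neg (by rw [h]; exact pt12)]
          norm_num
        · rw [if_pos hic, if_pos hiO, if_neg (by rw [h]; exact pt12.symm), if_pos h]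
          norm_num
      · have h1 : i ≠ pt 1 := fun h => hiO (h ▸ O8_pt1)
        have h2 : i ≠ pt 2 := fun h => hiO (h ▸ O8_pt2)
        rw [if_pos hic, if_neg hiO, if_neg h1, if_neg h2]
        norm_num
    · have h1 : i ≠ pt 1 := fun h => hic (h ▸ ((hmem (pt 1)).mpr (Or.inl rfl)).1)
      have h2 : i ≠ pt 2 := fun h => hic (h ▸ ((hmem (pt 2)).mpr (Or.inr rfl)).1)
      rw [if_neg hic, if_neg h1, if_neg h2]
      norm_num
  have hWn : sqNorm ((a • (eps c hc • xx - xx) : leechLattice) : GolayPt → ℤ) = 32 := by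
    rw [sqNorm_smul, hW, sqNorm_neg, mvec_sq 1 (Or.inl rfl) _ _ pt12]
  -- the element
  let x' : Q := ⟨y0 * (x : ↥(Subgroup.centralizer ({z} : Set G))) * y0⁻¹,
    (inferInstance : Q.Normal).conj_mem _ x.2 y0⟩
  have hx' : ψ ((a * eps c hc * a⁻¹) • (a • xx)) = QuotientGroup.mk x' :=
    hequiv y0 (a * eps c hc * a⁻¹) hy0e.symm (a • xx) x hx.symm
  have hact : (a * eps c hc * a⁻¹) • (a • xx) = a • (eps c hc • xx) := by
    rw [mul_smul, mul_smul, inv_smul_smul]
  rw [hact] at hx'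
  have ht0 : ψ (a • (eps c hc • xx - xx)) = QuotientGroup.mk (x' * x) := by
    rw [smul_sub', sub_eq_add_neg, hadd, psi_neg hL, hx', ← hx, QuotientGroup.mk_mul]
  have hnc := not_center_of_norm hL hWn ht0
  refine ⟨g, x' * x, ⟨s.1, s.2, hs⟩, hgne, ?_, ?_, ?_⟩
  · have e1 : (x' * x).1.1 = (y0 : G) * x.1.1 * (y0 : G)⁻¹ * x.1.1 := rfl
    have hxinv : x.1.1⁻¹ = x.1.1 := by
      have : x.1.1 * x.1.1 = 1 := congrArg (fun q : Q => q.1.1) hxx
      exact inv_eq_of_mul_eq_one_left this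
    have hxs' : x.1.1 * (g * z * g⁻¹) = (g * z * g⁻¹) * x.1.1 := by
      rw [← hs]
      exact congrArg (fun q : Q => q.1.1) hxs
    have h1 := hnorm _ hxs' _ (Subgroup.inv_mem _ hy0)
    rw [hxinv] at h1
    have h2 := Subgroup.mul_mem _ hy0 h1
    have e2 : (y0 : G) * x.1.1 * (y0 : G)⁻¹ * x.1.1
        = (y0 : G) * (x.1.1 * (y0 : G)⁻¹ * x.1.1) := by group
    rw [e1, e2]
    exact h2
  · have hsq : (x' * x) * (x' * x) = 1 := by rw [hL.S_eq ht0, S_32 hL _ hWn]
    have h1 : (x' * x).1.1 ≠ 1 := by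
      intro h
      apply hnc
      have : x' * x = 1 := Subtype.ext (Subtype.ext h)
      rw [this]
      exact Subgroup.one_mem _
    have h2 : (x' * x).1.1 ^ 2 = 1 := by
      rw [pow_two]
      exact congrArg (fun q : Q => q.1.1) hsq
    exact orderOf_eq_prime h2 h1
  · intro hconj
    obtain ⟨g', hg'⟩ := isConj_iff.mp hconj
    have hne : g' * z * g'⁻¹ ≠ z := by
      intro h
      apply hnc
      have : x' * x = zQ hM := Subtype.ext (Subtype.ext (by rw [← hg', h]; rfl))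
      rw [this]
      exact zQ_mem_center hM
    exact no_type2 hM hψ' g' (x' * x) hg'.symm hne _ ht0 hWn

/-- Every involution of `Q` not conjugate to `z` lies in a conjugate of `Q` containing `z`. -/
theorem exists_conj_mem [Finite G] (hM : IsOfMonsterType z Q) (t : G)
    (htQ : ∃ htc : t ∈ Subgroup.centralizer ({z} : Set G),
      (⟨t, htc⟩ : Subgroup.centralizer ({z} : Set G)) ∈ Q)
    (ht2 : orderOf t = 2) (ht : ¬ IsConj z t) :
    ∃ g : G, g * z * g⁻¹ ∈ Q.map (Subgroup.centralizer ({z} : Set G)).subtype ∧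
      g * z * g⁻¹ ≠ z ∧
      t ∈ (Q.map (Subgroup.centralizer ({z} : Set G)).subtype).map
        (MulAut.conj g).toMonoidHom := by
  obtain ⟨e, ψ, hψ⟩ := hM.2
  obtain ⟨g, t0, hgQ, hgne, ht0, ht02, ht0c⟩ := exists_t0 hM hψ
  obtain ⟨h, hh, hht⟩ := Cfsg.Agent.S5411.result z Q hM t0.1.1 t ⟨t0.1.2, t0.2⟩ htQ ht02 ht2
    ht0c ht
  have hz : h * z = z * h :=
    (Subgroup.mem_centralizer_iff.mp hh z (Set.mem_singleton z)).symm
  refine ⟨h * g, ?_, ?_, ?_⟩
  · obtain ⟨s, hs, hs'⟩ := hgQ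
    refine ⟨⟨h, hh⟩ * s * ⟨h, hh⟩⁻¹, (inferInstance : Q.Normal).conj_mem s hs ⟨h, hh⟩, ?_⟩
    have hs'' : (s : G) = g * z * g⁻¹ := hs'
    show h * (s : G) * h⁻¹ = h * g * z * (h * g)⁻¹
    rw [hs'']
    group
  · intro heq
    apply hgne
    have e1 : g * z * g⁻¹ = h⁻¹ * (h * g * z * (h * g)⁻¹) * h := by group
    rw [e1, heq, mul_assoc, ← hz, inv_mul_cancel_left]
  · obtain ⟨q, hq, hq'⟩ := ht0
    refine ⟨q, hq, ?_⟩
    have hq'' : g * q * g⁻¹ = t0.1.1 := hq'
    show h * g * q * (h * g)⁻¹ = t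
    rw [← hht, ← hq'']
    group

/-- The subgroup generated by `t` and `z` maps into `{1, t}` modulo the centre of `Q`. -/
theorem closure_tz (hM : IsOfMonsterType z Q) {ψ : leechLattice → ↥Q ⧸ Subgroup.center ↥Q}
    (hL : LIso Q ψ) (tQ : Q) :
    ∀ y ∈ Subgroup.closure ({tQ.1.1, z} : Set G), ∃ yQ : Q, yQ.1.1 = y ∧
      ((QuotientGroup.mk yQ : ↥Q ⧸ Subgroup.center ↥Q) = 1 ∨
        (QuotientGroup.mk yQ : ↥Q ⧸ Subgroup.center ↥Q) = QuotientGroup.mk tQ) := by
  intro y hy
  have hsq : (QuotientGroup.mk tQ : ↥Q ⧸ Subgroup.center ↥Q) * QuotientGroup.mk tQ = 1 := by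
    obtain ⟨v, hv⟩ := hL.surj (QuotientGroup.mk tQ)
    rw [← hv, hL.psi_sq]
  induction hy using Subgroup.closure_induction with
  | mem x hx =>
    rcases hx with hx | hx
    · exact ⟨tQ, hx.symm, Or.inr rfl⟩
    · rw [Set.mem_singleton_iff] at hx
      exact ⟨zQ hM, hx.symm, Or.inl ((QuotientGroup.eq_one_iff _).mpr (zQ_mem_center hM))⟩
  | one => exact ⟨1, rfl, Or.inl rfl⟩
  | mul a b ha hb iha ihb =>
    obtain ⟨aQ, haQ, ha'⟩ := iha
    obtain ⟨bQ, hbQ, hb'⟩ := ihb
    refine ⟨aQ * bQ, by rw [← haQ, ← hbQ]; rfl, ?_⟩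
    rw [QuotientGroup.mk_mul]
    rcases ha' with h1 | h1 <;> rcases hb' with h2 | h2 <;> rw [h1, h2]
    · left
      rw [one_mul]
    · right
      rw [one_mul]
    · right
      rw [mul_one]
    · left
      exact hsq
  | inv a ha iha =>
    obtain ⟨aQ, haQ, ha'⟩ := iha
    refine ⟨aQ⁻¹, by rw [← haQ]; rfl, ?_⟩
    rw [QuotientGroup.mk_inv]
    rcases ha' with h1 | h1 <;> rw [h1]
    · left
      exact inv_one
    · right
      exact inv_eq_of_mul_eq_one_left hsq

/-- The elements of `C_G(z)` acting trivially on `C_Q(t)` modulo `⟨t, z⟩` are those of `Q`. -/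
theorem hCP_holds [Finite G] (hM : IsOfMonsterType z Q) (t : G)
    (htQ : ∃ htc : t ∈ Subgroup.centralizer ({z} : Set G),
      (⟨t, htc⟩ : Subgroup.centralizer ({z} : Set G)) ∈ Q)
    (ht2 : orderOf t = 2) (ht : ¬ IsConj z t) :
    ∀ c ∈ Subgroup.centralizer ({z} : Set G),
      (∀ x ∈ Q.map (Subgroup.centralizer ({z} : Set G)).subtype ⊓
          Subgroup.centralizer ({t} : Set G),
        ∃ y ∈ Subgroup.closure ({t, z} : Set G), c * x * c⁻¹ = x * y) ↔
      c ∈ Q.map (Subgroup.centralizer ({z} : Set G)).subtype := by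
  intro c hcC
  have hE := esd_of_monster hM
  constructor
  · intro hall
    obtain ⟨e, ψ, hψ⟩ := hM.2
    have hL : LIso Q ψ := liso_of_iso hM.1.2.2.1 hψ
    have hcard := card_ne_two hM
    obtain ⟨htc, htQ'⟩ := htQ
    obtain ⟨hnc, vt, hvt32, hvt⟩ := rep32 hM hψ ⟨⟨t, htc⟩, htQ'⟩ ht2 ht
    obtain ⟨hadd, hsurj, hker, hequiv⟩ := hψ
    generalize htQdef : (⟨⟨t, htc⟩, htQ'⟩ : Q) = tQ at hnc hvt
    have htQ1 : tQ.1.1 = t := by rw [← htQdef]
    obtain ⟨k0, hk0⟩ := QuotientGroup.mk_surjective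
      (e (QuotientGroup.mk (⟨c, hcC⟩ : ↥(Subgroup.centralizer ({z} : Set G)))))
    have key : ∀ (v : leechLattice) (q : Q), ψ v = QuotientGroup.mk q →
        q.1.1 * t = t * q.1.1 → ψ (k0 • v) = ψ v ∨ ψ (k0 • v) = ψ v * ψ vt := by
      intro v q hq hqt
      have hqP : q.1.1 ∈ Q.map (Subgroup.centralizer ({z} : Set G)).subtype ⊓
          Subgroup.centralizer ({t} : Set G) := by
        refine ⟨⟨q.1, q.2, rfl⟩, ?_⟩
        show q.1.1 ∈ Subgroup.centralizer ({t} : Set G)
        rw [Subgroup.mem_centralizer_iff]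
        intro y hy
        rw [Set.mem_singleton_iff] at hy
        rw [hy]
        exact hqt.symm
      obtain ⟨y, hy, hcy⟩ := hall _ hqP
      rw [← htQ1] at hy
      obtain ⟨yQ, hyQ, hym⟩ := closure_tz hM hL tQ y hy
      have h1 := hequiv ⟨c, hcC⟩ k0 hk0 v q hq
      have h2 : (⟨⟨c, hcC⟩ * (q : ↥(Subgroup.centralizer ({z} : Set G))) * ⟨c, hcC⟩⁻¹,
          (inferInstance : Q.Normal).conj_mem _ q.2 _⟩ : Q) = q * yQ := by
        apply Subtype.ext
        apply Subtype.ext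
        show c * q.1.1 * c⁻¹ = q.1.1 * yQ.1.1
        rw [hyQ]
        exact hcy
      rw [h1, h2, QuotientGroup.mk_mul, ← hq]
      rcases hym with h | h
      · left
        rw [h, mul_one]
      · right
        rw [h, hvt]
    have h0 := key vt tQ hvt (by rw [htQ1])
    have hfix : ψ (k0 • vt) = ψ vt := by
      rcases h0 with h | h
      · exact h
      · exfalso
        rw [hL.psi_sq] at h
        have hn : sqNorm ((k0 • vt : leechLattice) : GolayPt → ℤ) = 32 := by
          rw [sqNorm_smul, hvt32]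
        obtain ⟨q', hq'⟩ := QuotientGroup.mk_surjective (ψ (k0 • vt))
        exact not_center_of_norm hL hn hq'.symm
          ((QuotientGroup.eq_one_iff q').mp (by rw [hq', h]))
    have hpm : k0 • vt = vt ∨ k0 • vt = -vt := by
      apply pm_of_cls k0 vt hvt32
      rw [smul_cls]
      exact (psi_eq_iff hL _ _).mp hfix
    obtain ⟨m, hmk, hmv⟩ : ∃ m : ↥Co0,
        (QuotientGroup.mk m : Spor.Co1) = QuotientGroup.mk k0 ∧ m • vt = vt := by
      rcases hpm with h | h
      · exact ⟨k0, rfl, h⟩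
      · refine ⟨k0 * negC, ((mk_eq_iff k0 (k0 * negC)).mpr (Or.inr rfl)).symm, ?_⟩
        rw [mul_smul, negC_smul, smul_neg', h, neg_neg]
    have hm1 : m = 1 := by
      apply faithful vt hvt32 m hmv
      intro v hv
      have hq : ψ v = QuotientGroup.mk (lft ψ v) := (mk_lft v).symm
      have hcomm : lft ψ v * tQ = tQ * lft ψ v := (comm_iff hL hcard hq hvt).mpr hv
      have hcomm' : (lft ψ v).1.1 * t = t * (lft ψ v).1.1 := by
        rw [← htQ1]
        exact congrArg (fun q : Q => q.1.1) hcomm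
      have h1 : ∃ (k : ℤ) (w : leechLattice), k0 • v = v + k • vt + (w + w) := by
        rcases key v (lft ψ v) hq hcomm' with h | h
        · obtain ⟨w, hw⟩ := psi_eq_imp hL h
          exact ⟨0, w, by rw [hw, zero_smul, add_zero]⟩
        · rw [← hadd] at h
          obtain ⟨w, hw⟩ := psi_eq_imp hL h
          exact ⟨1, w, by rw [hw, one_smul]⟩
      rcases (mk_eq_iff m k0).mp hmk with h | h
      · obtain ⟨k, w, e1⟩ := h1
        rw [h] at e1
        exact ⟨k, w, e1⟩
      · obtain ⟨k, w, e1⟩ := h1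
        rw [h, mul_smul, negC_smul, smul_neg'] at e1
        refine ⟨-k, -w - v, ?_⟩
        have e2 : m • v = -(v + k • vt + (w + w)) := by rw [← e1, neg_neg]
        rw [e2, neg_smul]
        abel
    have h5 : e (QuotientGroup.mk (⟨c, hcC⟩ : ↥(Subgroup.centralizer ({z} : Set G)))) = 1 := by
      rw [← hk0, ← hmk, hm1]
      rfl
    have h6 : (QuotientGroup.mk (⟨c, hcC⟩ : ↥(Subgroup.centralizer ({z} : Set G))) :
        (Subgroup.centralizer ({z} : Set G)) ⧸ Q) = 1 := by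
      have := congrArg e.symm h5
      simpa using this
    exact ⟨⟨c, hcC⟩, (QuotientGroup.eq_one_iff _).mp h6, rfl⟩
  · intro hcQ x hx
    have hxQ := hx.1
    rcases hE.comm c hcQ x hxQ with h | h
    · refine ⟨1, Subgroup.one_mem _, ?_⟩
      rw [mul_one]
      have := congrArg (fun y => y * x) h
      simpa [mul_assoc] using this
    · refine ⟨z, Subgroup.subset_closure (by simp), ?_⟩
      have h1 : c * x * c⁻¹ = z * x := by
        have := congrArg (fun y => y * x) h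
        simpa [mul_assoc] using this
      rw [h1]
      exact (hE.zc x hxQ).symm

/-- The centralizer of `t` in `Q` has order `2 ^ 24`. -/
theorem card_P [Finite G] (hM : IsOfMonsterType z Q) (t : G)
    (htQg : t ∈ Q.map (Subgroup.centralizer ({z} : Set G)).subtype) (ht1 : t ≠ 1) (htz : t ≠ z) :
    Nat.card ↥(Q.map (Subgroup.centralizer ({z} : Set G)).subtype ⊓
      Subgroup.centralizer ({t} : Set G)) = 2 ^ 24 := by
  have hE := esd_of_monster hM
  have hcardQg : Nat.card ↥(Q.map (Subgroup.centralizer ({z} : Set G)).subtype) = 2 ^ 25 := by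
    rw [Subgroup.card_map_of_injective (Subgroup.subtype_injective _)]
    exact hM.1.2.2.2.1
  obtain ⟨q0, hq0, hq0t⟩ := hE.exists_conj htQg ht1 htz
  have hrel : (Subgroup.centralizer ({t} : Set G)).relIndex
      (Q.map (Subgroup.centralizer ({z} : Set G)).subtype) = 2 := by
    rw [Subgroup.relIndex_eq_two_iff]
    refine ⟨q0, hq0, fun b hb => ?_⟩
    have hmemC : ∀ y : G, y ∈ Subgroup.centralizer ({t} : Set G) ↔ y * t = t * y := by
      intro y
      rw [Subgroup.mem_centralizer_iff]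
      constructor
      · intro h
        exact (h t (Set.mem_singleton t)).symm
      · intro h w hw
        rw [Set.mem_singleton_iff] at hw
        rw [hw]
        exact h.symm
    rw [hmemC, hmemC]
    have hnot : ¬ (b * t = t * b ∧ b * q0 * t = t * (b * q0)) := by
      rintro ⟨h1, h2⟩
      have h3 : q0 * t = t * q0 := by
        have h4 : b * (q0 * t) = b * (t * q0) := by
          rw [← mul_assoc, h2, ← mul_assoc, ← h1, mul_assoc]
        exact mul_left_cancel h4
      rw [h3, mul_inv_cancel_right] at hq0t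
      apply hE.z1
      have := congrArg (fun x => x * t⁻¹) hq0t
      simpa using this.symm
    rcases hE.comm_or htQg hq0t hb with h | h
    · right
      exact ⟨h, fun h' => hnot ⟨h, h'⟩⟩
    · left
      exact ⟨h, fun h' => hnot ⟨h', h⟩⟩
  have := card_inf_of_relIndex _ _ hrel
  rw [hcardQg] at this
  omega

end monster

end Cfsg.Agent.Lib.Helper92.MonBaby2
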