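import Mathlib
import Cfsg.Prelude.Def_MonsterType
import Cfsg.Agent.Lib.Helper92.MonBaby2

/-!
Groups of Monster type: for an involution `t` of `Q` not conjugate to `z`, the group
`C_G(z) ∩ C_G(t)` maps onto the stabiliser of the vector `u` in the automorphism group of the
lattice, with kernel its intersection with `Q`.
-/

set_option autoImplicit false

namespace Cfsg.Agent.Lib.Helper92.MonBaby3

open Cfsg Cfsg.Agent.Lib.Helper92.LeechCore Cfsg.Agent.Lib.Helper92.ActQ
open Cfsg.Agent.Lib.Helper92.MonQ Cfsg.Agent.Lib.Helper92.MonLat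
open Cfsg.Agent.Lib.Helper92.MonVec Cfsg.Agent.Lib.Helper92.O2Co2
open Cfsg.Agent.Lib.Helper92.MonExcl Cfsg.Agent.Lib.Helper92.MonConj
open Cfsg.Agent.Lib.Helper92.Conway Cfsg.Agent.Lib.Helper92.Shells
open Cfsg.Agent.Lib.Helper92.MonMeet
open Cfsg.Agent.Lib.Helper92.MonBaby1 Cfsg.Agent.Lib.Helper92.MonBaby2
open Cfsg.Agent.Lib.Helper92.Frames Cfsg.Agent.Lib.Helper92.Pairs
open Cfsg.Agent.S0398

section monster

variable {G : Type*} [Group G] {z : G} {Q : Subgroup (Subgroup.centralizer ({z} : Set G))}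
  [Q.Normal]

/-- The homomorphism from `C_G(z) ∩ C_G(t)` onto the stabiliser of `u`. -/
theorem exists_Phi0 [Finite G] (hM : IsOfMonsterType z Q)
    {e : (Subgroup.centralizer ({z} : Set G)) ⧸ Q ≃* Spor.Co1}
    {ψ : leechLattice → ↥Q ⧸ Subgroup.center ↥Q} (hψ : IsLeechModTwoIso Q e ψ)
    (t : G) (htc : t ∈ Subgroup.centralizer ({z} : Set G))
    (htQ : (⟨t, htc⟩ : Subgroup.centralizer ({z} : Set G)) ∈ Q)
    (hnc : (⟨⟨t, htc⟩, htQ⟩ : Q) ∉ Subgroup.center ↥Q)
    (vt : leechLattice) (hvt32 : sqNorm (vt : GolayPt → ℤ) = 32)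
    (hvt : ψ vt = QuotientGroup.mk (⟨⟨t, htc⟩, htQ⟩ : Q)) :
    ∃ (b : ↥Co0) (Φ0 : ↥(Subgroup.centralizer ({z} : Set G) ⊓
        Subgroup.centralizer ({t} : Set G)) →* ↥Spor.Co2),
      b • Spor.leechU = vt ∧ Function.Surjective Φ0 ∧
      (∀ d, Φ0 d = 1 ↔ (d : G) ∈ Q.map (Subgroup.centralizer ({z} : Set G)).subtype) ∧
      ∀ d : ↥(Subgroup.centralizer ({z} : Set G) ⊓ Subgroup.centralizer ({t} : Set G)),
        e (QuotientGroup.mk (⟨d.1, d.2.1⟩ : Subgroup.centralizer ({z} : Set G)))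
          = (QuotientGroup.mk (b * incl (Φ0 d) * b⁻¹) : Spor.Co1) := by
  have hL : LIso Q ψ := liso_of_iso hM.1.2.2.1 hψ
  have hψ' := hψ
  obtain ⟨hadd, hsurj, hker, hequiv⟩ := hψ
  obtain ⟨a, ha⟩ := trans32 vt Spor.leechU hvt32 leechU_norm
  have hb : a⁻¹ • Spor.leechU = vt := by rw [inv_smul_eq_iff, ha]
  generalize htQdef : (⟨⟨t, htc⟩, htQ⟩ : Q) = tQ at hnc hvt
  have htQ1 : tQ.1.1 = t := by rw [← htQdef]
  let jC : ↥(Subgroup.centralizer ({z} : Set G) ⊓ Subgroup.centralizer ({t} : Set G)) →*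
      ↥(Subgroup.centralizer ({z} : Set G)) := Subgroup.inclusion inf_le_left
  let π : ↥Co0 →* Spor.Co1 := QuotientGroup.mk' (Subgroup.center ↥Co0)
  let θ : ↥(Subgroup.centralizer ({z} : Set G) ⊓ Subgroup.centralizer ({t} : Set G)) →*
      Spor.Co1 :=
    (MulAut.conj (π a)).toMonoidHom.comp
      ((e : (Subgroup.centralizer ({z} : Set G)) ⧸ Q →* Spor.Co1).comp
        ((QuotientGroup.mk' Q).comp jC))
  let ι : ↥Spor.Co2 →* Spor.Co1 := π.comp incl
  have hθ : ∀ d, θ d = π a * e (QuotientGroup.mk (jC d)) * (π a)⁻¹ := fun d => rfl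
  have hι : Function.Injective ι := by
    rw [injective_iff_map_eq_one]
    intro k hk
    have h1 : incl k ∈ Subgroup.center ↥Co0 := (QuotientGroup.eq_one_iff _).mp hk
    rcases center_cases _ h1 with h | h
    · exact incl_inj (by rw [h, map_one])
    · exfalso
      have h2 := incl_fix k
      rw [h, negC_smul] at h2
      exact ne_neg_of_norm _ leechU_norm h2
  have hstab : ∀ d, ∀ k0 : ↥Co0, π k0 = e (QuotientGroup.mk (jC d)) → ψ (k0 • vt) = ψ vt := by
    intro d k0 hk0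
    have h1 := hequiv (jC d) k0 hk0 vt tQ hvt
    rw [h1, hvt]
    congr 1
    apply Subtype.ext
    apply Subtype.ext
    show (d : G) * tQ.1.1 * (d : G)⁻¹ = tQ.1.1
    have hd : t * (d : G) = (d : G) * t :=
      Subgroup.mem_centralizer_iff.mp d.2.2 _ (Set.mem_singleton _)
    rw [htQ1, ← hd, mul_inv_cancel_right]
  have hrange : ∀ d, θ d ∈ ι.range := by
    intro d
    obtain ⟨k0, hk0⟩ := QuotientGroup.mk_surjective (e (QuotientGroup.mk (jC d)))
    have h1 := hstab d k0 hk0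
    have hpm : k0 • vt = vt ∨ k0 • vt = -vt := by
      apply pm_of_cls k0 vt hvt32
      rw [smul_cls]
      exact (psi_eq_iff hL _ _).mp h1
    rw [hθ, ← hk0]
    rcases hpm with h | h
    · have hfix : (a * k0 * a⁻¹) • Spor.leechU = Spor.leechU := by
        rw [mul_smul, mul_smul, hb, h, ha]
      refine ⟨toCo2 _ hfix, ?_⟩
      show π (a * k0 * a⁻¹) = π a * π k0 * (π a)⁻¹
      rw [map_mul, map_mul, map_inv]
    · have hfix : (a * k0 * a⁻¹ * negC) • Spor.leechU = Spor.leechU := by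
        rw [mul_smul, mul_smul, mul_smul, negC_smul, smul_neg', hb, smul_neg', h, neg_neg, ha]
      refine ⟨toCo2 _ hfix, ?_⟩
      have hneg : π negC = 1 := (QuotientGroup.eq_one_iff negC).mpr negC_central
      show π (a * k0 * a⁻¹ * negC) = π a * π k0 * (π a)⁻¹
      rw [map_mul, hneg, mul_one, map_mul, map_mul, map_inv]
  let Φ0 : ↥(Subgroup.centralizer ({z} : Set G) ⊓ Subgroup.centralizer ({t} : Set G)) →*
      ↥Spor.Co2 :=
    (MonoidHom.ofInjective hι).symm.toMonoidHom.comp (θ.codRestrict ι.range hrange)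
  have hΦ : ∀ d, ι (Φ0 d) = θ d := fun d =>
    MonoidHom.apply_ofInjective_symm hι ⟨θ d, hrange d⟩
  refine ⟨a⁻¹, Φ0, hb, ?_, ?_, ?_⟩
  · intro k
    have hk0 : (a⁻¹ * incl k * a) • vt = vt := by
      rw [mul_smul, mul_smul, ha, incl_fix, hb]
    obtain ⟨h, hhk, hht⟩ := lift_fix hM hψ' hnc hvt (a⁻¹ * incl k * a) (by rw [hk0])
    rw [htQ1] at hht
    have hD : (h : G) ∈ Subgroup.centralizer ({z} : Set G) ⊓
        Subgroup.centralizer ({t} : Set G) := by
      refine ⟨h.2, ?_⟩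
      show (h : G) ∈ Subgroup.centralizer ({t} : Set G)
      rw [Subgroup.mem_centralizer_iff]
      intro y hy
      rw [Set.mem_singleton_iff] at hy
      rw [hy]
      exact hht.symm
    refine ⟨⟨h, hD⟩, ?_⟩
    apply hι
    rw [hΦ, hθ]
    have hj : jC ⟨(h : G), hD⟩ = h := rfl
    rw [hj, hhk]
    show π a * π (a⁻¹ * incl k * a) * (π a)⁻¹ = π (incl k)
    rw [← map_inv, ← map_mul, ← map_mul]
    congr 1
    group
  · intro d
    constructor
    · intro h1
      have h2 : θ d = 1 := by rw [← hΦ, h1, map_one]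
      rw [hθ] at h2
      have h3 : e (QuotientGroup.mk (jC d)) = 1 := by
        have := congrArg (fun x => (π a)⁻¹ * x * π a) h2
        simpa [mul_assoc] using this
      have h4 : (QuotientGroup.mk (jC d) : (Subgroup.centralizer ({z} : Set G)) ⧸ Q) = 1 := by
        have := congrArg e.symm h3
        simpa using this
      exact ⟨jC d, (QuotientGroup.eq_one_iff _).mp h4, rfl⟩
    · rintro ⟨q, hq, hqd⟩
      apply hι
      rw [hΦ, hθ, map_one]
      have hj : jC d = q := Subtype.ext hqd.symm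
      rw [hj, (QuotientGroup.eq_one_iff q).mpr hq, map_one, mul_one, mul_inv_cancel]
  · intro d
    have h1 := hΦ d
    rw [hθ] at h1
    show e (QuotientGroup.mk (jC d)) = π (a⁻¹ * incl (Φ0 d) * a⁻¹⁻¹)
    rw [inv_inv, map_mul, map_mul, map_inv]
    have h2 : π (incl (Φ0 d)) = ι (Φ0 d) := rfl
    rw [h2, h1]
    group

end monster

end Cfsg.Agent.Lib.Helper92.MonBaby3
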