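import Mathlib
import Cfsg.Prelude.Def_MonsterType
import Cfsg.Agent.Lib.Helper92.MonBaby2
import Cfsg.Agent.Lib.Helper48.CharPGfs

/-!
Assembly of the Baby Monster type from data: a large extraspecial subgroup of order `2 ^ 23`
with central involution `z`, a homomorphism of the centralizer of `z` onto the stabiliser of `u`
with kernel the extraspecial subgroup, and a map from the vectors orthogonal to `u` modulo 2.
-/

set_option autoImplicit false

namespace Cfsg.Agent.Lib.Helper92.MonBaby4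

open Cfsg Cfsg.Agent.Lib.Helper92.LeechCore
open Cfsg.Agent.Lib.Helper92.O2Co2 Cfsg.Agent.Lib.Helper92.MonBaby2
open Cfsg.Agent.Lib.Helper90.ESData Cfsg.Agent.Lib.Helper90.FStarES

/-- The stabiliser of `u` has no non-trivial normal 2-subgroup. -/
theorem co2_normal_two (M' : Subgroup ↥Spor.Co2) (hp : IsPGroup 2 M') (hn : M'.Normal) :
    ∀ m ∈ M', m = 1 := by
  intro m hm
  have h := O2_stab Spor.leechU leechU_norm (M'.map incl) (hp.map incl) ?_ ?_ (incl m)
    ⟨m, hm, rfl⟩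
  · exact incl_inj (by rw [h, map_one])
  · rintro _ ⟨m', -, rfl⟩
    exact incl_fix m'
  · rintro k hk _ ⟨m', hm', rfl⟩
    refine ⟨toCo2 k hk * m' * (toCo2 k hk)⁻¹, hn.conj_mem m' hm' _, ?_⟩
    rw [map_mul, map_mul, map_inv, incl_toCo2]

theorem baby_of_data {G' : Type*} [Group G'] [Finite G'] (zb : G') (hz : orderOf zb = 2)
    (QG : Subgroup G') (hLarge : IsLargeExtraspecial QG)
    (hzQ : zb ∈ QG) (hzc : ∀ q ∈ QG, q * zb = zb * q)
    (hcard : Nat.card QG = 2 ^ 23)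
    (hwc : ∃ gb : G', gb * zb * gb⁻¹ ∈ QG ∧ gb * zb * gb⁻¹ ≠ zb)
    (Φ : ↥(Subgroup.centralizer ({zb} : Set G')) →* ↥Spor.Co2) (hsurj : Function.Surjective Φ)
    (hΦ : ∀ x, Φ x = 1 ↔ (x : G') ∈ QG)
    (lam : leechPerpU → G') (l0 : ∀ x, lam x ∈ QG)
    (l1 : ∀ x y, lam (x + y) = lam x * lam y ∨ lam (x + y) = lam x * lam y * zb)
    (l2 : ∀ q ∈ QG, ∃ x, lam x = q ∨ lam x = q * zb)
    (l3 : ∀ x : leechPerpU, (lam x = 1 ∨ lam x = zb) ↔
      ((∃ w : leechLattice, (x : leechLattice) = w + w) ∨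
        ∃ w : leechLattice, (x : leechLattice) = Spor.leechU + (w + w)))
    (l4 : ∀ (h : ↥(Subgroup.centralizer ({zb} : Set G'))) (x y : leechPerpU),
      (Φ h) • (x : leechLattice) = (y : leechLattice) →
      lam y = (h : G') * lam x * (h : G')⁻¹ ∨ lam y = (h : G') * lam x * (h : G')⁻¹ * zb) :
    IsOfBabyMonsterType G' := by
  obtain ⟨hES, hcent, hnormz, -⟩ := hLarge
  obtain ⟨z', hE, hz'Z, hZcases⟩ := exists_esd QG hES hcent hnormz
  have hzb1 : zb ≠ 1 := by
    intro h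
    rw [h, orderOf_one] at hz
    omega
  have hzbZ : zb ∈ (Subgroup.center ↥QG).map QG.subtype := by
    refine ⟨⟨zb, hzQ⟩, ?_, rfl⟩
    rw [SetLike.mem_coe, Subgroup.mem_center_iff]
    intro q
    apply Subtype.ext
    exact hzc q.1 q.2
  have hz' : z' = zb := by
    rcases hZcases zb hzbZ with h | h
    · exact absurd h hzb1
    · exact h.symm
  rw [hz'] at hE
  have hQY : ∀ q ∈ QG, q ∈ Subgroup.centralizer ({zb} : Set G') := by
    intro q hq
    rw [Subgroup.mem_centralizer_iff]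
    intro y hy
    rw [Set.mem_singleton_iff] at hy
    rw [hy]
    exact (hzc q hq).symm
  have hkerm : ∀ x : ↥(Subgroup.centralizer ({zb} : Set G')), x ∈ Φ.ker ↔ (x : G') ∈ QG :=
    fun x => by rw [MonoidHom.mem_ker]; exact hΦ x
  have hcenter : ∀ x : ↥Φ.ker, x ∈ Subgroup.center ↥Φ.ker ↔ (x.1.1 = 1 ∨ x.1.1 = zb) := by
    intro x
    rw [Subgroup.mem_center_iff]
    constructor
    · intro hx
      apply hE.cent
      intro q hq
      have := hx ⟨⟨q, hQY q hq⟩, (hkerm _).mpr hq⟩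
      exact (congrArg (fun y : ↥Φ.ker => y.1.1) this).symm
    · rintro (h | h) y
      · have : x = 1 := Subtype.ext (Subtype.ext h)
        rw [this, mul_one, one_mul]
      · apply Subtype.ext
        apply Subtype.ext
        show y.1.1 * x.1.1 = x.1.1 * y.1.1
        rw [h]
        exact hzc _ ((hkerm y.1).mp y.2)
  have hmk : ∀ a b : ↥Φ.ker,
      (QuotientGroup.mk a : ↥Φ.ker ⧸ Subgroup.center ↥Φ.ker) = QuotientGroup.mk b ↔
      (b.1.1 = a.1.1 ∨ b.1.1 = a.1.1 * zb) := by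
    intro a b
    rw [QuotientGroup.eq, hcenter]
    show (a.1.1⁻¹ * b.1.1 = 1 ∨ a.1.1⁻¹ * b.1.1 = zb) ↔ _
    constructor
    · rintro (h | h)
      · left
        exact (inv_mul_eq_one.mp h).symm
      · right
        calc b.1.1 = a.1.1 * (a.1.1⁻¹ * b.1.1) := by group
          _ = a.1.1 * zb := by rw [h]
    · rintro (h | h)
      · left
        rw [h]
        group
      · right
        rw [h]
        group
  have hker_eq : Φ.ker = QG.subgroupOf (Subgroup.centralizer ({zb} : Set G')) := by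
    ext x
    rw [hkerm, Subgroup.mem_subgroupOf]
  have hQYle : QG ≤ Subgroup.centralizer ({zb} : Set G') := hQY
  have eqv : ↥Φ.ker ≃* ↥QG :=
    (MulEquiv.subgroupCongr hker_eq).trans (Subgroup.subgroupOfEquivOfLe hQYle)
  have hcardker : Nat.card ↥Φ.ker = 2 ^ 23 := by rw [Nat.card_congr eqv.toEquiv, hcard]
  have hp2 : Cfsg.pCore 2 ↥(Subgroup.centralizer ({zb} : Set G')) = Φ.ker := by
    apply le_antisymm
    · have hPn : (Cfsg.pCore 2 ↥(Subgroup.centralizer ({zb} : Set G'))).Normal :=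
        Cfsg.Agent.Lib.Helper78.Fitting.pCore_normal 2
      have hPp : IsPGroup 2 (Cfsg.pCore 2 ↥(Subgroup.centralizer ({zb} : Set G'))) :=
        Cfsg.Agent.Lib.Helper78.Fitting.pCore_isPGroup 2
      intro x hx
      rw [MonoidHom.mem_ker]
      have hM'n : ((Cfsg.pCore 2 ↥(Subgroup.centralizer ({zb} : Set G'))).map Φ).Normal :=
        Subgroup.Normal.map hPn Φ hsurj
      have hM'p : IsPGroup 2 ((Cfsg.pCore 2 ↥(Subgroup.centralizer ({zb} : Set G'))).map Φ) :=
        hPp.map Φ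
      exact co2_normal_two _ hM'p hM'n (Φ x) ⟨x, hx, rfl⟩
    · apply le_sSup
      exact ⟨inferInstance, IsPGroup.of_card (n := 23) hcardker⟩
  have hgfs : generalizedFittingSubgroup ↥(Subgroup.centralizer ({zb} : Set G')) = Φ.ker := by
    have hcen : Subgroup.centralizer
        ((Cfsg.pCore 2 ↥(Subgroup.centralizer ({zb} : Set G')) :
          Subgroup ↥(Subgroup.centralizer ({zb} : Set G'))) :
          Set ↥(Subgroup.centralizer ({zb} : Set G')))
        ≤ Cfsg.pCore 2 ↥(Subgroup.centralizer ({zb} : Set G')) := by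
      rw [hp2]
      intro y hy
      rw [hkerm]
      have : (y : G') = 1 ∨ (y : G') = zb := by
        apply hE.cent
        intro q hq
        have h1 := Subgroup.mem_centralizer_iff.mp hy ⟨q, hQY q hq⟩ ((hkerm _).mpr hq)
        exact (congrArg Subtype.val h1).symm
      rcases this with h | h
      · rw [h]
        exact QG.one_mem
      · rw [h]
        exact hzQ
    rw [Cfsg.Agent.Lib.Helper48.CharPGfs.gfs_eq_pCore_of_centralizer_le 2 hcen, hp2]
  obtain ⟨κ, hκ⟩ : ∃ κ : leechPerpU → ↥Φ.ker, ∀ x, (κ x).1.1 = lam x :=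
    ⟨fun x => ⟨⟨lam x, hQY _ (l0 x)⟩, (hkerm _).mpr (l0 x)⟩, fun x => rfl⟩
  have hzz : zb * zb = 1 := by
    rw [← pow_two, ← hz]
    exact pow_orderOf_eq_one zb
  show ∃ (z : G') (Q : Subgroup ↥(Subgroup.centralizer ({z} : Set G'))) (_ : Q.Normal),
    IsExtraspecialCentralizerSetting z Q 11 ∧
    ∃ (e : (Subgroup.centralizer ({z} : Set G')) ⧸ Q ≃* Spor.Co2)
      (ψ : leechPerpU → Q ⧸ Subgroup.center Q), IsLeechPerpModTwoIso Q e ψ
  refine ⟨zb, Φ.ker, inferInstance, ⟨hz, hgfs, isExtraspecial_of_mulEquiv eqv.symm hES, ?_, ?_⟩,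
    QuotientGroup.quotientKerEquivOfSurjective Φ hsurj, fun x => QuotientGroup.mk (κ x),
    ?_, ?_, ?_, ?_⟩
  · rw [hcardker]
  · obtain ⟨gb, h1, h2⟩ := hwc
    exact ⟨gb, ⟨hQY _ h1, (hkerm _).mpr h1⟩, h2⟩
  · intro x y
    show (QuotientGroup.mk (κ (x + y)) : ↥Φ.ker ⧸ Subgroup.center ↥Φ.ker)
      = QuotientGroup.mk (κ x) * QuotientGroup.mk (κ y)
    rw [← QuotientGroup.mk_mul, eq_comm, hmk]
    show (κ (x + y)).1.1 = (κ x).1.1 * (κ y).1.1 ∨ (κ (x + y)).1.1 = (κ x).1.1 * (κ y).1.1 * zb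
    rw [hκ, hκ, hκ]
    exact l1 x y
  · intro c
    obtain ⟨q, rfl⟩ := QuotientGroup.mk_surjective c
    obtain ⟨x, hx⟩ := l2 q.1.1 ((hkerm q.1).mp q.2)
    refine ⟨x, ?_⟩
    show (QuotientGroup.mk (κ x) : ↥Φ.ker ⧸ Subgroup.center ↥Φ.ker) = QuotientGroup.mk q
    rw [eq_comm, hmk, hκ]
    exact hx
  · intro x
    show (QuotientGroup.mk (κ x) : ↥Φ.ker ⧸ Subgroup.center ↥Φ.ker) = 1 ↔ _
    rw [QuotientGroup.eq_one_iff, hcenter, hκ]
    exact l3 x
  · intro h g hg x y hxy q hq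
    have hΦh : Φ h = g := hg
    rw [← hΦh] at hxy
    have hq' : q.1.1 = (κ x).1.1 ∨ q.1.1 = (κ x).1.1 * zb := (hmk _ _).mp hq
    rw [hκ] at hq'
    have hzh : (h : G') * zb = zb * (h : G') :=
      (Subgroup.mem_centralizer_iff.mp h.2 zb (Set.mem_singleton zb)).symm
    have hzinv : zb * (h : G')⁻¹ = (h : G')⁻¹ * zb := by
      have := congrArg (fun w => (h : G')⁻¹ * w * (h : G')⁻¹) hzh
      simpa [mul_assoc] using this
    have hconjz : ∀ u : G', (h : G') * (u * zb) * (h : G')⁻¹ = (h : G') * u * (h : G')⁻¹ * zb := by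
      intro u
      calc (h : G') * (u * zb) * (h : G')⁻¹ = (h : G') * u * (zb * (h : G')⁻¹) := by group
        _ = (h : G') * u * ((h : G')⁻¹ * zb) := by rw [hzinv]
        _ = (h : G') * u * (h : G')⁻¹ * zb := by group
    rw [eq_comm, hmk, hκ]
    show lam y = (h : G') * q.1.1 * (h : G')⁻¹ ∨ lam y = (h : G') * q.1.1 * (h : G')⁻¹ * zb
    rcases hq' with h1 | h1 <;> rcases l4 h x y hxy with h2 | h2 <;> rw [h1, h2]
    · left
      rfl
    · right
      rfl
    · right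
      rw [hconjz, mul_assoc _ zb zb, hzz, mul_one]
    · left
      rw [hconjz]

end Cfsg.Agent.Lib.Helper92.MonBaby4
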