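import Mathlib
import Cfsg.Prelude.Def_MonsterType
import Cfsg.Agent.Lib.Helper92.MonBaby3

/-!
Groups of Monster type: for an involution `t` of `Q` not conjugate to `z`, the data inside `G`
from which the Baby Monster type of `C_G(t) / ⟨t⟩` is assembled: the homomorphism of
`C_G(z) ∩ C_G(t)` onto the stabiliser of `u`, and the map from the vectors orthogonal to `u`
modulo 2 to `C_Q(t)`.
-/

set_option autoImplicit false

namespace Cfsg.Agent.Lib.Helper92.MonBaby5

open Cfsg Cfsg.Agent.Lib.Helper92.LeechCore Cfsg.Agent.Lib.Helper92.ActQ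
open Cfsg.Agent.Lib.Helper92.MonQ Cfsg.Agent.Lib.Helper92.MonLat
open Cfsg.Agent.Lib.Helper92.MonVec Cfsg.Agent.Lib.Helper92.O2Co2
open Cfsg.Agent.Lib.Helper92.MonExcl Cfsg.Agent.Lib.Helper92.MonConj
open Cfsg.Agent.Lib.Helper92.Conway Cfsg.Agent.Lib.Helper92.Shells
open Cfsg.Agent.Lib.Helper92.MonMeet
open Cfsg.Agent.Lib.Helper92.MonBaby1 Cfsg.Agent.Lib.Helper92.MonBaby2
open Cfsg.Agent.Lib.Helper92.MonBaby3
open Cfsg.Agent.Lib.Helper92.Frames Cfsg.Agent.Lib.Helper92.Pairs
open Cfsg.Agent.S0398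

section monster

variable {G : Type*} [Group G] {z : G} {Q : Subgroup (Subgroup.centralizer ({z} : Set G))}
  [Q.Normal]

theorem monster_data [Finite G] (hM : IsOfMonsterType z Q) (t : G)
    (htc : t ∈ Subgroup.centralizer ({z} : Set G))
    (htQ : (⟨t, htc⟩ : Subgroup.centralizer ({z} : Set G)) ∈ Q)
    (ht2 : orderOf t = 2) (ht : ¬ IsConj z t) :
    ∃ (Φ0 : ↥(Subgroup.centralizer ({z} : Set G) ⊓ Subgroup.centralizer ({t} : Set G)) →*
        ↥Spor.Co2) (lamG : leechPerpU → G),
      Function.Surjective Φ0 ∧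
      (∀ d, Φ0 d = 1 ↔ (d : G) ∈ Q.map (Subgroup.centralizer ({z} : Set G)).subtype) ∧
      (∀ x, lamG x ∈ Q.map (Subgroup.centralizer ({z} : Set G)).subtype ⊓
        Subgroup.centralizer ({t} : Set G)) ∧
      (∀ x y, lamG (x + y) = lamG x * lamG y ∨ lamG (x + y) = lamG x * lamG y * z) ∧
      (∀ q ∈ Q.map (Subgroup.centralizer ({z} : Set G)).subtype ⊓
          Subgroup.centralizer ({t} : Set G), ∃ x, lamG x = q ∨ lamG x = q * z) ∧
      (∀ x : leechPerpU, (lamG x = 1 ∨ lamG x = t ∨ lamG x = z ∨ lamG x = z * t) ↔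
        ((∃ w : leechLattice, (x : leechLattice) = w + w) ∨
          ∃ w : leechLattice, (x : leechLattice) = Spor.leechU + (w + w))) ∧
      (∀ (d : ↥(Subgroup.centralizer ({z} : Set G) ⊓ Subgroup.centralizer ({t} : Set G)))
        (x y : leechPerpU), (Φ0 d) • (x : leechLattice) = (y : leechLattice) →
        lamG y = (d : G) * lamG x * (d : G)⁻¹ ∨ lamG y = (d : G) * lamG x * (d : G)⁻¹ * z) := by
  obtain ⟨e, ψ, hψ⟩ := hM.2
  have hL : LIso Q ψ := liso_of_iso hM.1.2.2.1 hψ
  have hcard := card_ne_two hM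
  obtain ⟨hnc, vt, hvt32, hvt⟩ := rep32 hM hψ ⟨⟨t, htc⟩, htQ⟩ ht2 ht
  obtain ⟨b, Φ0, hb, hsurj0, hker0, hrel⟩ := exists_Phi0 hM hψ t htc htQ hnc vt hvt32 hvt
  obtain ⟨hadd, hsurj, hker, hequiv⟩ := hψ
  generalize htQdef : (⟨⟨t, htc⟩, htQ⟩ : Q) = tQ at hnc hvt
  have htQ1 : tQ.1.1 = t := by rw [← htQdef]
  have hcz : hL.c.1.1 = z := by rw [hL.c_eq hM]; rfl
  have hzt : z * t = t * z := Subgroup.mem_centralizer_iff.mp htc z (Set.mem_singleton z)
  have hbinv : b⁻¹ • vt = Spor.leechU := by rw [inv_smul_eq_iff, hb]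
  -- orthogonality
  have hperp : ∀ x : leechPerpU, (16 : ℤ) ∣ dotInt ((b • (x : leechLattice) : leechLattice) :
      GolayPt → ℤ) (vt : GolayPt → ℤ) := by
    intro x
    have h1 := dot_smul b (x : leechLattice) Spor.leechU
    rw [hb] at h1
    rw [h1]
    exact x.2
  have hcommt : ∀ x : leechPerpU, lft ψ (b • (x : leechLattice)) * tQ
      = tQ * lft ψ (b • (x : leechLattice)) := fun x =>
    (comm_iff hL hcard (mk_lft _).symm hvt).mpr (hperp x)
  have hmemC : ∀ y : G, y ∈ Subgroup.centralizer ({t} : Set G) ↔ y * t = t * y := by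
    intro y
    rw [Subgroup.mem_centralizer_iff]
    constructor
    · intro h
      exact (h t (Set.mem_singleton t)).symm
    · intro h w hw
      rw [Set.mem_singleton_iff] at hw
      rw [hw]
      exact h.symm
  -- the two descriptions of the kernel
  have hA : ∀ x : leechPerpU,
      ((lft ψ (b • (x : leechLattice))).1.1 = 1 ∨ (lft ψ (b • (x : leechLattice))).1.1 = t ∨
        (lft ψ (b • (x : leechLattice))).1.1 = z ∨
        (lft ψ (b • (x : leechLattice))).1.1 = z * t) ↔
      (ψ (b • (x : leechLattice)) = 1 ∨ ψ (b • (x : leechLattice)) = ψ vt) := by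
    intro x
    have hmk : (QuotientGroup.mk (lft ψ (b • (x : leechLattice))) : ↥Q ⧸ Subgroup.center ↥Q)
        = ψ (b • (x : leechLattice)) := mk_lft _
    generalize lft ψ (b • (x : leechLattice)) = q at hmk
    rw [← hmk]
    constructor
    · rintro (h | h | h | h)
      · left
        have : q = 1 := Subtype.ext (Subtype.ext h)
        rw [this]
        rfl
      · right
        have : q = tQ := Subtype.ext (Subtype.ext (by rw [h, htQ1]))
        rw [this, hvt]
      · left
        have : q = hL.c := Subtype.ext (Subtype.ext (by rw [h, hcz]))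
        rw [this]
        exact (QuotientGroup.eq_one_iff _).mpr hL.c_mem
      · right
        have : q = hL.c * tQ := Subtype.ext (Subtype.ext (by
          show q.1.1 = hL.c.1.1 * tQ.1.1
          rw [h, hcz, htQ1]))
        rw [this, hvt, QuotientGroup.mk_mul, (QuotientGroup.eq_one_iff _).mpr hL.c_mem, one_mul]
    · rintro (h | h)
      · rcases hL.cases ((QuotientGroup.eq_one_iff q).mp h) with h1 | h1
        · left
          rw [h1]
          rfl
        · right
          right
          left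
          rw [h1, hcz]
      · rw [hvt] at h
        rcases hL.mk_eq h.symm with h1 | h1
        · right
          left
          rw [h1, htQ1]
        · right
          right
          right
          rw [h1]
          show tQ.1.1 * hL.c.1.1 = z * t
          rw [htQ1, hcz, hzt]
  have hB : ∀ x : leechPerpU,
      (ψ (b • (x : leechLattice)) = 1 ∨ ψ (b • (x : leechLattice)) = ψ vt) ↔
      ((∃ w : leechLattice, (x : leechLattice) = w + w) ∨
        ∃ w : leechLattice, (x : leechLattice) = Spor.leechU + (w + w)) := by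
    intro x
    constructor
    · rintro (h | h)
      · left
        obtain ⟨w, hw⟩ := (hker _).mp h
        refine ⟨b⁻¹ • w, ?_⟩
        rw [← smul_add', ← hw, inv_smul_smul]
      · right
        obtain ⟨w, hw⟩ := psi_eq_imp hL h
        refine ⟨b⁻¹ • w, ?_⟩
        rw [← smul_add', ← hbinv, ← smul_add', ← hw, inv_smul_smul]
    · rintro (⟨w, hw⟩ | ⟨w, hw⟩)
      · left
        rw [hw, smul_add']
        exact hL.psi_dbl _
      · right
        rw [hw, smul_add', smul_add', hb, hL.psi_congr]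
  refine ⟨Φ0, fun x => (lft ψ (b • (x : leechLattice))).1.1, hsurj0, hker0, ?_, ?_, ?_, ?_, ?_⟩
  · intro x
    refine ⟨⟨(lft ψ (b • (x : leechLattice))).1, (lft ψ (b • (x : leechLattice))).2, rfl⟩, ?_⟩
    show (lft ψ (b • (x : leechLattice))).1.1 ∈ Subgroup.centralizer ({t} : Set G)
    rw [hmemC, ← htQ1]
    exact congrArg (fun q : Q => q.1.1) (hcommt x)
  · intro x y
    have h1 : (QuotientGroup.mk (lft ψ (b • (x : leechLattice)) * lft ψ (b • (y : leechLattice))) :
        ↥Q ⧸ Subgroup.center ↥Q)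
        = QuotientGroup.mk (lft ψ (b • ((x + y : leechPerpU) : leechLattice))) := by
      rw [QuotientGroup.mk_mul, mk_lft, mk_lft, mk_lft, AddSubgroup.coe_add, smul_add', hadd]
    show (lft ψ (b • ((x + y : leechPerpU) : leechLattice))).1.1
        = (lft ψ (b • (x : leechLattice))).1.1 * (lft ψ (b • (y : leechLattice))).1.1 ∨
      (lft ψ (b • ((x + y : leechPerpU) : leechLattice))).1.1
        = (lft ψ (b • (x : leechLattice))).1.1 * (lft ψ (b • (y : leechLattice))).1.1 * z
    rcases hL.mk_eq h1 with h2 | h2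
    · left
      rw [h2]
      rfl
    · right
      rw [h2]
      show (lft ψ (b • (x : leechLattice))).1.1 * (lft ψ (b • (y : leechLattice))).1.1 * hL.c.1.1
        = _
      rw [hcz]
  · rintro q ⟨⟨qC, hqQ, rfl⟩, hqt⟩
    obtain ⟨v, hv⟩ := hL.surj (QuotientGroup.mk (⟨qC, hqQ⟩ : Q))
    have hqt' : (qC : G) * t = t * (qC : G) := (hmemC _).mp hqt
    have hcomm : (⟨qC, hqQ⟩ : Q) * tQ = tQ * ⟨qC, hqQ⟩ := by
      apply Subtype.ext
      apply Subtype.ext
      show (qC : G) * tQ.1.1 = tQ.1.1 * (qC : G)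
      rw [htQ1]
      exact hqt'
    have hdot := (comm_iff hL hcard hv hvt).mp hcomm
    have hx : (16 : ℤ) ∣ dotInt ((b⁻¹ • v : leechLattice) : GolayPt → ℤ) Spor.vecU := by
      have h1 := dot_smul b (b⁻¹ • v) Spor.leechU
      rw [smul_inv_smul, hb] at h1
      show (16 : ℤ) ∣ dotInt ((b⁻¹ • v : leechLattice) : GolayPt → ℤ)
        (Spor.leechU : GolayPt → ℤ)
      rw [← h1]
      exact hdot
    refine ⟨⟨b⁻¹ • v, hx⟩, ?_⟩
    have h2 : (QuotientGroup.mk (⟨qC, hqQ⟩ : Q) : ↥Q ⧸ Subgroup.center ↥Q)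
        = QuotientGroup.mk (lft ψ (b • (b⁻¹ • v))) := by
      rw [mk_lft, smul_inv_smul, hv]
    show (lft ψ (b • (b⁻¹ • v))).1.1 = (qC : G) ∨ (lft ψ (b • (b⁻¹ • v))).1.1 = (qC : G) * z
    rcases hL.mk_eq h2 with h3 | h3
    · left
      rw [h3]
    · right
      rw [h3]
      show (qC : G) * hL.c.1.1 = _
      rw [hcz]
  · intro x
    exact (hA x).trans (hB x)
  · intro d x y hxy
    have h1 := hequiv ⟨d.1, d.2.1⟩ (b * incl (Φ0 d) * b⁻¹) (hrel d).symm (b • (x : leechLattice))
      (lft ψ (b • (x : leechLattice))) (mk_lft _).symm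
    have hact : (b * incl (Φ0 d) * b⁻¹) • (b • (x : leechLattice)) = b • (y : leechLattice) := by
      rw [mul_smul, mul_smul, inv_smul_smul, incl_smul, hxy]
    rw [hact, ← mk_lft (ψ := ψ) (b • (y : leechLattice))] at h1
    show (lft ψ (b • (y : leechLattice))).1.1
        = (d : G) * (lft ψ (b • (x : leechLattice))).1.1 * (d : G)⁻¹ ∨
      (lft ψ (b • (y : leechLattice))).1.1
        = (d : G) * (lft ψ (b • (x : leechLattice))).1.1 * (d : G)⁻¹ * z
    rcases hL.mk_eq h1.symm with h2 | h2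
    · left
      rw [h2]
      rfl
    · right
      rw [h2]
      show (d : G) * (lft ψ (b • (x : leechLattice))).1.1 * (d : G)⁻¹ * hL.c.1.1 = _
      rw [hcz]

end monster

end Cfsg.Agent.Lib.Helper92.MonBaby5
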