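import Mathlib
import Cfsg.Prelude.Def_MonsterType
import Cfsg.Agent.Lib.Helper92.MonBaby4
import Cfsg.Agent.Lib.Helper92.MonMeet

/-!
Assembly of the Baby Monster type of `C_G(t) / ⟨t⟩` from data inside `G`.
-/

set_option autoImplicit false

namespace Cfsg.Agent.Lib.Helper92.MonBaby6

open Cfsg Cfsg.Agent.Lib.Helper92.LeechCore
open Cfsg.Agent.Lib.Helper92.MonBaby2 Cfsg.Agent.Lib.Helper92.MonBaby4
open Cfsg.Agent.Lib.Helper92.MonMeet

theorem mem_zpowers_invol {G : Type*} [Group G] {t : G} (htt : t * t = 1) (y : G) :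
    y ∈ Subgroup.zpowers t ↔ (y = 1 ∨ y = t) := by
  constructor
  · intro h
    obtain ⟨k, rfl⟩ := Subgroup.mem_zpowers_iff.mp h
    have h2 : t ^ (2 : ℤ) = 1 := by
      rw [zpow_two]
      exact htt
    rcases Int.even_or_odd' k with ⟨m, rfl | rfl⟩
    · left
      rw [zpow_mul, h2, one_zpow]
    · right
      rw [zpow_add, zpow_mul, h2, one_zpow, one_mul, zpow_one]
  · rintro (h | h)
    · rw [h]
      exact Subgroup.one_mem _
    · rw [h]
      exact Subgroup.mem_zpowers t

theorem quot_assemble {G : Type*} [Group G] [Finite G] (z t : G) (Qg : Subgroup G)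
    [hn : ((Subgroup.zpowers t).subgroupOf (Subgroup.centralizer ({t} : Set G))).Normal]
    (htt : t * t = 1) (ht1 : t ≠ 1) (hzz : z * z = 1) (hz1 : z ≠ 1) (htz : t ≠ z)
    (hzt : z * t = t * z) (htQg : t ∈ Qg) (hzQg : z ∈ Qg) (hzc : ∀ q ∈ Qg, q * z = z * q)
    (hnozt : ∀ c : G, c * z * c⁻¹ ≠ z * t)
    (hLarge : IsLargeExtraspecial
      (((Qg ⊓ Subgroup.centralizer ({t} : Set G)).subgroupOf
        (Subgroup.centralizer ({t} : Set G))).map
        (QuotientGroup.mk' ((Subgroup.zpowers t).subgroupOf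
          (Subgroup.centralizer ({t} : Set G))))))
    (hcardP : Nat.card ↥(Qg ⊓ Subgroup.centralizer ({t} : Set G)) = 2 ^ 24)
    (hs : ∃ x s : G, x ∈ Subgroup.centralizer ({t} : Set G) ∧
      s ∈ Qg ⊓ Subgroup.centralizer ({t} : Set G) ∧ x * s * x⁻¹ = z ∧ s ≠ z)
    (Φ0 : ↥(Subgroup.centralizer ({z} : Set G) ⊓ Subgroup.centralizer ({t} : Set G)) →*
      ↥Spor.Co2)
    (hsurj0 : Function.Surjective Φ0)
    (hker0 : ∀ d, Φ0 d = 1 ↔ (d : G) ∈ Qg)
    (lamG : leechPerpU → G)
    (l0G : ∀ x, lamG x ∈ Qg ⊓ Subgroup.centralizer ({t} : Set G))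
    (l1G : ∀ x y, lamG (x + y) = lamG x * lamG y ∨ lamG (x + y) = lamG x * lamG y * z)
    (l2G : ∀ q ∈ Qg ⊓ Subgroup.centralizer ({t} : Set G), ∃ x, lamG x = q ∨ lamG x = q * z)
    (l3G : ∀ x : leechPerpU, (lamG x = 1 ∨ lamG x = t ∨ lamG x = z ∨ lamG x = z * t) ↔
      ((∃ w : leechLattice, (x : leechLattice) = w + w) ∨
        ∃ w : leechLattice, (x : leechLattice) = Spor.leechU + (w + w)))
    (l4G : ∀ (d : ↥(Subgroup.centralizer ({z} : Set G) ⊓ Subgroup.centralizer ({t} : Set G)))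
      (x y : leechPerpU), (Φ0 d) • (x : leechLattice) = (y : leechLattice) →
      lamG y = (d : G) * lamG x * (d : G)⁻¹ ∨ lamG y = (d : G) * lamG x * (d : G)⁻¹ * z) :
    IsOfBabyMonsterType (↥(Subgroup.centralizer ({t} : Set G)) ⧸
      (Subgroup.zpowers t).subgroupOf (Subgroup.centralizer ({t} : Set G))) := by
  have hmemCt : ∀ y : G, y ∈ Subgroup.centralizer ({t} : Set G) ↔ y * t = t * y := by
    intro y
    rw [Subgroup.mem_centralizer_iff]
    constructor
    · intro h
      exact (h t (Set.mem_singleton t)).symm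
    · intro h w hw
      rw [Set.mem_singleton_iff] at hw
      rw [hw]
      exact h.symm
  have hmemCz : ∀ y : G, y ∈ Subgroup.centralizer ({z} : Set G) ↔ y * z = z * y := by
    intro y
    rw [Subgroup.mem_centralizer_iff]
    constructor
    · intro h
      exact (h z (Set.mem_singleton z)).symm
    · intro h w hw
      rw [Set.mem_singleton_iff] at hw
      rw [hw]
      exact h.symm
  have hzp := mem_zpowers_invol htt
  have hzCt : z ∈ Subgroup.centralizer ({t} : Set G) := (hmemCt z).mpr hzt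
  have htCt : t ∈ Subgroup.centralizer ({t} : Set G) := (hmemCt t).mpr rfl
  -- equality in the quotient
  have hmkeq : ∀ p p' : ↥(Subgroup.centralizer ({t} : Set G)),
      (QuotientGroup.mk p : ↥(Subgroup.centralizer ({t} : Set G)) ⧸
        (Subgroup.zpowers t).subgroupOf (Subgroup.centralizer ({t} : Set G)))
        = QuotientGroup.mk p' ↔ ((p' : G) = (p : G) ∨ (p' : G) = (p : G) * t) := by
    intro p p'
    rw [QuotientGroup.eq, Subgroup.mem_subgroupOf, hzp]
    show ((p : G)⁻¹ * (p' : G) = 1 ∨ (p : G)⁻¹ * (p' : G) = t) ↔ _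
    constructor
    · rintro (h | h)
      · left
        exact (inv_mul_eq_one.mp h).symm
      · right
        calc (p' : G) = (p : G) * ((p : G)⁻¹ * (p' : G)) := by group
          _ = (p : G) * t := by rw [h]
    · rintro (h | h)
      · left
        rw [h]
        group
      · right
        rw [h]
        group
  have hQGmem : ∀ y : ↥(Subgroup.centralizer ({t} : Set G)) ⧸
      (Subgroup.zpowers t).subgroupOf (Subgroup.centralizer ({t} : Set G)),
      y ∈ ((Qg ⊓ Subgroup.centralizer ({t} : Set G)).subgroupOf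
        (Subgroup.centralizer ({t} : Set G))).map
        (QuotientGroup.mk' ((Subgroup.zpowers t).subgroupOf
          (Subgroup.centralizer ({t} : Set G)))) ↔
      ∃ p : ↥(Subgroup.centralizer ({t} : Set G)),
        (p : G) ∈ Qg ⊓ Subgroup.centralizer ({t} : Set G) ∧ QuotientGroup.mk p = y := by
    intro y
    constructor
    · rintro ⟨p, hp, rfl⟩
      exact ⟨p, hp, rfl⟩
    · rintro ⟨p, hp, rfl⟩
      exact ⟨p, hp, rfl⟩
  -- the central involution of the quotient
  have hzb2 : (QuotientGroup.mk (⟨z, hzCt⟩ : ↥(Subgroup.centralizer ({t} : Set G))) :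
      ↥(Subgroup.centralizer ({t} : Set G)) ⧸
        (Subgroup.zpowers t).subgroupOf (Subgroup.centralizer ({t} : Set G))) ^ 2 = 1 := by
    rw [pow_two, ← QuotientGroup.mk_mul]
    have : (⟨z, hzCt⟩ : ↥(Subgroup.centralizer ({t} : Set G))) * ⟨z, hzCt⟩ = 1 :=
      Subtype.ext hzz
    rw [this]
    rfl
  have hzb1 : (QuotientGroup.mk (⟨z, hzCt⟩ : ↥(Subgroup.centralizer ({t} : Set G))) :
      ↥(Subgroup.centralizer ({t} : Set G)) ⧸
        (Subgroup.zpowers t).subgroupOf (Subgroup.centralizer ({t} : Set G))) ≠ 1 := by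
    intro h
    have h1 := (QuotientGroup.eq_one_iff _).mp h
    rw [Subgroup.mem_subgroupOf, hzp] at h1
    rcases h1 with h2 | h2
    · exact hz1 h2
    · exact htz h2.symm
  have hz : orderOf (QuotientGroup.mk (⟨z, hzCt⟩ : ↥(Subgroup.centralizer ({t} : Set G))) :
      ↥(Subgroup.centralizer ({t} : Set G)) ⧸
        (Subgroup.zpowers t).subgroupOf (Subgroup.centralizer ({t} : Set G))) = 2 :=
    orderOf_eq_prime hzb2 hzb1
  -- the homomorphism onto the centralizer of the central involution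
  let j : ↥(Subgroup.centralizer ({z} : Set G) ⊓ Subgroup.centralizer ({t} : Set G)) →*
      ↥(Subgroup.centralizer ({t} : Set G)) := Subgroup.inclusion inf_le_right
  have hρmem : ∀ d, ((QuotientGroup.mk' ((Subgroup.zpowers t).subgroupOf
      (Subgroup.centralizer ({t} : Set G)))).comp j) d ∈
      Subgroup.centralizer ({(QuotientGroup.mk (⟨z, hzCt⟩ :
        ↥(Subgroup.centralizer ({t} : Set G))) : ↥(Subgroup.centralizer ({t} : Set G)) ⧸
        (Subgroup.zpowers t).subgroupOf (Subgroup.centralizer ({t} : Set G)))} : Set _) := by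
    intro d
    rw [Subgroup.mem_centralizer_iff]
    intro y hy
    rw [Set.mem_singleton_iff] at hy
    rw [hy]
    show (QuotientGroup.mk (⟨z, hzCt⟩ : ↥(Subgroup.centralizer ({t} : Set G))) :
      ↥(Subgroup.centralizer ({t} : Set G)) ⧸
        (Subgroup.zpowers t).subgroupOf (Subgroup.centralizer ({t} : Set G)))
        * QuotientGroup.mk (j d) = QuotientGroup.mk (j d) * QuotientGroup.mk ⟨z, hzCt⟩
    rw [← QuotientGroup.mk_mul, ← QuotientGroup.mk_mul]
    congr 1
    apply Subtype.ext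
    show z * (d : G) = (d : G) * z
    exact ((hmemCz _).mp d.2.1).symm
  let ρ := ((QuotientGroup.mk' ((Subgroup.zpowers t).subgroupOf
      (Subgroup.centralizer ({t} : Set G)))).comp j).codRestrict _ hρmem
  have hρ : ∀ d, ((ρ d : ↥(Subgroup.centralizer ({(QuotientGroup.mk (⟨z, hzCt⟩ :
        ↥(Subgroup.centralizer ({t} : Set G))) : ↥(Subgroup.centralizer ({t} : Set G)) ⧸
        (Subgroup.zpowers t).subgroupOf (Subgroup.centralizer ({t} : Set G)))} : Set _))) :
      ↥(Subgroup.centralizer ({t} : Set G)) ⧸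
        (Subgroup.zpowers t).subgroupOf (Subgroup.centralizer ({t} : Set G)))
      = QuotientGroup.mk (j d) := fun d => rfl
  have hρsurj : Function.Surjective ρ := by
    intro y
    obtain ⟨c, hc⟩ := QuotientGroup.mk_surjective y.1
    have hy := Subgroup.mem_centralizer_iff.mp y.2 _ (Set.mem_singleton _)
    rw [← hc, ← QuotientGroup.mk_mul, ← QuotientGroup.mk_mul, hmkeq] at hy
    have hcz : (c : G) * z = z * (c : G) := by
      rcases hy with h | h
      · exact h
      · exfalso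
        apply hnozt (c : G)
        have h' : (c : G) * z = z * (c : G) * t := h
        have hct : (c : G) * t = t * (c : G) := (hmemCt _).mp c.2
        calc (c : G) * z * (c : G)⁻¹ = z * (c : G) * t * (c : G)⁻¹ := by rw [h']
          _ = z * ((c : G) * t) * (c : G)⁻¹ := by group
          _ = z * (t * (c : G)) * (c : G)⁻¹ := by rw [hct]
          _ = z * t := by group
    refine ⟨⟨(c : G), ⟨(hmemCz _).mpr hcz, c.2⟩⟩, ?_⟩
    apply Subtype.ext
    rw [hρ]
    exact hc
  have hkerle : ρ.ker ≤ Φ0.ker := by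
    intro d hd
    rw [MonoidHom.mem_ker] at hd ⊢
    rw [hker0]
    have h1 : (QuotientGroup.mk (j d) : ↥(Subgroup.centralizer ({t} : Set G)) ⧸
        (Subgroup.zpowers t).subgroupOf (Subgroup.centralizer ({t} : Set G))) = 1 := by
      rw [← hρ, hd]
      rfl
    have h2 := (QuotientGroup.eq_one_iff _).mp h1
    rw [Subgroup.mem_subgroupOf, hzp] at h2
    rcases h2 with h3 | h3
    · have : (d : G) = 1 := h3
      rw [this]
      exact Qg.one_mem
    · have : (d : G) = t := h3
      rw [this]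
      exact htQg
  obtain ⟨Φ, hΦρ⟩ : ∃ Φ : ↥(Subgroup.centralizer ({(QuotientGroup.mk (⟨z, hzCt⟩ :
        ↥(Subgroup.centralizer ({t} : Set G))) : ↥(Subgroup.centralizer ({t} : Set G)) ⧸
        (Subgroup.zpowers t).subgroupOf (Subgroup.centralizer ({t} : Set G)))} : Set _)) →*
        ↥Spor.Co2, ∀ d, Φ (ρ d) = Φ0 d :=
    ⟨ρ.liftOfSurjective hρsurj ⟨Φ0, hkerle⟩,
      fun d => MonoidHom.liftOfRightInverse_comp_apply _ _ _ _ d⟩
  -- the cardinality
  have hcard : Nat.card ↥(((Qg ⊓ Subgroup.centralizer ({t} : Set G)).subgroupOf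
        (Subgroup.centralizer ({t} : Set G))).map
        (QuotientGroup.mk' ((Subgroup.zpowers t).subgroupOf
          (Subgroup.centralizer ({t} : Set G))))) = 2 ^ 23 := by
    have h1 := card_inf_ker_mul (QuotientGroup.mk' ((Subgroup.zpowers t).subgroupOf
        (Subgroup.centralizer ({t} : Set G))))
      ((Qg ⊓ Subgroup.centralizer ({t} : Set G)).subgroupOf (Subgroup.centralizer ({t} : Set G)))
    rw [QuotientGroup.ker_mk'] at h1
    have hTle : (Subgroup.zpowers t).subgroupOf (Subgroup.centralizer ({t} : Set G))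
        ≤ (Qg ⊓ Subgroup.centralizer ({t} : Set G)).subgroupOf
          (Subgroup.centralizer ({t} : Set G)) := by
      intro c hc
      rw [Subgroup.mem_subgroupOf, hzp] at hc
      rw [Subgroup.mem_subgroupOf]
      rcases hc with h | h
      · rw [h]
        exact Subgroup.one_mem _
      · rw [h]
        exact ⟨htQg, htCt⟩
    rw [inf_eq_left.mpr hTle] at h1
    have h2 : Nat.card ↥((Subgroup.zpowers t).subgroupOf (Subgroup.centralizer ({t} : Set G)))
        = 2 := by
      rw [card_subgroupOf, inf_eq_left.mpr (Subgroup.zpowers_le.mpr htCt), Nat.card_zpowers]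
      exact orderOf_eq_prime (by rw [pow_two]; exact htt) ht1
    have h3 : Nat.card ↥((Qg ⊓ Subgroup.centralizer ({t} : Set G)).subgroupOf
        (Subgroup.centralizer ({t} : Set G))) = 2 ^ 24 := by
      rw [card_subgroupOf, inf_eq_left.mpr inf_le_right, hcardP]
    rw [h2, h3] at h1
    omega
  -- assembly
  refine baby_of_data (QuotientGroup.mk (⟨z, hzCt⟩ : ↥(Subgroup.centralizer ({t} : Set G))))
    hz _ hLarge ?_ ?_ hcard ?_ Φ ?_ ?_
    (fun x => QuotientGroup.mk (⟨lamG x, (l0G x).2⟩ : ↥(Subgroup.centralizer ({t} : Set G))))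
    ?_ ?_ ?_ ?_ ?_
  · exact (hQGmem _).mpr ⟨⟨z, hzCt⟩, ⟨hzQg, hzCt⟩, rfl⟩
  · intro q hq
    obtain ⟨p, hp, rfl⟩ := (hQGmem q).mp hq
    rw [← QuotientGroup.mk_mul, ← QuotientGroup.mk_mul]
    congr 1
    apply Subtype.ext
    exact hzc _ hp.1
  · obtain ⟨x, s, hx, hsP, hxs, hsz⟩ := hs
    refine ⟨QuotientGroup.mk (⟨x⁻¹, Subgroup.inv_mem _ hx⟩ :
      ↥(Subgroup.centralizer ({t} : Set G))), ?_⟩
    have hgb : (QuotientGroup.mk (⟨x⁻¹, Subgroup.inv_mem _ hx⟩ :
        ↥(Subgroup.centralizer ({t} : Set G))) : ↥(Subgroup.centralizer ({t} : Set G)) ⧸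
        (Subgroup.zpowers t).subgroupOf (Subgroup.centralizer ({t} : Set G)))
        * QuotientGroup.mk ⟨z, hzCt⟩ * (QuotientGroup.mk (⟨x⁻¹, Subgroup.inv_mem _ hx⟩ :
        ↥(Subgroup.centralizer ({t} : Set G))))⁻¹
        = QuotientGroup.mk (⟨s, hsP.2⟩ : ↥(Subgroup.centralizer ({t} : Set G))) := by
      rw [← QuotientGroup.mk_inv, ← QuotientGroup.mk_mul, ← QuotientGroup.mk_mul]
      congr 1
      apply Subtype.ext
      show x⁻¹ * z * x⁻¹⁻¹ = s
      rw [← hxs]
      group
    rw [hgb]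
    refine ⟨(hQGmem _).mpr ⟨⟨s, hsP.2⟩, hsP, rfl⟩, ?_⟩
    intro h
    rcases (hmkeq _ _).mp h with h1 | h1
    · exact hsz h1.symm
    · have h2 : z = s * t := h1
      apply hnozt x⁻¹
      have h3 : x⁻¹ * z * x⁻¹⁻¹ = s := by
        rw [← hxs]
        group
      rw [h3, h2, mul_assoc, htt, mul_one]
  · intro k
    obtain ⟨d, hd⟩ := hsurj0 k
    exact ⟨ρ d, by rw [hΦρ, hd]⟩
  · intro y
    obtain ⟨d, rfl⟩ := hρsurj y
    rw [hΦρ, hker0, hρ, hQGmem]
    constructor
    · intro h
      exact ⟨j d, ⟨h, d.2.2⟩, rfl⟩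
    · rintro ⟨p, hp, hpe⟩
      rcases (hmkeq p (j d)).mp hpe with h | h
      · have : (d : G) = (p : G) := h
        rw [this]
        exact hp.1
      · have : (d : G) = (p : G) * t := h
        rw [this]
        exact Qg.mul_mem hp.1 htQg
  · intro x
    exact (hQGmem _).mpr ⟨⟨lamG x, (l0G x).2⟩, l0G x, rfl⟩
  · intro x y
    rcases l1G x y with h | h
    · left
      rw [← QuotientGroup.mk_mul]
      congr 1
      exact Subtype.ext h
    · right
      rw [← QuotientGroup.mk_mul, ← QuotientGroup.mk_mul]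
      congr 1
      exact Subtype.ext h
  · intro q hq
    obtain ⟨p, hp, rfl⟩ := (hQGmem q).mp hq
    obtain ⟨x, hx⟩ := l2G p.1 hp
    refine ⟨x, ?_⟩
    rcases hx with h | h
    · left
      congr 1
      exact Subtype.ext h
    · right
      rw [← QuotientGroup.mk_mul]
      congr 1
      exact Subtype.ext h
  · intro x
    have h1 : (QuotientGroup.mk (⟨lamG x, (l0G x).2⟩ : ↥(Subgroup.centralizer ({t} : Set G))) :
        ↥(Subgroup.centralizer ({t} : Set G)) ⧸
        (Subgroup.zpowers t).subgroupOf (Subgroup.centralizer ({t} : Set G))) = 1 ↔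
        (lamG x = 1 ∨ lamG x = t) := by
      rw [QuotientGroup.eq_one_iff, Subgroup.mem_subgroupOf, hzp]
    have h2 : (QuotientGroup.mk (⟨lamG x, (l0G x).2⟩ : ↥(Subgroup.centralizer ({t} : Set G))) :
        ↥(Subgroup.centralizer ({t} : Set G)) ⧸
        (Subgroup.zpowers t).subgroupOf (Subgroup.centralizer ({t} : Set G)))
        = QuotientGroup.mk ⟨z, hzCt⟩ ↔ (lamG x = z ∨ lamG x = z * t) := by
      rw [eq_comm, hmkeq]
    rw [h1, h2, ← l3G x, or_assoc]
  · intro h x y hxy
    obtain ⟨d, rfl⟩ := hρsurj h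
    rw [hΦρ] at hxy
    rcases l4G d x y hxy with h1 | h1
    · left
      rw [hρ, ← QuotientGroup.mk_inv, ← QuotientGroup.mk_mul, ← QuotientGroup.mk_mul]
      congr 1
      exact Subtype.ext h1
    · right
      rw [hρ, ← QuotientGroup.mk_inv, ← QuotientGroup.mk_mul, ← QuotientGroup.mk_mul,
        ← QuotientGroup.mk_mul]
      congr 1
      exact Subtype.ext h1

end Cfsg.Agent.Lib.Helper92.MonBaby6
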