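import Mathlib
import Cfsg.Prelude.Def_MonsterType
import Cfsg.Agent.Lib.Helper92.MonMeet

/-!
Groups of Monster type: for a conjugate `s = g z g⁻¹` of `z` in `Q` other than `z`, the image `X`
in `C / Q` of the centralizer of `s` is a split extension of the image `E` of `g Q g⁻¹ ∩ C`,
elementary abelian of order `2 ^ 11`, by a copy of the group of the code.
-/

set_option autoImplicit false

namespace Cfsg.Agent.Lib.Helper92.MonSplit

open Cfsg Cfsg.Agent.Lib.Helper92.LeechCore Cfsg.Agent.Lib.Helper92.ActQ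
open Cfsg.Agent.Lib.Helper92.MonQ Cfsg.Agent.Lib.Helper92.MaxMono
open Cfsg.Agent.Lib.Helper92.NormalMono Cfsg.Agent.Lib.Helper92.MinVec
open Cfsg.Agent.Lib.Helper92.MonMeet
open Cfsg.Agent.Lib.Helper7.M24Mem
open Cfsg.Agent.S0398
open scoped Pointwise

theorem mono_empty_mul (σ τ : Equiv.Perm GolayPt) (hσ : σ ∈ M24) (hτ : τ ∈ M24) :
    mono σ hσ ∅ empty_mem * mono τ hτ ∅ empty_mem
      = mono (σ * τ) (M24.mul_mem hσ hτ) ∅ empty_mem := by
  rw [mono_mul]
  exact mono_congr _ _ rfl (by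
    ext i
    simp [Finset.mem_symmDiff])

/-- The coordinate permutations of the group of the code, as lattice automorphisms. -/
noncomputable def monoHom : ↥M24 →* ↥Co0 where
  toFun σ := mono σ.1 σ.2 ∅ empty_mem
  map_one' := mono_one
  map_mul' σ τ := (mono_empty_mul σ.1 τ.1 σ.2 τ.2).symm

theorem eps_mul_mono (σ : Equiv.Perm GolayPt) (hσ : σ ∈ M24) (c : Finset GolayPt) (hc : IsCW c) :
    eps c hc * mono σ hσ ∅ empty_mem = mono σ hσ c hc := by
  unfold eps
  rw [mono_mul]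
  exact mono_congr _ _ (one_mul σ) (by
    ext i
    simp [Finset.mem_symmDiff])

theorem mono_mul_negC (σ : Equiv.Perm GolayPt) (hσ : σ ∈ M24) (c : Finset GolayPt) (hc : IsCW c) :
    ∃ d, ∃ hd : IsCW d, mono σ hσ c hc * negC = mono σ hσ d hd := by
  rw [← eps_univ]
  unfold eps
  rw [mono_mul]
  exact ⟨_, _, mono_congr _ _ (mul_one σ) rfl⟩

theorem perm_of_mk_eq (a : ↥Co0) {σ τ : Equiv.Perm GolayPt} {hσ : σ ∈ M24} {hτ : τ ∈ M24}
    {c d : Finset GolayPt} {hc : IsCW c} {hd : IsCW d}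
    (h : (QuotientGroup.mk (a * mono σ hσ c hc * a⁻¹) : Spor.Co1)
      = QuotientGroup.mk (a * mono τ hτ d hd * a⁻¹)) : σ = τ := by
  rcases (mk_eq_iff _ _).mp h with h1 | h1
  · have h2 : mono τ hτ d hd = mono σ hσ c hc := mul_left_cancel (mul_right_cancel h1)
    exact (mono_inj h2).1.symm
  · obtain ⟨d', hd', h3⟩ := mono_mul_negC σ hσ c hc
    have hcen : a⁻¹ * negC = negC * a⁻¹ := Subgroup.mem_center_iff.mp negC_central a⁻¹
    have h4 : a * mono σ hσ c hc * a⁻¹ * negC = a * (mono σ hσ c hc * negC) * a⁻¹ := by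
      calc a * mono σ hσ c hc * a⁻¹ * negC = a * mono σ hσ c hc * (a⁻¹ * negC) := by
            rw [mul_assoc]
        _ = a * mono σ hσ c hc * (negC * a⁻¹) := by rw [hcen]
        _ = a * (mono σ hσ c hc * negC) * a⁻¹ := by simp only [mul_assoc]
    rw [h4, h3] at h1
    have h2 := mul_left_cancel (mul_right_cancel h1)
    exact (mono_inj h2).1.symm

theorem eps_conj' (σ : Equiv.Perm GolayPt) (hσ : σ ∈ M24) (d : Finset GolayPt) (hd : IsCW d)
    (c : Finset GolayPt) (hc : IsCW c) :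
    mono σ hσ d hd * eps c hc * (mono σ hσ d hd)⁻¹ = eps (σ • c) (smul_mem_supports hσ hc) := by
  have h : mono σ hσ d hd * eps c hc
      = eps (σ • c) (smul_mem_supports hσ hc) * mono σ hσ d hd := by
    unfold eps
    rw [mono_mul, mono_mul]
    have e2 : symmDiff (σ • c) ((1 : Equiv.Perm GolayPt) • d) = symmDiff d (σ • c) := by
      rw [one_smul, symmDiff_comm]
    exact (mono_congr _ _ (mul_one σ) rfl).trans (mono_congr _ _ (one_mul σ) e2).symm
  rw [h, mul_inv_cancel_right]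

theorem eps_sq (c : Finset GolayPt) (hc : IsCW c) : eps c hc * eps c hc = 1 := by
  rw [eps_mul]
  exact (mono_congr _ _ rfl (symmDiff_self c)).trans mono_one

theorem eps_comm (c d : Finset GolayPt) (hc : IsCW c) (hd : IsCW d) :
    eps c hc * eps d hd = eps d hd * eps c hc := by
  rw [eps_mul, eps_mul]
  exact mono_congr _ _ rfl (symmDiff_comm c d)

section monster

variable {G : Type*} [Group G] {z : G} {Q : Subgroup (Subgroup.centralizer ({z} : Set G))}
  [Q.Normal]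

theorem split [Finite G] (hM : IsOfMonsterType z Q) (g : G)
    (hsQ : ∃ hsc : g * z * g⁻¹ ∈ Subgroup.centralizer ({z} : Set G),
      (⟨g * z * g⁻¹, hsc⟩ : Subgroup.centralizer ({z} : Set G)) ∈ Q)
    (hsz : g * z * g⁻¹ ≠ z)
    (X E : Subgroup ((Subgroup.centralizer ({z} : Set G)) ⧸ Q))
    (hX : X = ((Subgroup.centralizer ({z} : Set G) ⊓
      Subgroup.centralizer ({g * z * g⁻¹} : Set G)).subgroupOf
        (Subgroup.centralizer ({z} : Set G))).map (QuotientGroup.mk' Q))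
    (hE : E = (((Q.map (Subgroup.centralizer ({z} : Set G)).subtype).map
      (MulAut.conj g).toMonoidHom ⊓ Subgroup.centralizer ({z} : Set G)).subgroupOf
        (Subgroup.centralizer ({z} : Set G))).map (QuotientGroup.mk' Q)) :
    E ≤ X ∧ (∀ x ∈ X, ∀ y ∈ E, x * y * x⁻¹ ∈ E) ∧ Cfsg.IsElementaryAbelian 2 E ∧
      Nat.card E = 2 ^ 11 ∧
      ∃ K : Subgroup ((Subgroup.centralizer ({z} : Set G)) ⧸ Q),
        K ≤ X ∧ E ⊓ K = ⊥ ∧ E ⊔ K = X ∧ Nonempty (K ≃* Cfsg.M24) := by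
  obtain ⟨e, a, h1, h2, -, -, -, h6⟩ := bridge hM g hsQ hsz
  rw [Subgroup.inf_subgroupOf_right] at hE
  generalize hQ'g_def : (Q.map (Subgroup.centralizer ({z} : Set G)).subtype).map
    (MulAut.conj g).toMonoidHom = Q'g at *
  have hEe : E.map (e : (Subgroup.centralizer ({z} : Set G)) ⧸ Q →* Spor.Co1)
      = (Q'g.subgroupOf (Subgroup.centralizer ({z} : Set G))).map
        ((e : (Subgroup.centralizer ({z} : Set G)) ⧸ Q →* Spor.Co1).comp
          (QuotientGroup.mk' Q)) := by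
    rw [hE, Subgroup.map_map]
  have hXe : X.map (e : (Subgroup.centralizer ({z} : Set G)) ⧸ Q →* Spor.Co1)
      = ((Subgroup.centralizer ({z} : Set G) ⊓
          Subgroup.centralizer ({g * z * g⁻¹} : Set G)).subgroupOf
            (Subgroup.centralizer ({z} : Set G))).map
        ((e : (Subgroup.centralizer ({z} : Set G)) ⧸ Q →* Spor.Co1).comp
          (QuotientGroup.mk' Q)) := by
    rw [hX, Subgroup.map_map]
  have hmap : ∀ (S : Subgroup ((Subgroup.centralizer ({z} : Set G)) ⧸ Q))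
      (x : (Subgroup.centralizer ({z} : Set G)) ⧸ Q),
      x ∈ S ↔ e x ∈ S.map (e : (Subgroup.centralizer ({z} : Set G)) ⧸ Q →* Spor.Co1) := by
    intro S x
    constructor
    · intro hx
      exact ⟨x, hx, rfl⟩
    · rintro ⟨y, hy, hyx⟩
      have : y = x := e.injective hyx
      rw [← this]
      exact hy
  have hEmem : ∀ x : (Subgroup.centralizer ({z} : Set G)) ⧸ Q,
      x ∈ E ↔ ∃ c, ∃ hc : IsCW c, e x = QuotientGroup.mk (a * eps c hc * a⁻¹) := by
    intro x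
    rw [hmap E x, hEe, h1]
  have hXmem : ∀ x : (Subgroup.centralizer ({z} : Set G)) ⧸ Q,
      x ∈ X ↔ ∃ k : ↥Co0, k • c0 = c0 ∧ e x = QuotientGroup.mk (a * k * a⁻¹) := by
    intro x
    rw [hmap X x, hXe, h2]
  have hEX : E ≤ X := by
    intro x hx
    obtain ⟨c, hc, hxc⟩ := (hEmem x).mp hx
    exact (hXmem x).mpr ⟨eps c hc, mono_c0 _ _ _ _, hxc⟩
  -- the complement
  let κ : ↥M24 →* (Subgroup.centralizer ({z} : Set G)) ⧸ Q :=
    (e.symm : Spor.Co1 →* (Subgroup.centralizer ({z} : Set G)) ⧸ Q).comp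
      ((QuotientGroup.mk' (Subgroup.center ↥Co0)).comp
        ((MulAut.conj a).toMonoidHom.comp monoHom))
  have hκ : ∀ σ : ↥M24, e (κ σ) = QuotientGroup.mk (a * mono σ.1 σ.2 ∅ empty_mem * a⁻¹) := by
    intro σ
    show e (e.symm _) = _
    rw [MulEquiv.apply_symm_apply]
    rfl
  have hκinj : Function.Injective κ := by
    intro σ τ hστ
    have h3 : e (κ σ) = e (κ τ) := by rw [hστ]
    rw [hκ, hκ] at h3
    exact Subtype.ext (perm_of_mk_eq a h3)
  refine ⟨hEX, ?_, ⟨?_, ?_⟩, ?_, κ.range, ?_, ?_, ?_, ⟨(MonoidHom.ofInjective hκinj).symm⟩⟩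
  · intro x hx y hy
    obtain ⟨k, hk, hxk⟩ := (hXmem x).mp hx
    obtain ⟨c, hc, hyc⟩ := (hEmem y).mp hy
    obtain ⟨σ, hσ, d, hd, rfl⟩ := stab_eq_mono k hk
    rw [hEmem]
    refine ⟨σ • c, smul_mem_supports hσ hc, ?_⟩
    rw [map_mul, map_mul, map_inv, hxk, hyc, ← eps_conj' σ hσ d hd c hc, ← QuotientGroup.mk_inv,
      ← QuotientGroup.mk_mul, ← QuotientGroup.mk_mul]
    congr 1
    group
  · rw [isMulCommutative_iff]
    rintro ⟨x, hx⟩ ⟨y, hy⟩
    apply Subtype.ext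
    show x * y = y * x
    obtain ⟨c, hc, hxc⟩ := (hEmem x).mp hx
    obtain ⟨d, hd, hyd⟩ := (hEmem y).mp hy
    apply e.injective
    rw [map_mul, map_mul, hxc, hyd, ← QuotientGroup.mk_mul, ← QuotientGroup.mk_mul]
    congr 1
    have h3 : a * eps c hc * a⁻¹ * (a * eps d hd * a⁻¹) = a * (eps c hc * eps d hd) * a⁻¹ := by
      group
    have h4 : a * eps d hd * a⁻¹ * (a * eps c hc * a⁻¹) = a * (eps d hd * eps c hc) * a⁻¹ := by
      group
    rw [h3, h4, eps_comm]
  · intro x hx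
    obtain ⟨c, hc, hxc⟩ := (hEmem x).mp hx
    apply e.injective
    rw [map_pow, hxc, map_one, ← QuotientGroup.mk_pow]
    have h3 : (a * eps c hc * a⁻¹) ^ 2 = a * (eps c hc * eps c hc) * a⁻¹ := by
      rw [pow_two]
      group
    rw [h3, eps_sq]
    have h4 : a * 1 * a⁻¹ = (1 : ↥Co0) := by group
    rw [h4]
    rfl
  · rw [← Subgroup.card_map_of_injective (K := E) (f := (e : (Subgroup.centralizer ({z} : Set G)) ⧸ Q →* Spor.Co1)) e.injective, hEe]
    exact h6
  · rintro x ⟨σ, rfl⟩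
    exact (hXmem _).mpr ⟨mono σ.1 σ.2 ∅ empty_mem, mono_c0 _ _ _ _, hκ σ⟩
  · rw [eq_bot_iff]
    rintro x ⟨hxE, ⟨σ, rfl⟩⟩
    obtain ⟨c, hc, hxc⟩ := (hEmem _).mp hxE
    rw [hκ] at hxc
    have h3 : (σ : Equiv.Perm GolayPt) = 1 := perm_of_mk_eq a hxc
    have h4 : σ = 1 := Subtype.ext h3
    rw [h4, map_one]
    exact Subgroup.mem_bot.mpr rfl
  · apply le_antisymm
    · apply sup_le hEX
      rintro x ⟨σ, rfl⟩
      exact (hXmem _).mpr ⟨mono σ.1 σ.2 ∅ empty_mem, mono_c0 _ _ _ _, hκ σ⟩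
    · intro x hx
      obtain ⟨k, hk, hxk⟩ := (hXmem x).mp hx
      obtain ⟨σ, hσ, c, hc, rfl⟩ := stab_eq_mono k hk
      have h3 : x = e.symm (QuotientGroup.mk (a * eps c hc * a⁻¹)) * κ ⟨σ, hσ⟩ := by
        apply e.injective
        rw [map_mul, MulEquiv.apply_symm_apply, hκ, hxk, ← QuotientGroup.mk_mul]
        congr 1
        rw [← eps_mul_mono σ hσ c hc]
        group
      rw [h3]
      apply Subgroup.mul_mem_sup
      · exact (hEmem _).mpr ⟨c, hc, by rw [MulEquiv.apply_symm_apply]⟩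
      · exact ⟨⟨σ, hσ⟩, rfl⟩

end monster

end Cfsg.Agent.Lib.Helper92.MonSplit
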