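import Mathlib
import Cfsg.Agent.Lib.Helper24.R3Stmt
import Cfsg.Agent.Lib.Helper61.TitsG

/-!
# S1788 piece TITS (helper92): the Tits group has 2-rank at least 3

Three pairwise commuting involutions `tlU 9`, `tlU 6 * tlU 8`, `(tlU 4 * tlU 8) ^ 2` of the Tits
group `K = closure {tlU 0, tlU 1}` (`Helper61`), generating a subgroup of order 8.
-/

set_option autoImplicit false

namespace Cfsg.Agent.Lib.Helper92.R3TITS

open Cfsg.Lie Cfsg.Agent.Lib.Helper61.F2Fast Cfsg.Agent.Lib.Helper61.TitsData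
open Cfsg.Agent.Lib.Helper61.TitsMain Cfsg.Agent.Lib.Helper61.TitsGrp
open Cfsg.Agent.Lib.Helper61.TitsG

attribute [local instance] actGL

/-- the products `a ^ i * b ^ j * c ^ k`, `i, j, k ∈ {0, 1}` -/
def f3 {X : Type*} [Group X] (a b c : X) (i : Fin 2 × Fin 2 × Fin 2) : X :=
  a ^ (i.1 : ℕ) * b ^ (i.2.1 : ℕ) * c ^ (i.2.2 : ℕ)

/-- Three pairwise commuting involutions with all seven products different from 1 generate an
elementary abelian group of order 8. -/
theorem rank3_of_three {X : Type*} [Group X] (a b c : X) (ha : a * a = 1) (hb : b * b = 1)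
    (hc : c * c = 1) (hab : Commute a b) (hac : Commute a c) (hbc : Commute b c)
    (h1 : a ≠ 1) (h2 : b ≠ 1) (h3 : a * b ≠ 1) (h4 : c ≠ 1) (h5 : a * c ≠ 1) (h6 : b * c ≠ 1)
    (h7 : a * b * c ≠ 1) : Cfsg.PRankAtLeast 2 3 X := by
  have hpow : ∀ x : X, x * x = 1 → ∀ i j : Fin 2,
      x ^ (i : ℕ) * x ^ (j : ℕ) = x ^ ((i + j : Fin 2) : ℕ) := by
    intro x hx i j
    have hx2 : x ^ 2 = 1 := by rw [pow_two, hx]
    rw [← pow_add, Fin.val_add]
    exact pow_eq_pow_mod _ hx2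
  have hmul : ∀ i j, f3 a b c i * f3 a b c j = f3 a b c (i + j) := by
    intro i j
    show a ^ (i.1 : ℕ) * b ^ (i.2.1 : ℕ) * c ^ (i.2.2 : ℕ) *
        (a ^ (j.1 : ℕ) * b ^ (j.2.1 : ℕ) * c ^ (j.2.2 : ℕ)) =
      a ^ ((i.1 + j.1 : Fin 2) : ℕ) * b ^ ((i.2.1 + j.2.1 : Fin 2) : ℕ) *
        c ^ ((i.2.2 + j.2.2 : Fin 2) : ℕ)
    rw [Commute.mul_mul_mul_comm ((hac.pow_pow _ _).symm.mul_right (hbc.pow_pow _ _).symm),
      Commute.mul_mul_mul_comm (hab.pow_pow _ _).symm, hpow a ha, hpow b hb, hpow c hc]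
  have hzero : f3 a b c 0 = 1 := by
    show a ^ ((0 : Fin 2) : ℕ) * b ^ ((0 : Fin 2) : ℕ) * c ^ ((0 : Fin 2) : ℕ) = 1
    simp
  have hdouble : ∀ i : Fin 2 × Fin 2 × Fin 2, i + i = 0 := by decide
  have hcases : ∀ l : Fin 2 × Fin 2 × Fin 2, l = (0, 0, 0) ∨ l = (1, 0, 0) ∨ l = (0, 1, 0) ∨
      l = (1, 1, 0) ∨ l = (0, 0, 1) ∨ l = (1, 0, 1) ∨ l = (0, 1, 1) ∨ l = (1, 1, 1) := by decide
  have hker : ∀ l, f3 a b c l = 1 → l = 0 := by
    intro l hl
    rcases hcases l with rfl | rfl | rfl | rfl | rfl | rfl | rfl | rfl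
    · rfl
    · exact absurd (by simpa [f3] using hl) h1
    · exact absurd (by simpa [f3] using hl) h2
    · exact absurd (by simpa [f3] using hl) h3
    · exact absurd (by simpa [f3] using hl) h4
    · exact absurd (by simpa [f3] using hl) h5
    · exact absurd (by simpa [f3] using hl) h6
    · exact absurd (by simpa [f3] using hl) h7
  have hsame : ∀ i j : Fin 2 × Fin 2 × Fin 2, i + j = 0 → i = j := by decide
  refine Cfsg.Agent.Lib.Helper24.R3Stmt.pRank_of_map 3 (f3 a b c) ?_ ?_ ⟨0, hzero⟩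
    (fun i j => ⟨i + j, hmul i j⟩) ?_ ?_
  · intro i j hij
    apply hsame
    apply hker
    rw [← hmul, hij, hmul, hdouble, hzero]
  · rw [Nat.card_eq_fintype_card]
    simp
  · intro i j
    rw [hmul, hmul, add_comm]
  · intro i
    rw [pow_two, hmul, hdouble, hzero]

/-! ### the three involutions -/

def wa : List ℕ := [9]
def wb : List ℕ := [6, 8]
def wc : List ℕ := [4, 8, 4, 8]

/-- a word moving a basis vector is not the identity -/
theorem ne_one_of {w : List ℕ} (k : ℕ) (hk : k < 52)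
    (h : Nat.beq (fmvW ttab w (2 ^ k)) (2 ^ k) = false) : wp tlU w ≠ 1 := by
  intro h1
  have h2 := tw_sound w (2 ^ k) (two_pow_lt k hk)
  rw [h1, one_smul] at h2
  have h3 := vecOf_inj_lt (fmvW_lt _ _ _ (two_pow_lt k hk)) (two_pow_lt k hk) h2
  rw [h3, Nat.beq_refl] at h
  exact Bool.noConfusion h

theorem sq_of {w : List ℕ} (h : idchk (w ++ w) [] = true) : wp tlU w * wp tlU w = 1 := by
  have := idchk_sound h
  rwa [wp_append, wp_nil] at this

theorem comm_of {u w : List ℕ} (h : idchk (u ++ w) (w ++ u) = true) :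
    Commute (wp tlU u) (wp tlU w) := by
  have := idchk_sound h
  rwa [wp_append, wp_append] at this

theorem a_sq : wp tlU wa * wp tlU wa = 1 := sq_of (by decide +kernel)
theorem b_sq : wp tlU wb * wp tlU wb = 1 := sq_of (by decide +kernel)
theorem c_sq : wp tlU wc * wp tlU wc = 1 := sq_of (by decide +kernel)
theorem ab_comm : Commute (wp tlU wa) (wp tlU wb) := comm_of (by decide +kernel)
theorem ac_comm : Commute (wp tlU wa) (wp tlU wc) := comm_of (by decide +kernel)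
theorem bc_comm : Commute (wp tlU wb) (wp tlU wc) := comm_of (by decide +kernel)

theorem a_ne : wp tlU wa ≠ 1 := ne_one_of 1 (by norm_num) (by decide +kernel)
theorem b_ne : wp tlU wb ≠ 1 := ne_one_of 0 (by norm_num) (by decide +kernel)
theorem ab_ne : wp tlU wa * wp tlU wb ≠ 1 := by
  rw [← wp_append]
  exact ne_one_of 0 (by norm_num) (by decide +kernel)
theorem c_ne : wp tlU wc ≠ 1 := ne_one_of 1 (by norm_num) (by decide +kernel)
theorem ac_ne : wp tlU wa * wp tlU wc ≠ 1 := by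
  rw [← wp_append]
  exact ne_one_of 3 (by norm_num) (by decide +kernel)
theorem bc_ne : wp tlU wb * wp tlU wc ≠ 1 := by
  rw [← wp_append]
  exact ne_one_of 0 (by norm_num) (by decide +kernel)
theorem abc_ne : wp tlU wa * wp tlU wb * wp tlU wc ≠ 1 := by
  rw [← wp_append, ← wp_append]
  exact ne_one_of 0 (by norm_num) (by decide +kernel)

theorem a_mem : wp tlU wa ∈ K := wK (by decide)
theorem b_mem : wp tlU wb ∈ K := wK (by decide)
theorem c_mem : wp tlU wc ∈ K := wK (by decide)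

/-- an element of `K`, as an element of the commutator subgroup of `²F₄(2)` -/
def toT (x : GLt) (hx : x ∈ K) : ↥(commutator ↥G) :=
  ⟨⟨x, K_le_G hx⟩, by rw [comm_eq]; exact Subgroup.mem_subgroupOf.2 hx⟩

theorem toT_mul (x y : GLt) (hx : x ∈ K) (hy : y ∈ K) :
    toT x hx * toT y hy = toT (x * y) (K.mul_mem hx hy) := rfl

theorem toT_eq_one (x : GLt) (hx : x ∈ K) (h : toT x hx = 1) : x = 1 := by
  have h1 := congrArg (fun t : ↥(commutator ↥G) => ((t : ↥G) : GLt)) h
  exact h1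

theorem rank3 : Cfsg.PRankAtLeast 2 3 ↥(commutator ↥G) := by
  refine rank3_of_three (toT _ a_mem) (toT _ b_mem) (toT _ c_mem) ?_ ?_ ?_ ?_ ?_ ?_ ?_ ?_ ?_ ?_
    ?_ ?_ ?_
  · rw [toT_mul]; exact Subtype.ext (Subtype.ext a_sq)
  · rw [toT_mul]; exact Subtype.ext (Subtype.ext b_sq)
  · rw [toT_mul]; exact Subtype.ext (Subtype.ext c_sq)
  · show toT _ a_mem * toT _ b_mem = toT _ b_mem * toT _ a_mem
    rw [toT_mul, toT_mul]; exact Subtype.ext (Subtype.ext ab_comm.eq)
  · show toT _ a_mem * toT _ c_mem = toT _ c_mem * toT _ a_mem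
    rw [toT_mul, toT_mul]; exact Subtype.ext (Subtype.ext ac_comm.eq)
  · show toT _ b_mem * toT _ c_mem = toT _ c_mem * toT _ b_mem
    rw [toT_mul, toT_mul]; exact Subtype.ext (Subtype.ext bc_comm.eq)
  · intro h; exact a_ne (toT_eq_one _ _ h)
  · intro h; exact b_ne (toT_eq_one _ _ h)
  · rw [toT_mul]; intro h; exact ab_ne (toT_eq_one _ _ h)
  · intro h; exact c_ne (toT_eq_one _ _ h)
  · rw [toT_mul]; intro h; exact ac_ne (toT_eq_one _ _ h)
  · rw [toT_mul]; intro h; exact bc_ne (toT_eq_one _ _ h)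
  · rw [toT_mul, toT_mul]; intro h; exact abc_ne (toT_eq_one _ _ h)

theorem main : Cfsg.Agent.Lib.Helper24.R3Stmt.RTits := rank3

end Cfsg.Agent.Lib.Helper92.R3TITS
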