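import Mathlib
import Cfsg.Agent.Lib.Helper18.ReeMultStmt

/-!
# S2113 / AAB

The preimage of `A = {x 0 u v}` is abelian.
-/

set_option autoImplicit false

namespace Cfsg.Agent.Lib.Helper92.ReeMultAAB

open Cfsg.Agent.Lib.Helper18 Cfsg.Agent.Lib.Helper18.ReeMultStmt
open scoped commutatorElement

universe u v w

theorem main : AAB.{u, v, w} := by
  intro Γ _ G _ K _ _ m φ x e σ E hz hu u v u' v'
  have hdec : ∀ a b : K, x 0 a b = x 0 a 0 * x 0 0 b := by
    intro a b
    rw [E.par.x_mul]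
    simp
  rw [hdec u v, cm_mul_left_one σ E.surj E.cen (hz v 0 u' v'), hdec u' v']
  have h1 : cm σ E.surj (x 0 u 0) (x 0 0 v') = 1 := by
    rw [← cm_inv σ E.surj (x 0 0 v') (x 0 u 0), hz v' 0 u 0, inv_one]
  rw [cm_mul_right_one σ E.surj E.cen h1]
  exact hu u u'

end Cfsg.Agent.Lib.Helper92.ReeMultAAB
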