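import Mathlib
import Cfsg.Agent.Lib.Helper18.ReeMultStmt

/-!
# S2113 / LMAP

`lft s₁ u v` is a lift of `x 0 u v`; basic identities for the parametrization.
-/

set_option autoImplicit false

namespace Cfsg.Agent.Lib.Helper92.ReeMultLMAP

open Cfsg.Agent.Lib.Helper18 Cfsg.Agent.Lib.Helper18.ReeMultStmt
open scoped commutatorElement

universe u v w

section

variable {G : Type u} [Group G] {K : Type v} [Field K] [Fintype K] {m : ℕ} {φ : K →+* K}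
  {x : K → K → K → G} {e : K → G}

theorem x_zero (P : ReeOutStmt.OPar G K m φ x e) : x 0 0 0 = 1 := by
  have h := P.x_mul 0 0 0 0 0 0
  simpa using h

theorem x0_mul (P : ReeOutStmt.OPar G K m φ x e) (u v u' v' : K) :
    x 0 u v * x 0 u' v' = x 0 (u + u') (v + v') := by
  rw [P.x_mul]
  simp

theorem x0_inv (P : ReeOutStmt.OPar G K m φ x e) (u v : K) : (x 0 u v)⁻¹ = x 0 (-u) (-v) := by
  apply inv_eq_of_mul_eq_one_right
  rw [x0_mul P]
  simp [x_zero P]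

theorem e_conj (P : ReeOutStmt.OPar G K m φ x e) (s : K) (hs : s ≠ 0) (t u v : K) :
    e s * x t u v * (e s)⁻¹ = x (s ^ 2 / φ s ^ 3 * t) (φ s ^ 3 / s * u) (s * v) := by
  rw [P.e_x s hs, mul_inv_cancel_right]

theorem comm_e_x0 (P : ReeOutStmt.OPar G K m φ x e) (s : K) (hs : s ≠ 0) (u v : K) :
    ⁅e s, x 0 u v⁆ = x 0 ((φ s ^ 3 / s - 1) * u) ((s - 1) * v) := by
  rw [commutatorElement_def, e_conj P s hs, x0_inv P, mul_zero, x0_mul P]
  have h1 : φ s ^ 3 / s * u + -u = (φ s ^ 3 / s - 1) * u := by ring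
  have h2 : s * v + -v = (s - 1) * v := by ring
  rw [h1, h2]

theorem s_sub_one_ne {s₁ : K} (h3 : s₁ ^ 3 ≠ s₁) : s₁ - 1 ≠ 0 := by
  intro h
  apply h3
  have h1 : s₁ = 1 := sub_eq_zero.mp h
  rw [h1]
  simp

theorem psi_sub_one_ne (P : ReeOutStmt.OPar G K m φ x e) {s₁ : K} (h0 : s₁ ≠ 0)
    (h3 : s₁ ^ 3 ≠ s₁) : φ s₁ ^ 3 / s₁ - 1 ≠ 0 := by
  intro h
  apply h3
  have h1 : φ s₁ ^ 3 = s₁ := by
    have h4 := sub_eq_zero.mp h
    rwa [div_eq_one_iff_eq h0] at h4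
  have h2 : φ (φ s₁) ^ 3 = φ s₁ := by rw [← map_pow, h1]
  have h5 : φ s₁ = s₁ := h2.symm.trans (P.phi3 s₁)
  rw [h5] at h1
  exact h1

end

theorem main : LMAP.{u, v, w} := by
  intro Γ _ G _ K _ _ m φ x e σ E s₁ h0 h3 u v
  unfold lft
  rw [map_cm, comm_e_x0 E.par s₁ h0]
  have hne1 := psi_sub_one_ne E.par h0 h3
  have hne2 := s_sub_one_ne h3
  have h1 : (φ s₁ ^ 3 / s₁ - 1) * (u / (φ s₁ ^ 3 / s₁ - 1)) = u := by
    rw [mul_div_assoc', mul_div_cancel_left₀ _ hne1]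
  have h2 : (s₁ - 1) * (v / (s₁ - 1)) = v := by
    rw [mul_div_assoc', mul_div_cancel_left₀ _ hne2]
  rw [h1, h2]

end Cfsg.Agent.Lib.Helper92.ReeMultLMAP
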