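import Mathlib
import Cfsg.Agent.Lib.Helper18.ReeMultStmt
import Cfsg.Agent.Lib.Helper92.ReeMultLMAP

/-!
# S2113 / LMUL

`lft s₁` is additive.
-/

set_option autoImplicit false

namespace Cfsg.Agent.Lib.Helper92.ReeMultLMUL

open Cfsg.Agent.Lib.Helper18 Cfsg.Agent.Lib.Helper18.ReeMultStmt
open scoped commutatorElement

universe u v w

theorem main : LMUL.{u, v, w} := by
  intro Γ _ G _ K _ _ m φ x e σ E s₁ h0 h3 hA u v u' v'
  have hmap := Cfsg.Agent.Lib.Helper92.ReeMultLMAP.main Γ G K m φ x e σ E s₁ h0 h3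
  have hcomm : sec σ E.surj (x 0 (u / (φ s₁ ^ 3 / s₁ - 1)) (v / (s₁ - 1))) *
      lft σ E.surj φ x e s₁ u' v' =
      lft σ E.surj φ x e s₁ u' v' *
        sec σ E.surj (x 0 (u / (φ s₁ ^ 3 / s₁ - 1)) (v / (s₁ - 1))) := by
    apply comm_of_cm σ E.surj E.cen
    rw [sec_spec, hmap]
    exact hA _ _ _ _
  have hsum : x 0 ((u + u') / (φ s₁ ^ 3 / s₁ - 1)) ((v + v') / (s₁ - 1)) =
      x 0 (u / (φ s₁ ^ 3 / s₁ - 1)) (v / (s₁ - 1)) *
        x 0 (u' / (φ s₁ ^ 3 / s₁ - 1)) (v' / (s₁ - 1)) := by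
    rw [Cfsg.Agent.Lib.Helper92.ReeMultLMAP.x0_mul E.par, add_div, add_div]
  unfold lft at hcomm ⊢
  rw [hsum, cm_mul_right σ E.surj E.cen, hcomm, mul_inv_cancel_right]

end Cfsg.Agent.Lib.Helper92.ReeMultLMUL
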