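import Mathlib
import Cfsg.Agent.Lib.Helper18.ReeMultStmt

/-!
# S2113 / ZCENT

Lifts of `x 0 0 v` commute with the lifts of all `x t u v'`.
-/

set_option autoImplicit false

namespace Cfsg.Agent.Lib.Helper92.ReeMultZCENT

open Cfsg.Agent.Lib.Helper18 Cfsg.Agent.Lib.Helper18.ReeMultStmt
open scoped commutatorElement

universe u v w

theorem main : ZCENT.{u, v, w} := by
  intro Γ _ G _ K _ _ m φ x e σ E h1 h2 h3 v t u v'
  have hdec : x t u v' = x t 0 0 * x 0 u 0 * x 0 0 v' := by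
    rw [E.par.x_mul, E.par.x_mul]
    simp
  rw [hdec, cm_mul_right_one σ E.surj E.cen (h1 v v'),
    cm_mul_right_one σ E.surj E.cen (h2 v u)]
  exact h3 v t

end Cfsg.Agent.Lib.Helper92.ReeMultZCENT
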